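import Mathlib

/-!
# Computations with central elements, used for the Schur multiplier of the alternating groups
-/

set_option autoImplicit false

namespace Cfsg.Agent.Lib.Helper66.AltStem

variable {Γ : Type*} [Group Γ]

theorem cen {x : Γ} (hx : x ∈ Subgroup.center Γ) (g : Γ) : Commute g x :=
  Subgroup.mem_center_iff.mp hx g

theorem conj_cen {x : Γ} (hx : x ∈ Subgroup.center Γ) (g : Γ) : g * x * g⁻¹ = x := by
  rw [(cen hx g).eq, mul_inv_cancel_right]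

/-- `H1`: conjugation relation coming from a square relator. -/
theorem conj_of_sq (x w : Γ) : w * x * w⁻¹ = x⁻¹ * ((x * w) ^ 2 * (w ^ 2)⁻¹) := by
  simp only [sq]; group

/-- `CP`: if `w` inverts `x` up to a central `δ` and `x ^ k = a` is central then `a ^ 2 = δ ^ k`. -/
theorem sq_eq_pow_of_conj {x w δ a : Γ} (k : ℕ) (hδ : δ ∈ Subgroup.center Γ)
    (ha : a ∈ Subgroup.center Γ) (hx : x ^ k = a) (hw : w * x * w⁻¹ = x⁻¹ * δ) :
    a ^ 2 = δ ^ k := by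
  have h1 : (w * x * w⁻¹) ^ k = a := by rw [conj_pow, hx, conj_cen ha]
  rw [hw, (cen hδ x⁻¹).mul_pow, inv_pow, hx] at h1
  rw [sq]
  nth_rewrite 1 [← h1]
  rw [mul_assoc, ((cen ha (δ ^ k)).eq), ← mul_assoc, inv_mul_cancel, one_mul]

/-- `G`. -/
theorem sq_mul_sq_eq {u v b b' d : Γ} (hb : b ∈ Subgroup.center Γ) (hb' : b' ∈ Subgroup.center Γ)
    (hd : d ∈ Subgroup.center Γ) (hu : u ^ 2 = b) (hv : v ^ 2 = b') (huv : (u * v) ^ 2 = d) :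
    b ^ 2 = (d * b'⁻¹) ^ 2 := by
  apply sq_eq_pow_of_conj 2 (mul_mem hd (inv_mem hb')) hb hu (w := v)
  rw [conj_of_sq, huv, hv]

/-- `T2`/`O2`. -/
theorem cube_of_braid {u v b b' c : Γ} (hb : b ∈ Subgroup.center Γ) (hb' : b' ∈ Subgroup.center Γ)
    (hc : c ∈ Subgroup.center Γ) (hu : u ^ 2 = b) (hv : v ^ 2 = b') (huv : (u * v) ^ 3 = c) :
    c ^ 2 = (b * b') ^ 3 := by
  apply sq_eq_pow_of_conj 3 (mul_mem hb hb') hc huv (w := u)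
  calc u * (u * v) * u⁻¹ = u ^ 2 * v ^ 2 * (u * v)⁻¹ := by simp only [sq]; group
    _ = (u * v)⁻¹ * (b * b') := by
        rw [hu, hv]
        exact ((cen (mul_mem hb hb') _).eq).symm

/-- `K`. -/
theorem cube_of_conj_pair {x y w α β : Γ} (hα : α ∈ Subgroup.center Γ)
    (hβ : β ∈ Subgroup.center Γ) (hxy : (x * y) ^ 3 = 1) (hx : w * x * w⁻¹ = x⁻¹ * α)
    (hy : w * y * w⁻¹ = y⁻¹ * β) : (α * β) ^ 3 = 1 := by
  have h1 : (w * (x * y) * w⁻¹) ^ 3 = 1 := by rw [conj_pow, hxy]; group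
  have h2 : w * (x * y) * w⁻¹ = (x⁻¹ * y⁻¹) * (α * β) := by
    calc w * (x * y) * w⁻¹ = (w * x * w⁻¹) * (w * y * w⁻¹) := by group
      _ = x⁻¹ * α * (y⁻¹ * β) := by rw [hx, hy]
      _ = x⁻¹ * (α * y⁻¹) * β := by group
      _ = x⁻¹ * (y⁻¹ * α) * β := by rw [(cen hα y⁻¹).eq]
      _ = (x⁻¹ * y⁻¹) * (α * β) := by group
  have h3 : (x⁻¹ * y⁻¹) ^ 3 = 1 := by
    calc (x⁻¹ * y⁻¹) ^ 3 = x⁻¹ * ((x * y) ^ 3)⁻¹ * x := by simp only [pow_three]; group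
      _ = 1 := by rw [hxy]; group
  rw [h2, (cen (mul_mem hα hβ) _).mul_pow, h3, one_mul] at h1
  exact h1

/-- `T1`/`O5`: the `A₄` computation. -/
theorem a4_calc {s t z c : Γ} (hz : z ∈ Subgroup.center Γ) (hc : c ∈ Subgroup.center Γ)
    (hs : s ^ 3 = 1) (ht : t ^ 2 = z) (hst : (s * t) ^ 3 = c) :
    z ^ 2 = (c ^ 2 * z⁻¹ * z⁻¹) ^ 2 := by
  have hp : (s * t * s⁻¹) ^ 2 = z := by rw [conj_pow, ht, conj_cen hz]
  have hq : (s⁻¹ * t * s) ^ 2 = z := by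
    have := conj_pow (a := s⁻¹) (b := t) (i := 2)
    rw [inv_inv] at this
    rw [this, ht]
    have h2 := conj_cen hz s⁻¹
    rwa [inv_inv] at h2
  have hR : (s * t * s⁻¹) * (s⁻¹ * t * s) * t = c := by
    calc (s * t * s⁻¹) * (s⁻¹ * t * s) * t = s * t * (s ^ 3)⁻¹ * (s * t) ^ 2 := by
          simp only [sq, pow_three]; group
      _ = (s * t) ^ 3 := by rw [hs]; simp only [sq, pow_three]; group
      _ = c := hst
  have hq' : s⁻¹ * t * s = (t * (s * t * s⁻¹))⁻¹ * c := by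
    calc s⁻¹ * t * s = (s * t * s⁻¹)⁻¹ * ((s * t * s⁻¹) * (s⁻¹ * t * s) * t) * t⁻¹ := by group
      _ = (s * t * s⁻¹)⁻¹ * c * t⁻¹ := by rw [hR]
      _ = (s * t * s⁻¹)⁻¹ * (c * t⁻¹) := by group
      _ = (s * t * s⁻¹)⁻¹ * (t⁻¹ * c) := by rw [(cen hc t⁻¹).eq]
      _ = (t * (s * t * s⁻¹))⁻¹ * c := by group
  have htp : (t * (s * t * s⁻¹)) ^ 2 = c ^ 2 * z⁻¹ := by
    rw [hq', (cen hc _).mul_pow, inv_pow] at hq
    have h5 : c ^ 2 = (t * (s * t * s⁻¹)) ^ 2 * z := by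
      rw [← hq]; group
    rw [h5]; group
  exact sq_mul_sq_eq hz hz (mul_mem (pow_mem hc 2) (inv_mem hz)) ht hp htp

/-- `O4`. -/
theorem sq_of_two_inverters {s v w δ δ' : Γ} (hδ : δ ∈ Subgroup.center Γ)
    (hδ' : δ' ∈ Subgroup.center Γ) (hvw : (v * w) ^ 2 = 1) (hv : v * s * v⁻¹ = s⁻¹ * δ)
    (hw : w * s * w⁻¹ = s⁻¹ * δ') : (δ⁻¹ * δ') ^ 2 = 1 := by
  have h1 : (v * w) * s * (v * w)⁻¹ = s * (δ⁻¹ * δ') := by
    calc (v * w) * s * (v * w)⁻¹ = v * (w * s * w⁻¹) * v⁻¹ := by group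
      _ = v * (s⁻¹ * δ') * v⁻¹ := by rw [hw]
      _ = (v * s * v⁻¹)⁻¹ * (v * δ' * v⁻¹) := by group
      _ = (s⁻¹ * δ)⁻¹ * δ' := by rw [hv, conj_cen hδ']
      _ = δ⁻¹ * s * δ' := by group
      _ = s * δ⁻¹ * δ' := by rw [(cen (inv_mem hδ) s).eq]
      _ = s * (δ⁻¹ * δ') := by group
  have hc := mul_mem (inv_mem hδ) hδ'
  have h2 : (v * w) * ((v * w) * s * (v * w)⁻¹) * (v * w)⁻¹ = s := by
    calc (v * w) * ((v * w) * s * (v * w)⁻¹) * (v * w)⁻¹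
        = (v * w) ^ 2 * s * ((v * w) ^ 2)⁻¹ := by simp only [sq]; group
      _ = s := by rw [hvw]; group
  have h3 : (v * w) * (s * (δ⁻¹ * δ')) * (v * w)⁻¹ = s * (δ⁻¹ * δ') ^ 2 := by
    calc (v * w) * (s * (δ⁻¹ * δ')) * (v * w)⁻¹
        = ((v * w) * s * (v * w)⁻¹) * ((v * w) * (δ⁻¹ * δ') * (v * w)⁻¹) := by group
      _ = s * (δ⁻¹ * δ') * (δ⁻¹ * δ') := by rw [h1, conj_cen hc]
      _ = s * (δ⁻¹ * δ') ^ 2 := by simp only [sq]; group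
  rw [h1, h3] at h2
  exact mul_eq_left.mp h2

/-- dependent choice. -/
theorem exists_seq {α : Type*} (P : ℕ → α → Prop) (Q : ℕ → α → α → Prop) (h0 : ∃ u, P 0 u)
    (hs : ∀ i u, P i u → ∃ v, P (i + 1) v ∧ Q i u v) :
    ∃ f : ℕ → α, (∀ i, P i (f i)) ∧ ∀ i, Q i (f i) (f (i + 1)) := by
  classical
  let F : (i : ℕ) → {u // P i u} := fun i =>
    Nat.rec (motive := fun i => {u // P i u}) ⟨h0.choose, h0.choose_spec⟩
      (fun i u => ⟨(hs i u.1 u.2).choose, (hs i u.1 u.2).choose_spec.1⟩) i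
  exact ⟨fun i => (F i).1, fun i => (F i).2, fun i => (hs i (F i).1 (F i).2).choose_spec.2⟩

end Cfsg.Agent.Lib.Helper66.AltStem
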