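import Mathlib
import Cfsg.Agent.Lib.Helper66.AltStemCalc

/-!
# Normalising lifts of Carmichael's generators of the alternating group in a central extension
-/

set_option autoImplicit false

namespace Cfsg.Agent.Lib.Helper66.AltStem

/-- Carmichael's relators for a sequence `Y 0, …, Y (m-1)`, with values in a subgroup `W`. -/
structure CarRel {Γ : Type*} [Group Γ] (m : ℕ) (Y : ℕ → Γ) (W : Subgroup Γ) : Prop where
  r0 : Y 0 ^ 3 ∈ W
  r1 : ∀ i, 1 ≤ i → i < m → Y i ^ 2 ∈ W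
  r2 : ∀ i, i + 1 < m → (Y i * Y (i + 1)) ^ 3 ∈ W
  r3 : ∀ i j, i + 1 < j → j < m → (Y i * Y j) ^ 2 ∈ W

variable {Γ A : Type*} [Group Γ] [Group A]

theorem CarRel.of_map (π : Γ →* A) {m : ℕ} {X : ℕ → A} {Y : ℕ → Γ} (hX : CarRel m X ⊥)
    (hY : ∀ i, π (Y i) = X i) : CarRel m Y π.ker where
  r0 := by rw [MonoidHom.mem_ker, map_pow, hY]; exact hX.r0
  r1 := fun i h1 h2 => by rw [MonoidHom.mem_ker, map_pow, hY]; exact hX.r1 i h1 h2
  r2 := fun i h => by rw [MonoidHom.mem_ker, map_pow, map_mul, hY, hY]; exact hX.r2 i h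
  r3 := fun i j h1 h2 => by rw [MonoidHom.mem_ker, map_pow, map_mul, hY, hY]; exact hX.r3 i j h1 h2

theorem lemma_two (π : Γ →* A) (hsurj : Function.Surjective π) (hc : π.ker ≤ Subgroup.center Γ)
    (hroot : ∀ b ∈ π.ker, ∃ ζ ∈ π.ker, ζ ^ 3 = b) (htor : ∀ ζ ∈ π.ker, ζ ^ 3 = 1 → ζ = 1)
    (m : ℕ) (hm : 2 ≤ m) (X : ℕ → A) (hX : CarRel m X ⊥) :
    ∃ (Y : ℕ → Γ) (z : Γ), (∀ i, π (Y i) = X i) ∧ z ∈ π.ker ∧ z ^ 2 = 1 ∧
      CarRel m Y (Subgroup.zpowers z) := by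
  obtain ⟨Y, hP, hQ⟩ := exists_seq (fun i (u : Γ) => π u = X i ∧ (i = 0 → u ^ 3 = 1))
    (fun i u v => i + 1 < m → (u * v) ^ 3 = 1)
    (by
      obtain ⟨g, hg⟩ := hsurj (X 0)
      have h1 : g ^ 3 ∈ π.ker := by rw [MonoidHom.mem_ker, map_pow, hg]; exact hX.r0
      obtain ⟨ζ, hζ, hζ3⟩ := hroot _ (inv_mem h1)
      refine ⟨g * ζ, by rw [map_mul, hg, MonoidHom.mem_ker.mp hζ, mul_one], fun _ => ?_⟩
      rw [(cen (hc hζ) g).mul_pow, hζ3, mul_inv_cancel])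
    (by
      rintro i u ⟨hu, -⟩
      obtain ⟨g, hg⟩ := hsurj (X (i + 1))
      by_cases h : i + 1 < m
      · have h1 : (u * g) ^ 3 ∈ π.ker := by
          rw [MonoidHom.mem_ker, map_pow, map_mul, hu, hg]; exact hX.r2 i h
        obtain ⟨ζ, hζ, hζ3⟩ := hroot _ (inv_mem h1)
        refine ⟨g * ζ, ⟨by rw [map_mul, hg, MonoidHom.mem_ker.mp hζ, mul_one], fun h0 => ?_⟩,
          fun _ => ?_⟩
        · omega
        · rw [← mul_assoc, (cen (hc hζ) (u * g)).mul_pow, hζ3, mul_inv_cancel]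
      · exact ⟨g, ⟨hg, fun h0 => by omega⟩, fun h' => absurd h' h⟩)
  have hY : ∀ i, π (Y i) = X i := fun i => (hP i).1
  have hs : Y 0 ^ 3 = 1 := (hP 0).2 rfl
  have hker := CarRel.of_map π hX hY
  obtain ⟨z, hzdef⟩ : ∃ z, z = Y 1 ^ 2 := ⟨_, rfl⟩
  have hz : z ∈ π.ker := hzdef ▸ hker.r1 1 le_rfl (by omega)
  have hzc := hc hz
  have hz2 : z ^ 2 = 1 := by
    have h1 := a4_calc hzc (one_mem _) hs hzdef.symm (hQ 0 (by omega))
    apply htor _ (pow_mem hz 2)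
    calc (z ^ 2) ^ 3 = z ^ 2 * z ^ 4 := by group
      _ = (1 ^ 2 * z⁻¹ * z⁻¹) ^ 2 * z ^ 4 := by rw [← h1]
      _ = 1 := by simp only [one_pow, one_mul]; group
  have hzinv : z⁻¹ = z := by
    rw [inv_eq_iff_mul_eq_one, ← sq, hz2]
  have hb : ∀ i, 1 ≤ i → i < m → Y i ^ 2 = z := by
    intro i hi
    induction i, hi using Nat.le_induction with
    | base => intro _; exact hzdef.symm
    | succ i hi ih =>
      intro him
      have hb' : Y (i + 1) ^ 2 ∈ π.ker := hker.r1 (i + 1) (by omega) him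
      have h1 := cube_of_braid hzc (hc hb') (one_mem _) (ih (by omega)) rfl (hQ i him)
      rw [one_pow] at h1
      have h2 := htor _ (mul_mem hz hb') h1.symm
      rw [← hzinv]
      exact (eq_inv_of_mul_eq_one_right h2)
  have hS : ∀ i j, i + 1 < j → j < m → (Y i * Y j) ^ 2 = z := by
    intro i
    induction i with
    | zero =>
      intro j hj hjm
      have hd : (Y 0 * Y j) ^ 2 ∈ π.ker := hker.r3 0 j hj hjm
      have h1 := sq_eq_pow_of_conj (x := Y 0) (w := Y j) (δ := (Y 0 * Y j) ^ 2 * z⁻¹) (a := 1) 3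
        (hc (mul_mem hd (inv_mem hz))) (one_mem _) hs
        (by rw [conj_of_sq, hb j (by omega) hjm])
      rw [one_pow] at h1
      have h2 := htor _ (mul_mem hd (inv_mem hz)) h1.symm
      exact mul_inv_eq_one.mp h2
    | succ i ih =>
      intro j hj hjm
      have hd : (Y (i + 1) * Y j) ^ 2 ∈ π.ker := hker.r3 (i + 1) j hj hjm
      have h1 := cube_of_conj_pair (x := Y i) (y := Y (i + 1)) (w := Y j) (α := 1)
        (β := (Y (i + 1) * Y j) ^ 2 * z⁻¹) (one_mem _) (hc (mul_mem hd (inv_mem hz)))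
        (hQ i (by omega))
        (by rw [conj_of_sq, hb j (by omega) hjm, ih j (by omega) hjm, mul_inv_cancel])
        (by rw [conj_of_sq, hb j (by omega) hjm])
      rw [one_mul] at h1
      have h2 := htor _ (mul_mem hd (inv_mem hz)) h1
      exact mul_inv_eq_one.mp h2
  refine ⟨Y, z, hY, hz, hz2, ?_, ?_, ?_, ?_⟩
  · rw [hs]; exact one_mem _
  · intro i h1 h2
    rw [hb i h1 h2]; exact Subgroup.mem_zpowers z
  · intro i h
    rw [hQ i h]; exact one_mem _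
  · intro i j h1 h2
    rw [hS i j h1 h2]; exact Subgroup.mem_zpowers z

theorem lemma_odd (π : Γ →* A) (hsurj : Function.Surjective π) (hc : π.ker ≤ Subgroup.center Γ)
    (hroot : ∀ b ∈ π.ker, ∃ ζ ∈ π.ker, ζ ^ 2 = b) (htor : ∀ ζ ∈ π.ker, ζ ^ 2 = 1 → ζ = 1)
    (m : ℕ) (hm : 6 ≤ m) (X : ℕ → A) (hX : CarRel m X ⊥) :
    ∃ Y : ℕ → Γ, (∀ i, π (Y i) = X i) ∧ CarRel m Y ⊥ := by
  have ht : ∀ i, ∃ t, π t = X i ∧ (1 ≤ i → i < m → t ^ 2 = 1) := by
    intro i
    obtain ⟨g, hg⟩ := hsurj (X i)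
    by_cases h : 1 ≤ i ∧ i < m
    · have h1 : g ^ 2 ∈ π.ker := by rw [MonoidHom.mem_ker, map_pow, hg]; exact hX.r1 i h.1 h.2
      obtain ⟨ζ, hζ, hζ2⟩ := hroot _ (inv_mem h1)
      refine ⟨g * ζ, by rw [map_mul, hg, MonoidHom.mem_ker.mp hζ, mul_one], fun _ _ => ?_⟩
      rw [(cen (hc hζ) g).mul_pow, hζ2, mul_inv_cancel]
    · exact ⟨g, hg, fun h1 h2 => absurd ⟨h1, h2⟩ h⟩
  choose t ht1 ht2 using ht
  obtain ⟨s, hs1, hs2⟩ : ∃ s, π s = X 0 ∧ (s * t 2) ^ 2 = 1 := by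
    obtain ⟨g, hg⟩ := hsurj (X 0)
    have h1 : (g * t 2) ^ 2 ∈ π.ker := by
      rw [MonoidHom.mem_ker, map_pow, map_mul, hg, ht1]; exact hX.r3 0 2 (by omega) (by omega)
    obtain ⟨ζ, hζ, hζ2⟩ := hroot _ (inv_mem h1)
    refine ⟨g * ζ, by rw [map_mul, hg, MonoidHom.mem_ker.mp hζ, mul_one], ?_⟩
    rw [mul_assoc, ← (cen (hc hζ) (t 2)).eq, ← mul_assoc, (cen (hc hζ) (g * t 2)).mul_pow, hζ2,
      mul_inv_cancel]
  have F1 : ∀ i j, 1 ≤ i → i + 1 < j → j < m → (t i * t j) ^ 2 = 1 := by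
    intro i j hi hij hj
    have hd : (t i * t j) ^ 2 ∈ π.ker := by
      rw [MonoidHom.mem_ker, map_pow, map_mul, ht1, ht1]; exact hX.r3 i j hij hj
    have h1 := sq_mul_sq_eq (one_mem _) (one_mem _) (hc hd) (ht2 i hi (by omega))
      (ht2 j (by omega) hj) rfl
    rw [one_pow, inv_one, mul_one] at h1
    exact htor _ hd h1.symm
  have F2 : ∀ i, 1 ≤ i → i + 1 < m → (t i * t (i + 1)) ^ 3 = 1 := by
    intro i hi him
    have hd : (t i * t (i + 1)) ^ 3 ∈ π.ker := by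
      rw [MonoidHom.mem_ker, map_pow, map_mul, ht1, ht1]; exact hX.r2 i him
    have h1 := cube_of_braid (one_mem _) (one_mem _) (hc hd) (ht2 i hi (by omega))
      (ht2 (i + 1) (by omega) him) rfl
    rw [one_mul, one_pow] at h1
    exact htor _ hd h1
  have hconj : ∀ j, 2 ≤ j → j < m → t j * s * (t j)⁻¹ = s⁻¹ * (s * t j) ^ 2 := by
    intro j hj hjm
    rw [conj_of_sq, ht2 j (by omega) hjm, inv_one, mul_one]
  have hdker : ∀ j, 2 ≤ j → j < m → (s * t j) ^ 2 ∈ π.ker := by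
    intro j hj hjm
    rw [MonoidHom.mem_ker, map_pow, map_mul, hs1, ht1]; exact hX.r3 0 j (by omega) hjm
  have F3 : s ^ 3 = 1 := by
    have ha : s ^ 3 ∈ π.ker := by rw [MonoidHom.mem_ker, map_pow, hs1]; exact hX.r0
    have h1 := sq_eq_pow_of_conj (x := s) (w := t 2) (δ := 1) 3 (one_mem _) (hc ha) rfl
      (by rw [hconj 2 le_rfl (by omega), hs2])
    rw [one_pow] at h1
    exact htor _ ha h1
  have F4 : ∀ j k, 2 ≤ j → j + 1 < k → k < m → (s * t j) ^ 2 = (s * t k) ^ 2 := by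
    intro j k hj hjk hk
    have h1 := sq_of_two_inverters (hc (hdker j hj (by omega))) (hc (hdker k (by omega) hk))
      (F1 j k (by omega) hjk hk) (hconj j hj (by omega)) (hconj k (by omega) hk)
    have h2 := htor _ (mul_mem (inv_mem (hdker j hj (by omega))) (hdker k (by omega) hk)) h1
    exact (inv_mul_eq_one.mp h2)
  have F5 : ∀ j, 2 ≤ j → j < m → (s * t j) ^ 2 = 1 := by
    intro j hj hjm
    rcases Nat.lt_or_ge j 4 with h4 | h4
    · rcases (by omega : j = 2 ∨ j = 3) with rfl | rfl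
      · exact hs2
      · rw [F4 3 5 (by omega) (by omega) (by omega), ← F4 2 5 (by omega) (by omega) (by omega), hs2]
    · rw [← F4 2 j le_rfl (by omega) hjm, hs2]
  have F6 : (s * t 1) ^ 3 = 1 := by
    have hd : (s * t 1) ^ 3 ∈ π.ker := by
      rw [MonoidHom.mem_ker, map_pow, map_mul, hs1, ht1]; exact hX.r2 0 (by omega)
    have h1 := a4_calc (one_mem _) (hc hd) F3 (ht2 1 le_rfl (by omega)) rfl
    rw [one_pow, inv_one, mul_one, mul_one] at h1
    exact htor _ hd (htor _ (pow_mem hd 2) h1.symm)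
  refine ⟨fun i => if i = 0 then s else t i, ?_, ?_, ?_, ?_, ?_⟩
  · intro i
    by_cases hi : i = 0
    · subst hi; simpa using hs1
    · simpa [hi] using ht1 i
  · simpa using F3
  · intro i h1 h2
    have hi : i ≠ 0 := by omega
    simpa [hi] using ht2 i h1 h2
  · intro i h
    by_cases hi : i = 0
    · subst hi; simpa using F6
    · simpa [hi] using F2 i (by omega) h
  · intro i j h1 h2
    have hj : j ≠ 0 := by omega
    by_cases hi : i = 0
    · subst hi; simpa [hj] using F5 j (by omega) h2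
    · simpa [hi, hj] using F1 i j (by omega) h1 h2

end Cfsg.Agent.Lib.Helper66.AltStem
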