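import Mathlib
import Cfsg.Agent.Lib.Helper66.AltStemNorm
import Cfsg.Agent.Lib.Helper66.Hopf

/-!
# Stem extensions of a group with Carmichael's presentation have kernel of order at most 2
-/

set_option autoImplicit false

namespace Cfsg.Agent.Lib.Helper66.AltStem

open Cfsg.Agent.Lib.Helper66

/-- Carmichael's relators. -/
def carRels (m : ℕ) : Set (FreeGroup (Fin m)) :=
  {g : FreeGroup (Fin m) | ∃ i : Fin m, i.val = 0 ∧ g = FreeGroup.of i ^ 3} ∪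
   {g | ∃ i : Fin m, 1 ≤ i.val ∧ g = FreeGroup.of i ^ 2} ∪
   {g | ∃ i j : Fin m, j.val = i.val + 1 ∧ g = (FreeGroup.of i * FreeGroup.of j) ^ 3} ∪
   {g | ∃ i j : Fin m, i.val + 1 < j.val ∧ g = (FreeGroup.of i * FreeGroup.of j) ^ 2}

variable {Γ A : Type*} [Group Γ] [Group A]

theorem ker_le_of_relators {α : Type*} (R : Set (FreeGroup α)) (φ : PresentedGroup R ≃* A)
    (π : Γ →* A) (hπ : Cfsg.IsStemExtension π) (y : α → Γ)
    (hy : ∀ i, π (y i) = φ (PresentedGroup.of i)) (Z₁ : Subgroup Γ) (hZ₁ : Z₁ ≤ π.ker)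
    (hrel : ∀ r ∈ R, FreeGroup.lift y r ∈ Z₁) : π.ker ≤ Z₁ := by
  have hn : Z₁.Normal := normal_of_le_center (hZ₁.trans hπ.2.1)
  have hlift : ∀ w : FreeGroup α, FreeGroup.lift (fun i => (QuotientGroup.mk (y i) : Γ ⧸ Z₁)) w =
      QuotientGroup.mk (FreeGroup.lift y w) := by
    intro w
    have : FreeGroup.lift (fun i => (QuotientGroup.mk (y i) : Γ ⧸ Z₁)) =
        (QuotientGroup.mk' Z₁).comp (FreeGroup.lift y) := by
      ext i
      simp
    rw [this]; rfl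
  obtain ⟨ψ, hψ⟩ : ∃ ψ : PresentedGroup R →* Γ ⧸ Z₁,
      ∀ i, ψ (PresentedGroup.of i) = QuotientGroup.mk (y i) :=
    ⟨PresentedGroup.toGroup (f := fun i => (QuotientGroup.mk (y i) : Γ ⧸ Z₁)) (by
      intro r hr
      rw [hlift, QuotientGroup.eq_one_iff]
      exact hrel r hr), fun i => by simp⟩
  obtain ⟨πb, hπb⟩ : ∃ πb : Γ ⧸ Z₁ →* A, ∀ g, πb (QuotientGroup.mk g) = π g :=
    ⟨QuotientGroup.lift Z₁ π (fun x hx => hZ₁ hx), fun _ => rfl⟩
  have h1 : πb.comp ψ = φ.toMonoidHom := by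
    ext i
    simp only [MonoidHom.comp_apply, hψ, hπb, hy]
    rfl
  have hgen : Subgroup.closure (Set.range y) = ⊤ := by
    apply IsStemExtension.closure_eq_top hπ
    have h2 : π '' Set.range y = φ.toMonoidHom '' Set.range (PresentedGroup.of (rels := R)) := by
      ext a
      constructor
      · rintro ⟨_, ⟨i, rfl⟩, rfl⟩
        exact ⟨_, ⟨i, rfl⟩, (hy i).symm⟩
      · rintro ⟨_, ⟨i, rfl⟩, rfl⟩
        exact ⟨_, ⟨i, rfl⟩, hy i⟩
    rw [h2, ← MonoidHom.map_closure, PresentedGroup.closure_range_of, ← MonoidHom.range_eq_map,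
      MonoidHom.range_eq_top]
    exact φ.surjective
  have hsurj : Function.Surjective ψ := by
    have h3 : Subgroup.closure (Set.range y) ≤ ψ.range.comap (QuotientGroup.mk' Z₁) := by
      rw [Subgroup.closure_le]
      rintro _ ⟨i, rfl⟩
      exact ⟨PresentedGroup.of i, hψ i⟩
    rw [hgen] at h3
    intro g
    obtain ⟨x, rfl⟩ := QuotientGroup.mk_surjective g
    exact h3 (Subgroup.mem_top x)
  intro x hx
  obtain ⟨w, hw⟩ := hsurj (QuotientGroup.mk x)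
  have h4 : φ w = 1 := by
    have := congrArg (fun f : PresentedGroup R →* A => f w) h1
    simp only [MonoidHom.comp_apply, hw, hπb] at this
    rw [MonoidHom.mem_ker.mp hx] at this
    exact this.symm
  have h5 : w = 1 := by
    rwa [EmbeddingLike.map_eq_one_iff] at h4
  rw [h5, map_one] at hw
  exact (QuotientGroup.eq_one_iff x).mp hw.symm

/-- the images of the generators, indexed by `ℕ`. -/
noncomputable def genSeq {m : ℕ} (φ : PresentedGroup (carRels m) ≃* A) (k : ℕ) : A :=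
  if h : k < m then φ (PresentedGroup.of ⟨k, h⟩) else 1

theorem genSeq_val {m : ℕ} (φ : PresentedGroup (carRels m) ≃* A) (i : Fin m) :
    genSeq φ i.val = φ (PresentedGroup.of i) := by
  simp [genSeq]

theorem carRel_genSeq {m : ℕ} (hm : 1 ≤ m) (φ : PresentedGroup (carRels m) ≃* A) :
    CarRel m (genSeq φ) ⊥ := by
  have key : ∀ r ∈ carRels m, φ (PresentedGroup.mk (carRels m) r) = 1 := by
    intro r hr
    rw [PresentedGroup.one_of_mem hr, map_one]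
  refine ⟨?_, ?_, ?_, ?_⟩
  · have h := key (FreeGroup.of ⟨0, by omega⟩ ^ 3) (Or.inl (Or.inl (Or.inl ⟨⟨0, by omega⟩, rfl, rfl⟩)))
    rw [Subgroup.mem_bot, ← h, map_pow, map_pow]
    congr 1
    exact genSeq_val φ ⟨0, by omega⟩
  · intro i h1 h2
    have h := key (FreeGroup.of ⟨i, h2⟩ ^ 2) (Or.inl (Or.inl (Or.inr ⟨⟨i, h2⟩, h1, rfl⟩)))
    rw [Subgroup.mem_bot, ← h, map_pow, map_pow]
    congr 1
    exact genSeq_val φ ⟨i, h2⟩
  · intro i h1
    have h := key ((FreeGroup.of ⟨i, by omega⟩ * FreeGroup.of ⟨i + 1, h1⟩) ^ 3)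
      (Or.inl (Or.inr ⟨⟨i, by omega⟩, ⟨i + 1, h1⟩, rfl, rfl⟩))
    rw [Subgroup.mem_bot, ← h, map_pow, map_pow, map_mul, map_mul]
    congr 2
    · exact genSeq_val φ ⟨i, by omega⟩
    · exact genSeq_val φ ⟨i + 1, h1⟩
  · intro i j h1 h2
    have h := key ((FreeGroup.of ⟨i, by omega⟩ * FreeGroup.of ⟨j, h2⟩) ^ 2)
      (Or.inr ⟨⟨i, by omega⟩, ⟨j, h2⟩, h1, rfl⟩)
    rw [Subgroup.mem_bot, ← h, map_pow, map_pow, map_mul, map_mul]
    congr 2
    · exact genSeq_val φ ⟨i, by omega⟩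
    · exact genSeq_val φ ⟨j, h2⟩

theorem lift_mem_of_carRel {m : ℕ} {Y : ℕ → Γ} {W : Subgroup Γ} (h : CarRel m Y W) :
    ∀ r ∈ carRels m, FreeGroup.lift (fun i : Fin m => Y i.val) r ∈ W := by
  rintro r (((⟨i, hi, rfl⟩ | ⟨i, hi, rfl⟩) | ⟨i, j, hij, rfl⟩) | ⟨i, j, hij, rfl⟩)
  · simp only [map_pow, FreeGroup.lift_apply_of, hi]
    exact h.r0
  · simp only [map_pow, FreeGroup.lift_apply_of]
    exact h.r1 _ hi i.2
  · simp only [map_pow, map_mul, FreeGroup.lift_apply_of, hij]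
    exact h.r2 _ (hij ▸ j.2)
  · simp only [map_pow, map_mul, FreeGroup.lift_apply_of]
    exact h.r3 _ _ hij j.2

theorem exists_root (Z : Subgroup Γ) [Finite Z] (hZ : Z ≤ Subgroup.center Γ) (k : ℕ)
    (htor : ∀ ζ ∈ Z, ζ ^ k = 1 → ζ = 1) : ∀ b ∈ Z, ∃ ζ ∈ Z, ζ ^ k = b := by
  have hinj : Function.Injective (fun ζ : Z => ζ ^ k) := by
    intro a b hab
    have h1 : (a : Γ) ^ k = (b : Γ) ^ k := congrArg Subtype.val hab
    have h2 : ((a : Γ) * (b : Γ)⁻¹) ^ k = 1 := by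
      rw [(cen (hZ (inv_mem b.2)) (a : Γ)).mul_pow, h1, inv_pow, mul_inv_cancel]
    have h3 := htor _ (mul_mem a.2 (inv_mem b.2)) h2
    exact Subtype.ext (mul_inv_eq_one.mp h3)
  have hsurj := Finite.injective_iff_surjective.mp hinj
  intro b hb
  obtain ⟨ζ, hζ⟩ := hsurj ⟨b, hb⟩
  exact ⟨ζ, ζ.2, congrArg Subtype.val hζ⟩

theorem card_ker_le_two [Finite Γ] (m : ℕ) (hm : 2 ≤ m) (φ : PresentedGroup (carRels m) ≃* A)
    (π : Γ →* A) (hπ : Cfsg.IsStemExtension π) (h2 : ∀ x ∈ π.ker, ∃ k : ℕ, x ^ (2 ^ k) = 1) :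
    Nat.card π.ker ≤ 2 := by
  have htor : ∀ ζ ∈ π.ker, ζ ^ 3 = 1 → ζ = 1 := by
    intro ζ hζ h3
    obtain ⟨k, hk⟩ := h2 ζ hζ
    have h4 := pow_gcd_eq_one.mpr ⟨h3, hk⟩
    have h5 : Nat.gcd 3 (2 ^ k) = 1 := Nat.Coprime.pow_right k (by norm_num)
    rwa [h5, pow_one] at h4
  obtain ⟨Y, z, hY, hz, hz2, hrel⟩ := lemma_two π hπ.1 hπ.2.1 (exists_root _ hπ.2.1 3 htor) htor m hm
    (genSeq φ) (carRel_genSeq (by omega) φ)
  have hle := ker_le_of_relators (carRels m) φ π hπ (fun i => Y i.val)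
    (fun i => by rw [hY, genSeq_val]) (Subgroup.zpowers z) (by rwa [Subgroup.zpowers_le])
    (lift_mem_of_carRel hrel)
  calc Nat.card π.ker ≤ Nat.card (Subgroup.zpowers z) := Subgroup.card_le_of_le hle
    _ = orderOf z := Nat.card_zpowers z
    _ ≤ 2 := orderOf_le_of_pow_eq_one (by norm_num) hz2

/-- the 2-power torsion of a central subgroup. -/
def twoPart (Z : Subgroup Γ) (hZ : Z ≤ Subgroup.center Γ) : Subgroup Γ where
  carrier := {x | x ∈ Z ∧ ∃ k : ℕ, x ^ (2 ^ k) = 1}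
  one_mem' := ⟨one_mem _, 0, one_pow _⟩
  mul_mem' := by
    rintro a b ⟨ha, k, hk⟩ ⟨hb, l, hl⟩
    refine ⟨mul_mem ha hb, k + l, ?_⟩
    rw [(cen (hZ hb) a).mul_pow, pow_add, pow_mul, hk, one_pow, mul_comm (2 ^ k), pow_mul, hl,
      one_pow, one_mul]
  inv_mem' := by
    rintro a ⟨ha, k, hk⟩
    exact ⟨inv_mem ha, k, by rw [inv_pow, hk, inv_one]⟩

theorem two_power_of_six_le [Finite Γ] (m : ℕ) (hm : 6 ≤ m) (φ : PresentedGroup (carRels m) ≃* A)
    (π : Γ →* A) (hπ : Cfsg.IsStemExtension π) : ∀ x ∈ π.ker, ∃ k : ℕ, x ^ (2 ^ k) = 1 := by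
  obtain ⟨T, hT⟩ : ∃ T, T = twoPart π.ker hπ.2.1 := ⟨_, rfl⟩
  have hTmem : ∀ x, x ∈ T ↔ x ∈ π.ker ∧ ∃ k : ℕ, x ^ (2 ^ k) = 1 := by
    intro x; rw [hT]; rfl
  have hTker : T ≤ π.ker := fun x hx => ((hTmem x).mp hx).1
  have hn : T.Normal := normal_of_le_center (hTker.trans hπ.2.1)
  obtain ⟨πb, hπb⟩ : ∃ πb : Γ ⧸ T →* A, ∀ g, πb (QuotientGroup.mk g) = π g :=
    ⟨QuotientGroup.lift T π (fun x hx => hTker hx), fun _ => rfl⟩
  have hstem : Cfsg.IsStemExtension πb := by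
    refine ⟨?_, ?_, ?_⟩
    · intro a
      obtain ⟨g, rfl⟩ := hπ.1 a
      exact ⟨QuotientGroup.mk g, hπb g⟩
    · intro x hx
      obtain ⟨g, rfl⟩ := QuotientGroup.mk_surjective x
      have hg : g ∈ π.ker := by rw [MonoidHom.mem_ker, ← hπb]; exact hx
      rw [Subgroup.mem_center_iff]
      intro y
      obtain ⟨h, rfl⟩ := QuotientGroup.mk_surjective y
      rw [← QuotientGroup.mk_mul, ← QuotientGroup.mk_mul, (cen (hπ.2.1 hg) h).eq]
    · intro x hx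
      obtain ⟨g, rfl⟩ := QuotientGroup.mk_surjective x
      have hg : g ∈ π.ker := by rw [MonoidHom.mem_ker, ← hπb]; exact hx
      exact map_commutator_le (QuotientGroup.mk' T) ⟨g, hπ.2.2 hg, rfl⟩
  have htor : ∀ ζ ∈ πb.ker, ζ ^ 2 = 1 → ζ = 1 := by
    intro x hx h2
    obtain ⟨g, rfl⟩ := QuotientGroup.mk_surjective x
    have hg : g ∈ π.ker := by rw [MonoidHom.mem_ker, ← hπb]; exact hx
    rw [← QuotientGroup.mk_pow, QuotientGroup.eq_one_iff, hTmem] at h2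
    obtain ⟨-, k, hk⟩ := h2
    rw [QuotientGroup.eq_one_iff, hTmem]
    exact ⟨hg, k + 1, by rw [pow_succ', pow_mul, hk]⟩
  obtain ⟨Y, hY, hrel⟩ := lemma_odd πb hstem.1 hstem.2.1 (exists_root _ hstem.2.1 2 htor) htor m hm
    (genSeq φ) (carRel_genSeq (by omega) φ)
  have hle := ker_le_of_relators (carRels m) φ πb hstem (fun i => Y i.val)
    (fun i => by rw [hY, genSeq_val]) ⊥ bot_le (lift_mem_of_carRel hrel)
  intro x hx
  have h1 : (QuotientGroup.mk x : Γ ⧸ T) ∈ πb.ker := by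
    rw [MonoidHom.mem_ker, hπb]; exact hx
  have h2 := hle h1
  rw [Subgroup.mem_bot, QuotientGroup.eq_one_iff, hTmem] at h2
  exact h2.2

end Cfsg.Agent.Lib.Helper66.AltStem
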