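import Mathlib
import Cfsg.Agent.Lib.Helper66.AltStemMain

/-!
# Upper bound 6 for kernels of stem extensions of groups with Carmichael's presentation
-/

set_option autoImplicit false

namespace Cfsg.Agent.Lib.Helper66.AltStem

open Cfsg.Agent.Lib.Helper66

variable {Γ A : Type*} [Group Γ] [Group A]

theorem lemma_odd3 (π : Γ →* A) (hsurj : Function.Surjective π) (hc : π.ker ≤ Subgroup.center Γ)
    (hroot : ∀ b ∈ π.ker, ∃ ζ ∈ π.ker, ζ ^ 2 = b) (htor : ∀ ζ ∈ π.ker, ζ ^ 2 = 1 → ζ = 1)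
    (m : ℕ) (hm : 4 ≤ m) (X : ℕ → A) (hX : CarRel m X ⊥) :
    ∃ (Y : ℕ → Γ) (ω : Γ), (∀ i, π (Y i) = X i) ∧ ω ∈ π.ker ∧ ω ^ 3 = 1 ∧
      CarRel m Y (Subgroup.zpowers ω) := by
  have ht : ∀ i, ∃ t, π t = X i ∧ (1 ≤ i → i < m → t ^ 2 = 1) := by
    intro i
    obtain ⟨g, hg⟩ := hsurj (X i)
    by_cases h : 1 ≤ i ∧ i < m
    · have h1 : g ^ 2 ∈ π.ker := by rw [MonoidHom.mem_ker, map_pow, hg]; exact hX.r1 i h.1 h.2
      obtain ⟨ζ, hζ, hζ2⟩ := hroot _ (inv_mem h1)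
      refine ⟨g * ζ, by rw [map_mul, hg, MonoidHom.mem_ker.mp hζ, mul_one], fun _ _ => ?_⟩
      rw [(cen (hc hζ) g).mul_pow, hζ2, mul_inv_cancel]
    · exact ⟨g, hg, fun h1 h2 => absurd ⟨h1, h2⟩ h⟩
  choose t ht1 ht2 using ht
  obtain ⟨s, hs1, hs2⟩ : ∃ s, π s = X 0 ∧ (s * t 2) ^ 2 = 1 := by
    obtain ⟨g, hg⟩ := hsurj (X 0)
    have h1 : (g * t 2) ^ 2 ∈ π.ker := by
      rw [MonoidHom.mem_ker, map_pow, map_mul, hg, ht1]; exact hX.r3 0 2 (by omega) (by omega)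
    obtain ⟨ζ, hζ, hζ2⟩ := hroot _ (inv_mem h1)
    refine ⟨g * ζ, by rw [map_mul, hg, MonoidHom.mem_ker.mp hζ, mul_one], ?_⟩
    rw [mul_assoc, ← (cen (hc hζ) (t 2)).eq, ← mul_assoc, (cen (hc hζ) (g * t 2)).mul_pow, hζ2,
      mul_inv_cancel]
  have F1 : ∀ i j, 1 ≤ i → i + 1 < j → j < m → (t i * t j) ^ 2 = 1 := by
    intro i j hi hij hj
    have hd : (t i * t j) ^ 2 ∈ π.ker := by
      rw [MonoidHom.mem_ker, map_pow, map_mul, ht1, ht1]; exact hX.r3 i j hij hj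
    have h1 := sq_mul_sq_eq (one_mem _) (one_mem _) (hc hd) (ht2 i hi (by omega))
      (ht2 j (by omega) hj) rfl
    rw [one_pow, inv_one, mul_one] at h1
    exact htor _ hd h1.symm
  have F2 : ∀ i, 1 ≤ i → i + 1 < m → (t i * t (i + 1)) ^ 3 = 1 := by
    intro i hi him
    have hd : (t i * t (i + 1)) ^ 3 ∈ π.ker := by
      rw [MonoidHom.mem_ker, map_pow, map_mul, ht1, ht1]; exact hX.r2 i him
    have h1 := cube_of_braid (one_mem _) (one_mem _) (hc hd) (ht2 i hi (by omega))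
      (ht2 (i + 1) (by omega) him) rfl
    rw [one_mul, one_pow] at h1
    exact htor _ hd h1
  have hconj : ∀ j, 2 ≤ j → j < m → t j * s * (t j)⁻¹ = s⁻¹ * (s * t j) ^ 2 := by
    intro j hj hjm
    rw [conj_of_sq, ht2 j (by omega) hjm, inv_one, mul_one]
  have hdker : ∀ j, 2 ≤ j → j < m → (s * t j) ^ 2 ∈ π.ker := by
    intro j hj hjm
    rw [MonoidHom.mem_ker, map_pow, map_mul, hs1, ht1]; exact hX.r3 0 j (by omega) hjm
  have F3 : s ^ 3 = 1 := by
    have ha : s ^ 3 ∈ π.ker := by rw [MonoidHom.mem_ker, map_pow, hs1]; exact hX.r0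
    have h1 := sq_eq_pow_of_conj (x := s) (w := t 2) (δ := 1) 3 (one_mem _) (hc ha) rfl
      (by rw [hconj 2 le_rfl (by omega), hs2])
    rw [one_pow] at h1
    exact htor _ ha h1
  have F4 : ∀ j k, 2 ≤ j → j + 1 < k → k < m → (s * t j) ^ 2 = (s * t k) ^ 2 := by
    intro j k hj hjk hk
    have h1 := sq_of_two_inverters (hc (hdker j hj (by omega))) (hc (hdker k (by omega) hk))
      (F1 j k (by omega) hjk hk) (hconj j hj (by omega)) (hconj k (by omega) hk)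
    have h2 := htor _ (mul_mem (inv_mem (hdker j hj (by omega))) (hdker k (by omega) hk)) h1
    exact (inv_mul_eq_one.mp h2)
  have F5 : ∀ j, 2 ≤ j → j < m → j ≠ 3 → (s * t j) ^ 2 = 1 := by
    intro j hj hjm hj3
    rcases Nat.lt_or_ge j 4 with h4 | h4
    · obtain rfl : j = 2 := by omega
      exact hs2
    · rw [← F4 2 j le_rfl (by omega) hjm, hs2]
  have F6 : (s * t 1) ^ 3 = 1 := by
    have hd : (s * t 1) ^ 3 ∈ π.ker := by
      rw [MonoidHom.mem_ker, map_pow, map_mul, hs1, ht1]; exact hX.r2 0 (by omega)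
    have h1 := a4_calc (one_mem _) (hc hd) F3 (ht2 1 le_rfl (by omega)) rfl
    rw [one_pow, inv_one, mul_one, mul_one] at h1
    exact htor _ hd (htor _ (pow_mem hd 2) h1.symm)
  have F7 : ((s * t 3) ^ 2) ^ 3 = 1 := by
    have h1 := sq_eq_pow_of_conj (x := s) (w := t 3) (δ := (s * t 3) ^ 2) (a := 1) 3
      (hc (hdker 3 (by omega) (by omega))) (one_mem _) F3 (hconj 3 (by omega) (by omega))
    rw [one_pow] at h1
    exact h1.symm
  refine ⟨fun i => if i = 0 then s else t i, (s * t 3) ^ 2, ?_, hdker 3 (by omega) (by omega), F7,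
    ?_, ?_, ?_, ?_⟩
  · intro i
    by_cases hi : i = 0
    · subst hi; simpa using hs1
    · simpa [hi] using ht1 i
  · simp only [if_true, F3]; exact one_mem _
  · intro i h1 h2
    have hi : i ≠ 0 := by omega
    simp only [hi, if_false, ht2 i h1 h2]; exact one_mem _
  · intro i h
    by_cases hi : i = 0
    · subst hi
      simp only [if_true, zero_add, one_ne_zero, if_false, F6]; exact one_mem _
    · have hi1 : i + 1 ≠ 0 := by omega
      simp only [hi, hi1, if_false, F2 i (by omega) h]; exact one_mem _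
  · intro i j h1 h2
    have hj : j ≠ 0 := by omega
    by_cases hi : i = 0
    · subst hi
      by_cases hj3 : j = 3
      · subst hj3
        simp only [if_true, hj, if_false]; exact Subgroup.mem_zpowers _
      · simp only [if_true, hj, if_false, F5 j (by omega) h2 hj3]; exact one_mem _
    · simp only [hi, hj, if_false, F1 i j (by omega) h1 h2]; exact one_mem _

theorem stem_quotient (π : Γ →* A) (hπ : Cfsg.IsStemExtension π) (T : Subgroup Γ) (hT : T ≤ π.ker) :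
    ∃ (_ : T.Normal) (πb : Γ ⧸ T →* A), (∀ g, πb (QuotientGroup.mk g) = π g) ∧
      Cfsg.IsStemExtension πb := by
  have hn : T.Normal := normal_of_le_center (hT.trans hπ.2.1)
  obtain ⟨πb, hπb⟩ : ∃ πb : Γ ⧸ T →* A, ∀ g, πb (QuotientGroup.mk g) = π g :=
    ⟨QuotientGroup.lift T π (fun x hx => hT hx), fun _ => rfl⟩
  refine ⟨hn, πb, hπb, ?_, ?_, ?_⟩
  · intro a
    obtain ⟨g, rfl⟩ := hπ.1 a
    exact ⟨QuotientGroup.mk g, hπb g⟩
  · intro x hx
    obtain ⟨g, rfl⟩ := QuotientGroup.mk_surjective x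
    have hg : g ∈ π.ker := by rw [MonoidHom.mem_ker, ← hπb]; exact hx
    rw [Subgroup.mem_center_iff]
    intro y
    obtain ⟨h, rfl⟩ := QuotientGroup.mk_surjective y
    rw [← QuotientGroup.mk_mul, ← QuotientGroup.mk_mul, (cen (hπ.2.1 hg) h).eq]
  · intro x hx
    obtain ⟨g, rfl⟩ := QuotientGroup.mk_surjective x
    have hg : g ∈ π.ker := by rw [MonoidHom.mem_ker, ← hπb]; exact hx
    exact map_commutator_le (QuotientGroup.mk' T) ⟨g, hπ.2.2 hg, rfl⟩

/-- the odd-order part of a central subgroup. -/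
def oddPart (Z : Subgroup Γ) (hZ : Z ≤ Subgroup.center Γ) : Subgroup Γ where
  carrier := {x | x ∈ Z ∧ ∃ r : ℕ, Odd r ∧ x ^ r = 1}
  one_mem' := ⟨one_mem _, 1, odd_one, one_pow _⟩
  mul_mem' := by
    rintro a b ⟨ha, k, hk1, hk⟩ ⟨hb, l, hl1, hl⟩
    refine ⟨mul_mem ha hb, k * l, hk1.mul hl1, ?_⟩
    rw [(cen (hZ hb) a).mul_pow, pow_mul, hk, one_pow, mul_comm k, pow_mul, hl, one_pow, one_mul]
  inv_mem' := by
    rintro a ⟨ha, k, hk1, hk⟩
    exact ⟨inv_mem ha, k, hk1, by rw [inv_pow, hk, inv_one]⟩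

theorem card_ker_le_six [Finite Γ] (m : ℕ) (hm : 4 ≤ m) (φ : PresentedGroup (carRels m) ≃* A)
    (π : Γ →* A) (hπ : Cfsg.IsStemExtension π) : Nat.card π.ker ≤ 6 := by
  -- the quotient by the 2-part
  obtain ⟨T, hT⟩ : ∃ T, T = twoPart π.ker hπ.2.1 := ⟨_, rfl⟩
  have hTmem : ∀ x, x ∈ T ↔ x ∈ π.ker ∧ ∃ k : ℕ, x ^ (2 ^ k) = 1 := by
    intro x; rw [hT]; rfl
  obtain ⟨hTn, πT, hπT, hstT⟩ := stem_quotient π hπ T (fun x hx => ((hTmem x).mp hx).1)
  have htor : ∀ ζ ∈ πT.ker, ζ ^ 2 = 1 → ζ = 1 := by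
    intro x hx h2
    obtain ⟨g, rfl⟩ := QuotientGroup.mk_surjective x
    have hg : g ∈ π.ker := by rw [MonoidHom.mem_ker, ← hπT]; exact hx
    rw [← QuotientGroup.mk_pow, QuotientGroup.eq_one_iff, hTmem] at h2
    obtain ⟨-, k, hk⟩ := h2
    rw [QuotientGroup.eq_one_iff, hTmem]
    exact ⟨hg, k + 1, by rw [pow_succ', pow_mul, hk]⟩
  obtain ⟨Y, ω, hY, hω, hω3, hrel⟩ := lemma_odd3 πT hstT.1 hstT.2.1
    (exists_root _ hstT.2.1 2 htor) htor m hm (genSeq φ) (carRel_genSeq (by omega) φ)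
  have hleT := ker_le_of_relators (carRels m) φ πT hstT (fun i => Y i.val)
    (fun i => by rw [hY, genSeq_val]) (Subgroup.zpowers ω) (by rwa [Subgroup.zpowers_le])
    (lift_mem_of_carRel hrel)
  have hcT : Nat.card πT.ker ≤ 3 :=
    calc Nat.card πT.ker ≤ Nat.card (Subgroup.zpowers ω) := Subgroup.card_le_of_le hleT
      _ = orderOf ω := Nat.card_zpowers ω
      _ ≤ 3 := orderOf_le_of_pow_eq_one (by norm_num) hω3
  -- the quotient by the odd part
  obtain ⟨O, hO⟩ : ∃ O, O = oddPart π.ker hπ.2.1 := ⟨_, rfl⟩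
  have hOmem : ∀ x, x ∈ O ↔ x ∈ π.ker ∧ ∃ r : ℕ, Odd r ∧ x ^ r = 1 := by
    intro x; rw [hO]; rfl
  obtain ⟨hOn, πO, hπO, hstO⟩ := stem_quotient π hπ O (fun x hx => ((hOmem x).mp hx).1)
  have h2O : ∀ x ∈ πO.ker, ∃ k : ℕ, x ^ (2 ^ k) = 1 := by
    intro x hx
    obtain ⟨g, rfl⟩ := QuotientGroup.mk_surjective x
    have hg : g ∈ π.ker := by rw [MonoidHom.mem_ker, ← hπO]; exact hx
    obtain ⟨k, r, hr, hkr⟩ := Nat.exists_eq_two_pow_mul_odd (orderOf_pos g).ne'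
    refine ⟨k, ?_⟩
    rw [← QuotientGroup.mk_pow, QuotientGroup.eq_one_iff, hOmem]
    exact ⟨pow_mem hg _, r, hr, by rw [← pow_mul, ← hkr, pow_orderOf_eq_one]⟩
  have hcO : Nat.card πO.ker ≤ 2 := card_ker_le_two m (by omega) φ πO hstO h2O
  -- combine
  have hinj : Function.Injective (fun x : π.ker =>
      ((⟨QuotientGroup.mk x.1, by rw [MonoidHom.mem_ker, hπT]; exact x.2⟩ : πT.ker),
       (⟨QuotientGroup.mk x.1, by rw [MonoidHom.mem_ker, hπO]; exact x.2⟩ : πO.ker))) := by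
    intro x y hxy
    simp only [Prod.mk.injEq, Subtype.mk.injEq] at hxy
    obtain ⟨h1, h2⟩ := hxy
    rw [QuotientGroup.eq, hTmem] at h1
    rw [QuotientGroup.eq, hOmem] at h2
    obtain ⟨-, k, hk⟩ := h1
    obtain ⟨-, r, hr, hr1⟩ := h2
    have h3 := pow_gcd_eq_one.mpr ⟨hk, hr1⟩
    have h4 : Nat.gcd (2 ^ k) r = 1 :=
      Nat.Coprime.pow_left k hr.coprime_two_left
    rw [h4, pow_one] at h3
    exact Subtype.ext (inv_mul_eq_one.mp h3)
  calc Nat.card π.ker ≤ Nat.card (πT.ker × πO.ker) := Nat.card_le_card_of_injective _ hinj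
    _ = Nat.card πT.ker * Nat.card πO.ker := Nat.card_prod _ _
    _ ≤ 3 * 2 := Nat.mul_le_mul hcT hcO
    _ = 6 := by norm_num

end Cfsg.Agent.Lib.Helper66.AltStem
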