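import Mathlib
import Cfsg.Prelude.Def_KGroupFacts
import Cfsg.Agent.Lib.Helper66.SchurMain
import Cfsg.Agent.Lib.Helper66.FibreProd

set_option autoImplicit false

namespace Cfsg.Agent.Lib.Helper66

open scoped commutatorElement

universe u v w

theorem mem_of_pow_mem_of_coprime {X : Type u} [Group X] (K : Subgroup X) {m n : ℕ}
    (h : Nat.Coprime m n) {x : X} (hm : x ^ m ∈ K) (hn : x ^ n ∈ K) : x ∈ K := by
  have h1 : (m : ℤ) * Nat.gcdA m n + (n : ℤ) * Nat.gcdB m n = 1 := by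
    have := Nat.gcd_eq_gcd_ab m n
    rw [h.gcd_eq_one] at this
    exact_mod_cast this.symm
  have h2 : x = (x ^ m) ^ (Nat.gcdA m n) * (x ^ n) ^ (Nat.gcdB m n) := by
    rw [← zpow_natCast, ← zpow_natCast, ← zpow_mul, ← zpow_mul, ← zpow_add, h1, zpow_one]
  rw [h2]
  exact K.mul_mem (K.zpow_mem hm _) (K.zpow_mem hn _)

/-- elements whose `m`-th power lies in the commutator subgroup -/
def powComm (P : Type u) [Group P] (m : ℕ) : Subgroup P :=
  (powMonoidHom m : Abelianization P →* Abelianization P).ker.comap Abelianization.of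

theorem mem_powComm {P : Type u} [Group P] {m : ℕ} {w : P} :
    w ∈ powComm P m ↔ w ^ m ∈ commutator P := by
  rw [powComm, Subgroup.mem_comap, MonoidHom.mem_ker, powMonoidHom_apply, ← map_pow,
    ← MonoidHom.mem_ker, Abelianization.ker_of]

theorem pow_card_abelianization_mem (Q : Type u) [Group Q] [Finite Q] (q : Q) :
    q ^ Nat.card (Abelianization Q) ∈ commutator Q := by
  rw [← Abelianization.ker_of, MonoidHom.mem_ker, map_pow, pow_card_eq_one']

/-- one-sided lemma -/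
theorem powComm_bijective {Q : Type u} [Group Q] [Finite Q] {A : Type v} [CommGroup A]
    (hA : Cfsg.HasSchurMultiplier Q A)
    (hcop : Nat.Coprime (Nat.card (Abelianization Q)) (Nat.card A))
    {P : Type w} [Group P] [Finite P] {Γ : Type u} [Group Γ] [Finite Γ]
    (ρ : P →* Q) (hρ : ρ.ker ≤ Subgroup.center P)
    (hexp : ∀ k ∈ ρ.ker, k ^ Nat.card A = 1)
    (π : P →* Γ) (hπ : Function.Surjective π) (σ : Γ →* Q) (hσ : Cfsg.IsStemExtension σ)
    (hcomp : ∀ w, σ (π w) = ρ w) (hker : Nonempty (σ.ker ≃* A)) :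
    Function.Bijective (π.comp (powComm P (Nat.card (Abelianization Q))).subtype) := by
  have hAfin : Finite A := HasSchurMultiplier.finite hA
  set m := Nat.card (Abelianization Q) with hm
  set n := Nat.card A with hn
  have hρs : Function.Surjective ρ := by
    intro q
    obtain ⟨γ, rfl⟩ := hσ.1 q
    obtain ⟨w, rfl⟩ := hπ γ
    exact ⟨w, (hcomp w).symm⟩
  obtain ⟨f, hf⟩ := HasSchurMultiplier.exists_surj_of_central hA ρ hρs hρ
  obtain ⟨eA⟩ := hker
  -- the map M_P → ker σ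
  let θ : ↥(ρ.ker ⊓ commutator P) →* σ.ker :=
    (π.comp (ρ.ker ⊓ commutator P).subtype).codRestrict σ.ker (fun c => by
      rw [MonoidHom.mem_ker]
      exact (hcomp _).trans c.2.1)
  have hθs : Function.Surjective θ := by
    rintro ⟨k, hk⟩
    have hk' : k ∈ commutator Γ := hσ.2.2 hk
    rw [← map_commutator_eq_of_surjective π hπ] at hk'
    obtain ⟨c, hc, rfl⟩ := hk'
    have hck : c ∈ ρ.ker := by rw [MonoidHom.mem_ker, ← hcomp]; exact hk
    exact ⟨⟨c, hck, hc⟩, rfl⟩
  have hcard : Nat.card ↥(ρ.ker ⊓ commutator P) = Nat.card σ.ker := by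
    apply le_antisymm
    · rw [Nat.card_congr eA.toEquiv]
      exact Nat.card_le_card_of_surjective f hf
    · exact Nat.card_le_card_of_surjective θ hθs
  have hθi : Function.Injective θ :=
    ((Nat.bijective_iff_surjective_and_card θ).mpr ⟨hθs, hcard⟩).1
  constructor
  · rw [injective_iff_map_eq_one]
    rintro ⟨w, hw⟩ h1
    have h1' : π w = 1 := h1
    have hwk : w ∈ ρ.ker := by rw [MonoidHom.mem_ker, ← hcomp, h1', map_one]
    rw [mem_powComm] at hw
    have h2 : w ^ m = 1 := by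
      have : θ ⟨w ^ m, (ρ.ker).pow_mem hwk m, hw⟩ = 1 := by
        apply Subtype.ext
        change π (w ^ m) = 1
        rw [map_pow, h1', one_pow]
      have := hθi (this.trans (map_one θ).symm)
      exact congrArg Subtype.val this
    have h3 : w ∈ (⊥ : Subgroup P) :=
      mem_of_pow_mem_of_coprime ⊥ hcop (by rw [h2]; exact Subgroup.one_mem _)
        (by rw [hexp w hwk]; exact Subgroup.one_mem _)
    apply Subtype.ext
    exact Subgroup.mem_bot.mp h3
  · intro γ
    obtain ⟨w, rfl⟩ := hπ γ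
    have hPle : commutator P ≤ powComm P m := by
      intro c hc
      rw [mem_powComm]
      exact (commutator P).pow_mem hc m
    -- w ^ m = c * k
    have h1 : ρ w ^ m ∈ commutator Q := pow_card_abelianization_mem Q _
    rw [← map_commutator_eq_of_surjective ρ hρs] at h1
    obtain ⟨c, hc, hcw⟩ := h1
    set k := c⁻¹ * w ^ m with hk
    have hkk : k ∈ ρ.ker := by
      rw [MonoidHom.mem_ker, hk, map_mul, map_inv, hcw, map_pow, inv_mul_cancel]
    have hwm : w ^ m = c * k := by rw [hk, mul_inv_cancel_left]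
    have hcomm : Commute c k := ((Subgroup.mem_center_iff.mp (hρ hkk)) c)
    have h2 : π w ∈ (powComm P m).map π := by
      apply mem_of_pow_mem_of_coprime _ hcop
      · -- π w ^ m
        rw [← map_pow, hwm, map_mul]
        apply Subgroup.mul_mem _ (Subgroup.mem_map_of_mem _ (hPle hc))
        have : π k ∈ commutator Γ := hσ.2.2 (by rw [MonoidHom.mem_ker, hcomp]; exact hkk)
        rw [← map_commutator_eq_of_surjective π hπ] at this
        exact Subgroup.map_mono hPle this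
      · rw [← map_pow]
        apply Subgroup.mem_map_of_mem
        rw [mem_powComm, ← pow_mul, mul_comm, pow_mul, hwm, hcomm.mul_pow, hexp k hkk, mul_one]
        exact (commutator P).pow_mem hc n
    obtain ⟨h, hh, hhw⟩ := h2
    exact ⟨⟨h, hh⟩, hhw⟩

/-- **Uniqueness of the Schur cover over `Q`** when `|Q/Q'|` and `|M(Q)|` are coprime. -/
theorem cover_unique_of_coprime {Q : Type u} [Group Q] [Finite Q] {A : Type v} [CommGroup A]
    (hA : Cfsg.HasSchurMultiplier Q A)
    (hcop : Nat.Coprime (Nat.card (Abelianization Q)) (Nat.card A))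
    (Γ₁ Γ₂ : Type u) [Group Γ₁] [Finite Γ₁] [Group Γ₂] [Finite Γ₂] (σ₁ : Γ₁ →* Q) (σ₂ : Γ₂ →* Q)
    (h₁ : Cfsg.IsStemExtension σ₁) (h₂ : Cfsg.IsStemExtension σ₂)
    (k₁ : Nonempty (σ₁.ker ≃* A)) (k₂ : Nonempty (σ₂.ker ≃* A)) :
    ∃ e : Γ₁ ≃* Γ₂, σ₂.comp e.toMonoidHom = σ₁ := by
  let P := fibre σ₁ σ₂
  let ρ : P →* Q := σ₁.comp (fibreFst σ₁ σ₂)
  have hmemker : ∀ x : P, x ∈ ρ.ker → x.1.1 ∈ σ₁.ker ∧ x.1.2 ∈ σ₂.ker := by
    intro x hx
    have h1 : σ₁ x.1.1 = 1 := hx
    refine ⟨h1, ?_⟩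
    rw [MonoidHom.mem_ker]
    exact (fibre_comm σ₁ σ₂ x).symm.trans h1
  have hρ : ρ.ker ≤ Subgroup.center P := by
    intro x hx
    obtain ⟨hx1, hx2⟩ := hmemker x hx
    rw [Subgroup.mem_center_iff]
    intro y
    apply Subtype.ext
    apply Prod.ext
    · exact (Subgroup.mem_center_iff.mp (h₁.2.1 hx1)) y.1.1
    · exact (Subgroup.mem_center_iff.mp (h₂.2.1 hx2)) y.1.2
  have hexp : ∀ k ∈ ρ.ker, k ^ Nat.card A = 1 := by
    intro x hx
    obtain ⟨hx1, hx2⟩ := hmemker x hx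
    obtain ⟨e1⟩ := k₁
    obtain ⟨e2⟩ := k₂
    apply Subtype.ext
    apply Prod.ext
    · have : (⟨x.1.1, hx1⟩ : σ₁.ker) ^ Nat.card A = 1 := by
        rw [← Nat.card_congr e1.toEquiv, pow_card_eq_one']
      exact congrArg Subtype.val this
    · have : (⟨x.1.2, hx2⟩ : σ₂.ker) ^ Nat.card A = 1 := by
        rw [← Nat.card_congr e2.toEquiv, pow_card_eq_one']
      exact congrArg Subtype.val this
  have b1 := powComm_bijective hA hcop ρ hρ hexp (fibreFst σ₁ σ₂) (fibreFst_surjective σ₁ σ₂ h₂.1)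
    σ₁ h₁ (fun _ => rfl) k₁
  have b2 := powComm_bijective hA hcop ρ hρ hexp (fibreSnd σ₁ σ₂) (fibreSnd_surjective σ₁ σ₂ h₁.1)
    σ₂ h₂ (fun w => (fibre_comm σ₁ σ₂ w).symm) k₂
  let e1 := MulEquiv.ofBijective _ b1
  let e2 := MulEquiv.ofBijective _ b2
  refine ⟨e1.symm.trans e2, ?_⟩
  ext γ
  obtain ⟨h, rfl⟩ := e1.surjective γ
  change σ₂ (e2 (e1.symm (e1 h))) = σ₁ (e1 h)
  rw [MulEquiv.symm_apply_apply]
  exact (fibre_comm σ₁ σ₂ h.1).symm

end Cfsg.Agent.Lib.Helper66
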