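import Mathlib
import Cfsg.Prelude.Def_KGroupFacts
import Cfsg.Agent.Lib.Helper66.SchurMain
import Cfsg.Agent.Lib.Helper66.CoverUnique

set_option autoImplicit false

namespace Cfsg.Agent.Lib.Helper66

open scoped commutatorElement

universe u v w

/-- **Transfer lemma.** A central element of `Γ` lying in `Γ'` whose order is prime to the index of `H`
lies in `H'`. -/
theorem mem_commutator_of_central_of_coprime_index {Γ : Type u} [Group Γ] (H : Subgroup Γ)
    [H.FiniteIndex] {z : Γ} (hzc : z ∈ Subgroup.center Γ) (hz' : z ∈ commutator Γ) (hzH : z ∈ H)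
    (hcop : (orderOf z).Coprime H.index) : (⟨z, hzH⟩ : H) ∈ commutator H := by
  have key : ∀ (k : ℕ) (g₀ : Γ), g₀⁻¹ * z ^ k * g₀ ∈ H → g₀⁻¹ * z ^ k * g₀ = z ^ k := by
    intro k g₀ _
    have hc : z ^ k ∈ Subgroup.center Γ := Subgroup.pow_mem _ hzc k
    rw [mul_assoc, ← (Subgroup.mem_center_iff.mp hc) g₀, inv_mul_cancel_left]
  have h1 := MonoidHom.transfer_eq_pow (Abelianization.of : H →* Abelianization H) z key
  have h2 : MonoidHom.transfer (Abelianization.of : H →* Abelianization H) z = 1 := by
    have := Abelianization.commutator_subset_ker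
      (MonoidHom.transfer (Abelianization.of : H →* Abelianization H)) hz'
    exact this
  rw [h2] at h1
  have h3 : (⟨z, hzH⟩ : H) ^ H.index ∈ commutator H := by
    rw [← Abelianization.ker_of, MonoidHom.mem_ker]
    exact h1.symm
  have h4 : (⟨z, hzH⟩ : H) ^ orderOf z ∈ commutator H := by
    have : (⟨z, hzH⟩ : H) ^ orderOf z = 1 := Subtype.ext (pow_orderOf_eq_one z)
    rw [this]; exact Subgroup.one_mem _
  exact mem_of_pow_mem_of_coprime _ hcop h4 h3

/-- Local criterion: an element `z` of the kernel of a stem extension of `G` is trivial as soon as some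
subgroup `R` of `G` of index prime to the order of `z` has a preimage in which no nontrivial element
of the kernel is a product of commutators. -/
theorem stem_ker_eq_one_of_subgroup {Γ : Type u} {G : Type v} [Group Γ] [Group G] [Finite Γ]
    (σ : Γ →* G) (hσ : Cfsg.IsStemExtension σ) (R : Subgroup G) (z : Γ) (hz : z ∈ σ.ker)
    (hcop : (orderOf z).Coprime R.index)
    (hcomm : ∀ x : (R.comap σ), x ∈ commutator (R.comap σ) → σ x = 1 → x = 1) : z = 1 := by
  have hzH : z ∈ R.comap σ := by
    rw [Subgroup.mem_comap, MonoidHom.mem_ker.mp hz]; exact R.one_mem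
  have hidx : (R.comap σ).index = R.index := Subgroup.index_comap_of_surjective R hσ.1
  have h1 := mem_commutator_of_central_of_coprime_index (R.comap σ) (hσ.2.1 hz) (hσ.2.2 hz) hzH
    (by rw [hidx]; exact hcop)
  have h2 := hcomm ⟨z, hzH⟩ h1 hz
  exact congrArg Subtype.val h2

/-- the hypothesis of `stem_ker_eq_one_of_subgroup` holds when `R` is isomorphic to a group with trivial
multiplier -/
theorem comap_commutator_of_trivial_multiplier {Γ : Type u} {G : Type v} [Group Γ] [Group G]
    (σ : Γ →* G) (hσ : Cfsg.IsStemExtension σ) (R : Subgroup G) {Q : Type w} [Group Q]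
    (e : R ≃* Q) (hQ : Cfsg.HasCyclicSchurMultiplier Q 1) :
    ∀ x : (R.comap σ), x ∈ commutator (R.comap σ) → σ x = 1 → x = 1 := by
  intro x hx hx1
  let ξ : (R.comap σ) →* Q := e.toMonoidHom.comp (σ.subgroupComap R)
  have hξs : Function.Surjective ξ :=
    e.surjective.comp (σ.subgroupComap_surjective_of_surjective R hσ.1)
  have hker : ∀ y : (R.comap σ), y ∈ ξ.ker → σ y = 1 := by
    intro y hy
    have h1 : e (σ.subgroupComap R y) = 1 := hy
    have h2 : σ.subgroupComap R y = 1 := by
      rw [← e.map_one] at h1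
      exact e.injective h1
    exact congrArg Subtype.val h2
  have hξc : ξ.ker ≤ Subgroup.center (R.comap σ) := by
    intro y hy
    rw [Subgroup.mem_center_iff]
    intro g
    apply Subtype.ext
    exact (Subgroup.mem_center_iff.mp (hσ.2.1 (MonoidHom.mem_ker.mpr (hker y hy)))) g
  have h := ker_inf_commutator_eq_bot_of_trivial hQ ξ hξs hξc
  have hxk : x ∈ ξ.ker := by
    rw [MonoidHom.mem_ker]
    change e (σ.subgroupComap R x) = 1
    have : σ.subgroupComap R x = 1 := Subtype.ext hx1
    rw [this, map_one]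
  have : x ∈ ξ.ker ⊓ commutator (R.comap σ) := ⟨hxk, hx⟩
  rw [h] at this
  exact Subgroup.mem_bot.mp this

end Cfsg.Agent.Lib.Helper66
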