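import Mathlib
import Cfsg.Prelude.Def_KGroupFacts
import Cfsg.Agent.Lib.Helper66.SchurMain
import Cfsg.Agent.Lib.Helper5.LinearCard

set_option autoImplicit false

namespace Cfsg.Agent.Lib.Helper66

open scoped commutatorElement
open Matrix

universe u v w

/-- transport of stem extensions along an isomorphism of the base -/
theorem IsStemExtension.comp_mulEquiv {Γ : Type u} {G : Type v} {G' : Type w} [Group Γ] [Group G]
    [Group G'] {σ : Γ →* G} (hσ : Cfsg.IsStemExtension σ) (e : G ≃* G') :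
    Cfsg.IsStemExtension (e.toMonoidHom.comp σ) ∧ (e.toMonoidHom.comp σ).ker = σ.ker := by
  have hker : (e.toMonoidHom.comp σ).ker = σ.ker := by
    ext x
    rw [MonoidHom.mem_ker, MonoidHom.mem_ker]
    change e (σ x) = 1 ↔ σ x = 1
    exact e.map_eq_one_iff
  refine ⟨⟨e.surjective.comp hσ.1, ?_, ?_⟩, hker⟩
  · rw [hker]; exact hσ.2.1
  · rw [hker]; exact hσ.2.2

/-- transport of `HasSchurMultiplier` along an isomorphism of groups in the same universe -/
theorem HasSchurMultiplier.of_mulEquiv {G G' : Type u} [Group G] [Group G'] {A : Type v} [CommGroup A]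
    (e : G ≃* G') (h : Cfsg.HasSchurMultiplier G A) : Cfsg.HasSchurMultiplier G' A := by
  obtain ⟨⟨Γ, i1, i2, σ, hσ, ⟨f⟩⟩, h2⟩ := h
  constructor
  · obtain ⟨h3, h4⟩ := IsStemExtension.comp_mulEquiv hσ e
    exact ⟨Γ, i1, i2, e.toMonoidHom.comp σ, h3, ⟨(MulEquiv.subgroupCongr h4).trans f⟩⟩
  · intro Δ _ _ τ hτ
    obtain ⟨h3, h4⟩ := IsStemExtension.comp_mulEquiv hτ e.symm
    obtain ⟨π, hπ⟩ := h2 Δ _ h3
    exact ⟨(MulEquiv.subgroupCongr h4).toMonoidHom.comp π,
      (MulEquiv.subgroupCongr h4).surjective.comp hπ⟩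

/-- a perfect group with trivial multiplier is the Schur cover of its central quotient -/
theorem hasSchurMultiplier_center_quotient {Γ : Type u} [Group Γ] [Finite Γ]
    (hperf : commutator Γ = ⊤)
    (hcover : ∀ (Δ : Type u) [Group Δ] [Finite Δ] (τ : Δ →* Γ ⧸ Subgroup.center Γ),
      Cfsg.IsStemExtension τ →
        ∃ π : (QuotientGroup.mk' (Subgroup.center Γ)).ker →* τ.ker, Function.Surjective π)
    {A : Type v} [CommGroup A] (e : Subgroup.center Γ ≃* A) :
    Cfsg.HasSchurMultiplier (Γ ⧸ Subgroup.center Γ) A := by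
  have hker : (QuotientGroup.mk' (Subgroup.center Γ)).ker = Subgroup.center Γ :=
    QuotientGroup.ker_mk' _
  have hstem : Cfsg.IsStemExtension (QuotientGroup.mk' (Subgroup.center Γ)) := by
    refine ⟨QuotientGroup.mk'_surjective _, ?_, ?_⟩
    · rw [hker]
    · rw [hperf]; exact le_top
  constructor
  · exact ⟨Γ, inferInstance, inferInstance, _, hstem, ⟨(MulEquiv.subgroupCongr hker).trans e⟩⟩
  · intro Δ _ _ τ hτ
    obtain ⟨π, hπ⟩ := hcover Δ τ hτ
    exact ⟨π.comp ((MulEquiv.subgroupCongr hker).trans e).symm.toMonoidHom,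
      hπ.comp ((MulEquiv.subgroupCongr hker).trans e).symm.surjective⟩

end Cfsg.Agent.Lib.Helper66
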