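import Mathlib

/-!
# The rank one Steinberg relations over a finite field
-/

set_option autoImplicit false

namespace Cfsg.Agent.Lib.Helper66

/-- A pair of "root subgroups" satisfying Steinberg's relations (A) and (B'). -/
structure St2 (K : Type*) [Field K] (Γ : Type*) [Group Γ] where
  x : K → Γ
  y : K → Γ
  x_add : ∀ t u, x t * x u = x (t + u)
  y_add : ∀ t u, y t * y u = y (t + u)
  relx : ∀ t u, t ≠ 0 →
    (x t * y (-t⁻¹) * x t) * x u * (x t * y (-t⁻¹) * x t)⁻¹ = y (-(t⁻¹ ^ 2 * u))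
  rely : ∀ t u, t ≠ 0 →
    (y t * x (-t⁻¹) * y t) * y u * (y t * x (-t⁻¹) * y t)⁻¹ = x (-(t⁻¹ ^ 2 * u))

namespace St2

variable {K : Type*} [Field K] {Γ : Type*} [Group Γ] (S : St2 K Γ)

/-- interchange the two root subgroups -/
def swap : St2 K Γ := ⟨S.y, S.x, S.y_add, S.x_add, S.rely, S.relx⟩

@[simp] theorem swap_x : S.swap.x = S.y := rfl
@[simp] theorem swap_y : S.swap.y = S.x := rfl

def w (t : K) : Γ := S.x t * S.y (-t⁻¹) * S.x t

def h (t : K) : Γ := S.w t * S.w (-1)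

theorem x_zero : S.x 0 = 1 := by
  have := S.x_add 0 0
  rw [add_zero] at this
  exact mul_eq_left.mp this

theorem y_zero : S.y 0 = 1 := S.swap.x_zero

theorem x_inv (t : K) : (S.x t)⁻¹ = S.x (-t) := by
  rw [inv_eq_iff_mul_eq_one, S.x_add, add_neg_cancel, S.x_zero]

theorem y_inv (t : K) : (S.y t)⁻¹ = S.y (-t) := S.swap.x_inv t

theorem w_inv (t : K) : (S.w t)⁻¹ = S.w (-t) := by
  unfold w
  rw [mul_inv_rev, mul_inv_rev, S.x_inv, S.y_inv, inv_neg, neg_neg, mul_assoc]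

theorem conj_mul (g a b : Γ) : g * (a * b) * g⁻¹ = (g * a * g⁻¹) * (g * b * g⁻¹) := by group

theorem w_x {t : K} (ht : t ≠ 0) (u : K) : S.w t * S.x u * (S.w t)⁻¹ = S.y (-(t⁻¹ ^ 2 * u)) :=
  S.relx t u ht

theorem w_y {t : K} (ht : t ≠ 0) (u : K) : S.w t * S.y u * (S.w t)⁻¹ = S.x (-(t ^ 2 * u)) := by
  have h1 := S.w_x (neg_ne_zero.mpr ht) (-(t ^ 2 * u))
  have h2 : -((-t)⁻¹ ^ 2 * -(t ^ 2 * u)) = u := by field_simp
  rw [h2, ← S.w_inv, inv_inv] at h1
  rw [← h1]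
  group

theorem w_eq_swap {t : K} (ht : t ≠ 0) : S.w t = S.swap.w (-t⁻¹) := by
  have h1 : S.w t = S.w t * S.w t * (S.w t)⁻¹ := by group
  conv_lhs => rw [h1]
  conv_lhs => enter [1, 2]; unfold w
  rw [conj_mul, conj_mul, S.w_x ht, S.w_y ht]
  unfold w
  simp only [swap_x, swap_y]
  have e1 : -(t⁻¹ ^ 2 * t) = -t⁻¹ := by field_simp
  have e2 : -(t ^ 2 * -t⁻¹) = -(-t⁻¹)⁻¹ := by field_simp
  rw [e1, e2]

theorem swap_w_eq {t : K} (ht : t ≠ 0) : S.swap.w t = S.w (-t⁻¹) := S.swap.w_eq_swap ht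

theorem w_w {t u : K} (ht : t ≠ 0) (hu : u ≠ 0) :
    S.w t * S.w u * (S.w t)⁻¹ = S.w (t ^ 2 * u⁻¹) := by
  conv_lhs => enter [1, 2]; unfold w
  rw [conj_mul, conj_mul, S.w_x ht, S.w_y ht]
  have hs : -(t⁻¹ ^ 2 * u) ≠ 0 := by
    apply neg_ne_zero.mpr
    positivity
  have e : -(t ^ 2 * -u⁻¹) = -(-(t⁻¹ ^ 2 * u))⁻¹ := by field_simp
  rw [e]
  refine (S.swap_w_eq hs).trans ?_
  congr 1
  field_simp

theorem w_one_inv : (S.w 1)⁻¹ = S.w (-1) := S.w_inv 1

theorem w_neg_one_inv : (S.w (-1))⁻¹ = S.w 1 := by rw [S.w_inv, neg_neg]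

theorem h_one : S.h 1 = 1 := by
  unfold h
  rw [← S.w_one_inv, mul_inv_cancel]

theorem w_eq_h (t : K) : S.w t = S.h t * S.w 1 := by
  unfold h
  rw [← S.w_one_inv, inv_mul_cancel_right]

theorem conj_conj (g k a : Γ) : (g * k) * a * (g * k)⁻¹ = g * (k * a * k⁻¹) * g⁻¹ := by group

theorem h_x {t : K} (ht : t ≠ 0) (u : K) : S.h t * S.x u * (S.h t)⁻¹ = S.x (t ^ 2 * u) := by
  unfold h
  rw [conj_conj, S.w_x (neg_ne_zero.mpr one_ne_zero), S.w_y ht]
  congr 1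
  field_simp

theorem h_y {t : K} (ht : t ≠ 0) (u : K) : S.h t * S.y u * (S.h t)⁻¹ = S.y (t⁻¹ ^ 2 * u) := by
  unfold h
  rw [conj_conj, S.w_y (neg_ne_zero.mpr one_ne_zero), S.w_x ht]
  congr 1
  field_simp

theorem h_w {t : K} (ht : t ≠ 0) (u : K) : S.h t * S.w u * (S.h t)⁻¹ = S.w (t ^ 2 * u) := by
  conv_lhs => enter [1, 2]; unfold w
  rw [conj_mul, conj_mul, S.h_x ht, S.h_y ht]
  unfold w
  congr 2
  congr 1
  rw [mul_inv, inv_pow]
  ring

theorem h_h {t : K} (ht : t ≠ 0) (u : K) :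
    S.h t * S.h u * (S.h t)⁻¹ = S.h (t ^ 2 * u) * (S.h (t ^ 2))⁻¹ := by
  conv_lhs => enter [1, 2]; unfold h
  rw [conj_mul, S.h_w ht, S.h_w ht]
  unfold h
  rw [mul_inv_rev, S.w_inv (t ^ 2), mul_assoc, mul_inv_cancel_left, mul_neg_one]

/-- `w(1)` inverts the torus -/
theorem w_h {u : K} (hu : u ≠ 0) : S.w 1 * S.h u * (S.w 1)⁻¹ = S.h u⁻¹ := by
  conv_lhs => enter [1, 2]; unfold h
  rw [conj_mul, S.w_w one_ne_zero hu, S.w_w one_ne_zero (neg_ne_zero.mpr one_ne_zero)]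
  unfold h
  congr 2
  · ring
  · rw [one_pow, one_mul, inv_neg, inv_one]

/-- the basic relation behind `{t, 1 - t} = 1` -/
theorem w_mul_w {t u : K} (ht : t ≠ 0) (hu : u ≠ 0) (htu : t + u = 1) :
    S.w t * S.w u = S.w (t / u) * S.w 1 := by
  have key : S.w t * S.y (1 / (t * u)) * S.w u = S.y (-(u / t)) * S.w 1 * S.y (-(t / u)) := by
    have h1 : S.w t = S.y (-t⁻¹) * S.x t * S.y (-t⁻¹) := by
      rw [S.w_eq_swap ht]
      unfold w
      simp only [swap_x, swap_y, inv_neg, inv_inv, neg_neg]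
    have h2 : S.w u = S.y (-u⁻¹) * S.x u * S.y (-u⁻¹) := by
      rw [S.w_eq_swap hu]
      unfold w
      simp only [swap_x, swap_y, inv_neg, inv_inv, neg_neg]
    have h3 : S.w 1 = S.y (-1) * S.x 1 * S.y (-1) := by
      rw [S.w_eq_swap one_ne_zero]
      unfold w
      simp only [swap_x, swap_y, inv_neg, neg_neg, inv_one]
    have e0 : -t⁻¹ + 1 / (t * u) + -u⁻¹ = 0 := by
      field_simp
      linear_combination (-1 : K) * htu
    calc S.w t * S.y (1 / (t * u)) * S.w u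
        = S.y (-t⁻¹) * S.x t * (S.y (-t⁻¹) * S.y (1 / (t * u)) * S.y (-u⁻¹)) * S.x u * S.y (-u⁻¹) := by
          rw [h1, h2]; group
      _ = S.y (-t⁻¹) * (S.x t * S.x u) * S.y (-u⁻¹) := by
          rw [S.y_add, S.y_add, e0, S.y_zero]; group
      _ = S.y (-t⁻¹) * S.x 1 * S.y (-u⁻¹) := by rw [S.x_add, htu]
      _ = (S.y (-(u / t)) * S.y (-1)) * S.x 1 * (S.y (-1) * S.y (-(t / u))) := by
          rw [S.y_add, S.y_add]
          have e1 : -(u / t) + -1 = -t⁻¹ := by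
            field_simp
            linear_combination (-1 : K) * htu
          have e2 : -1 + -(t / u) = -u⁻¹ := by
            field_simp
            linear_combination (-1 : K) * htu
          rw [e1, e2]
      _ = S.y (-(u / t)) * S.w 1 * S.y (-(t / u)) := by rw [h3]; group
  have hL : S.w t * S.y (1 / (t * u)) * S.w u = S.x (-(t / u)) * (S.w t * S.w u) := by
    have := S.w_y ht (1 / (t * u))
    have e : -(t ^ 2 * (1 / (t * u))) = -(t / u) := by field_simp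
    rw [e] at this
    rw [← this]; group
  have hR : S.y (-(u / t)) * S.w 1 * S.y (-(t / u)) = S.y (-(u / t)) * S.x (t / u) * S.w 1 := by
    have := S.w_y one_ne_zero (-(t / u))
    have e : -((1 : K) ^ 2 * -(t / u)) = t / u := by ring
    rw [e] at this
    rw [← this]; group
  rw [hL, hR] at key
  have : S.w t * S.w u = S.x (t / u) * (S.y (-(u / t)) * S.x (t / u) * S.w 1) := by
    rw [← key, ← mul_assoc, S.x_add, add_neg_cancel, S.x_zero, one_mul]
  rw [this]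
  unfold w
  have e : -(t / u)⁻¹ = -(u / t) := by rw [inv_div]
  rw [e]
  group

theorem h_mul_of_add {t u : K} (ht : t ≠ 0) (hu : u ≠ 0) (htu : t + u = 1) :
    S.h t * S.h u⁻¹ = S.h (t / u) := by
  have h1 := S.w_mul_w ht hu htu
  rw [S.w_eq_h t, S.w_eq_h u, S.w_eq_h (t / u)] at h1
  have h2 := S.w_h hu
  rw [← h2]
  have h3 : S.h t * (S.w 1 * S.h u * (S.w 1)⁻¹) * (S.w 1 * S.w 1) = S.h (t / u) * (S.w 1 * S.w 1) := by
    rw [← mul_assoc (S.h (t / u)), ← h1]; group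
  exact mul_right_cancel h3

theorem h_inv_x {t : K} (ht : t ≠ 0) (u : K) : (S.h t)⁻¹ * S.x u * S.h t = S.x (t⁻¹ ^ 2 * u) := by
  have := S.h_x ht (t⁻¹ ^ 2 * u)
  have e : t ^ 2 * (t⁻¹ ^ 2 * u) = u := by field_simp
  rw [e] at this
  rw [← this]; group

theorem h_inv_y {t : K} (ht : t ≠ 0) (u : K) : (S.h t)⁻¹ * S.y u * S.h t = S.y (t ^ 2 * u) := by
  have := S.h_y ht (t ^ 2 * u)
  have e : t⁻¹ ^ 2 * (t ^ 2 * u) = u := by field_simp
  rw [e] at this
  rw [← this]; group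

section gen

variable (hgen : Subgroup.closure (Set.range S.x ∪ Set.range S.y) = ⊤)

include hgen

theorem mem_center_of_commute {g : Γ} (hx : ∀ u, g * S.x u * g⁻¹ = S.x u)
    (hy : ∀ u, g * S.y u * g⁻¹ = S.y u) : g ∈ Subgroup.center Γ := by
  have h1 : Subgroup.closure (Set.range S.x ∪ Set.range S.y) ≤ Subgroup.centralizer {g} := by
    rw [Subgroup.closure_le]
    rintro _ (⟨u, rfl⟩ | ⟨u, rfl⟩)
    · rw [SetLike.mem_coe, Subgroup.mem_centralizer_singleton_iff]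
      have := hx u
      rw [mul_inv_eq_iff_eq_mul] at this
      exact this.symm
    · rw [SetLike.mem_coe, Subgroup.mem_centralizer_singleton_iff]
      have := hy u
      rw [mul_inv_eq_iff_eq_mul] at this
      exact this.symm
  rw [hgen] at h1
  rw [Subgroup.mem_center_iff]
  intro a
  exact Subgroup.mem_centralizer_singleton_iff.mp (h1 (Subgroup.mem_top a))

theorem f_central {t u : K} (ht : t ≠ 0) (hu : u ≠ 0) :
    S.h t * S.h u * (S.h (t * u))⁻¹ ∈ Subgroup.center Γ := by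
  have e : ∀ a b c X : Γ, (a * b * c⁻¹) * X * (a * b * c⁻¹)⁻¹ = a * (b * (c⁻¹ * X * c) * b⁻¹) * a⁻¹ := by
    intro a b c X; group
  apply S.mem_center_of_commute hgen
  · intro v
    rw [e, S.h_inv_x (mul_ne_zero ht hu), S.h_x hu, S.h_x ht]
    congr 1
    field_simp
  · intro v
    rw [e, S.h_inv_y (mul_ne_zero ht hu), S.h_y hu, S.h_y ht]
    congr 1
    field_simp

theorem exists_central_pow {v : K} (hv : v ≠ 0) (n : ℕ) :
    ∃ c ∈ Subgroup.center Γ, S.h (v ^ n) = c * (S.h v) ^ n := by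
  induction n with
  | zero => exact ⟨1, one_mem _, by simp [S.h_one]⟩
  | succ n ih =>
    obtain ⟨c, hc, h⟩ := ih
    have hf := S.f_central hgen (pow_ne_zero n hv) hv
    refine ⟨(S.h (v ^ n) * S.h v * (S.h (v ^ n * v))⁻¹)⁻¹ * c, mul_mem (inv_mem hf) hc, ?_⟩
    rw [pow_succ v, pow_succ (S.h v), ← mul_assoc, mul_assoc _ c, ← h]
    group

theorem h_comm [Finite K] {t u : K} (ht : t ≠ 0) (hu : u ≠ 0) :
    S.h t * S.h u = S.h u * S.h t := by
  obtain ⟨g, hg⟩ := IsCyclic.exists_monoid_generator (α := Kˣ)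
  obtain ⟨m, hm⟩ := hg (Units.mk0 t ht)
  obtain ⟨n, hn⟩ := hg (Units.mk0 u hu)
  have hm' : t = (g : K) ^ m := by
    have := congrArg Units.val hm
    simpa using this.symm
  have hn' : u = (g : K) ^ n := by
    have := congrArg Units.val hn
    simpa using this.symm
  obtain ⟨c₁, hc₁, h₁⟩ := S.exists_central_pow hgen g.ne_zero m
  obtain ⟨c₂, hc₂, h₂⟩ := S.exists_central_pow hgen g.ne_zero n
  rw [hm', hn', h₁, h₂]
  have C1 : ∀ a, Commute c₁ a := fun a => (Subgroup.mem_center_iff.mp hc₁ a).symm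
  have C2 : ∀ a, Commute c₂ a := fun a => (Subgroup.mem_center_iff.mp hc₂ a).symm
  exact Commute.mul_left (C1 _) (Commute.mul_right (C2 _).symm ((Commute.refl _).pow_pow m n))

theorem h_mul_sq [Finite K] {t u : K} (ht : t ≠ 0) (hu : u ≠ 0) :
    S.h u * S.h (t ^ 2) = S.h (u * t ^ 2) := by
  have h1 := S.h_h ht u
  rw [S.h_comm hgen ht hu, mul_inv_cancel_right, eq_mul_inv_iff_mul_eq] at h1
  rw [h1, mul_comm]

end gen

end St2

/-- in a finite field with a nonsquare there are two nonsquares with sum `1`. -/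
theorem exists_nonsquare_pair {K : Type*} [Field K] [Finite K] (n₀ : K) (hn₀ : ¬ IsSquare n₀) :
    ∃ a c : K, ¬ IsSquare a ∧ ¬ IsSquare c ∧ a + c = 1 := by
  classical
  have := Fintype.ofFinite K
  by_contra hcon
  push Not at hcon
  set N : Finset K := Finset.univ.filter (fun a => ¬ IsSquare a) with hN
  set Q : Finset K := Finset.univ.filter (fun a => IsSquare a ∧ a ≠ 0) with hQ
  have h1 : Q.card ≤ N.card := by
    apply Finset.card_le_card_of_injOn (fun s => n₀ * s)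
    · intro s hs
      simp only [hQ, Finset.coe_filter, Finset.mem_univ, true_and, Set.mem_setOf_eq] at hs
      simp only [hN, Finset.coe_filter, Finset.mem_univ, true_and, Set.mem_setOf_eq]
      obtain ⟨⟨r, rfl⟩, hr⟩ := hs
      rintro ⟨z, hz⟩
      apply hn₀
      have hr0 : r ≠ 0 := by
        rintro rfl
        simp at hr
      refine ⟨z / r, ?_⟩
      field_simp
      linear_combination hz
    · intro s _ s' _ h
      have hn0 : n₀ ≠ 0 := by
        rintro rfl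
        exact hn₀ ⟨0, by simp⟩
      exact mul_left_cancel₀ hn0 h
  have h2 : N.card ≤ (Q.erase 1).card := by
    apply Finset.card_le_card_of_injOn (fun a => 1 - a)
    · intro a ha
      simp only [hN, Finset.coe_filter, Finset.mem_univ, true_and, Set.mem_setOf_eq] at ha
      simp only [hQ, Finset.coe_erase, Finset.coe_filter, Finset.mem_univ, true_and, Set.mem_diff,
        Set.mem_setOf_eq, Set.mem_singleton_iff]
      refine ⟨⟨?_, ?_⟩, ?_⟩
      · by_contra h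
        exact hcon a (1 - a) ha h (by ring)
      · intro h
        apply ha
        have : a = 1 := by linear_combination -h
        rw [this]; exact ⟨1, by simp⟩
      · intro h
        apply ha
        have : a = 0 := by linear_combination -h
        rw [this]; exact ⟨0, by simp⟩
    · intro a _ b _ h
      have h' : 1 - a = 1 - b := h
      linear_combination -h'
  have h3 : (1 : K) ∈ Q := by
    simp only [hQ, Finset.mem_filter, Finset.mem_univ, true_and]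
    exact ⟨⟨1, by simp⟩, one_ne_zero⟩
  have h4 := Finset.card_erase_lt_of_mem h3
  omega

/-- the quotient of two nonsquares of a finite field is a square. -/
theorem isSquare_div_of_not_isSquare {K : Type*} [Field K] [Finite K] {a b : K}
    (ha : ¬ IsSquare a) (hb : ¬ IsSquare b) : IsSquare (a / b) := by
  classical
  have := Fintype.ofFinite K
  have ha0 : a ≠ 0 := by rintro rfl; exact ha ⟨0, by simp⟩
  have hb0 : b ≠ 0 := by rintro rfl; exact hb ⟨0, by simp⟩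
  rw [← quadraticChar_one_iff_isSquare (div_ne_zero ha0 hb0), div_eq_mul_inv, map_mul]
  have h1 := quadraticChar_neg_one_iff_not_isSquare.mpr ha
  have h2 : quadraticChar K b⁻¹ = -1 := by
    rw [quadraticChar_neg_one_iff_not_isSquare]
    rintro ⟨z, hz⟩
    apply hb
    refine ⟨z⁻¹, ?_⟩
    rw [← mul_inv, ← hz, inv_inv]
  rw [h1, h2]
  norm_num

namespace St2

variable {K : Type*} [Field K] [Finite K] {Γ : Type*} [Group Γ] (S : St2 K Γ)
  (hgen : Subgroup.closure (Set.range S.x ∪ Set.range S.y) = ⊤)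

include hgen

/-- Steinberg: over a finite field the relation (C) follows. -/
theorem h_mul {t u : K} (ht : t ≠ 0) (hu : u ≠ 0) : S.h t * S.h u = S.h (t * u) := by
  by_cases hu2 : IsSquare u
  · obtain ⟨s, rfl⟩ := hu2
    have hs : s ≠ 0 := by rintro rfl; simp at hu
    have := S.h_mul_sq hgen hs ht
    rwa [pow_two] at this
  by_cases ht2 : IsSquare t
  · obtain ⟨s, rfl⟩ := ht2
    have hs : s ≠ 0 := by rintro rfl; simp at ht
    have := S.h_mul_sq hgen hs hu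
    rw [pow_two] at this
    rw [S.h_comm hgen ht hu, this, mul_comm]
  obtain ⟨a, c, ha, hc, hac⟩ := exists_nonsquare_pair t ht2
  have ha0 : a ≠ 0 := by rintro rfl; exact ha ⟨0, by simp⟩
  have hc0 : c ≠ 0 := by rintro rfl; exact hc ⟨0, by simp⟩
  have hc' : ¬ IsSquare c⁻¹ := by
    rintro ⟨z, hz⟩
    apply hc
    refine ⟨z⁻¹, ?_⟩
    rw [← mul_inv, ← hz, inv_inv]
  have key := S.h_mul_of_add ha0 hc0 hac
  obtain ⟨s, hs⟩ := isSquare_div_of_not_isSquare ht2 ha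
  obtain ⟨r, hr⟩ := isSquare_div_of_not_isSquare hu2 hc'
  have hs0 : s ≠ 0 := by
    rintro rfl
    rw [mul_zero, div_eq_zero_iff] at hs
    rcases hs with h | h
    · exact ht h
    · exact ha0 h
  have hr0 : r ≠ 0 := by
    rintro rfl
    rw [mul_zero, div_eq_zero_iff] at hr
    rcases hr with h | h
    · exact hu h
    · exact inv_ne_zero hc0 h
  have et : t = a * s ^ 2 := by
    field_simp at hs
    linear_combination hs
  have eu : u = c⁻¹ * r ^ 2 := by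
    have : u = (u / c⁻¹) * c⁻¹ := by field_simp
    rw [this, hr]; ring
  have hs2 : s ^ 2 ≠ 0 := pow_ne_zero 2 hs0
  have hr2 : r ^ 2 ≠ 0 := pow_ne_zero 2 hr0
  have hci : c⁻¹ ≠ 0 := inv_ne_zero hc0
  calc S.h t * S.h u = (S.h a * S.h (s ^ 2)) * (S.h c⁻¹ * S.h (r ^ 2)) := by
        rw [S.h_mul_sq hgen hs0 ha0, S.h_mul_sq hgen hr0 hci, ← et, ← eu]
    _ = (S.h a * S.h c⁻¹) * S.h (s ^ 2) * S.h (r ^ 2) := by
        rw [mul_assoc (S.h a), ← mul_assoc (S.h (s ^ 2)), S.h_comm hgen hs2 hci]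
        simp only [mul_assoc]
    _ = S.h (a / c * s ^ 2 * r ^ 2) := by
        rw [key, S.h_mul_sq hgen hs0 (div_ne_zero ha0 hc0),
          S.h_mul_sq hgen hr0 (mul_ne_zero (div_ne_zero ha0 hc0) hs2)]
    _ = S.h (t * u) := by
        congr 1
        rw [et, eu]
        field_simp

theorem w_one_sq : S.w 1 * S.w 1 = S.h (-1) := by
  have h1 : S.h (-1) * S.h (-1) = 1 := by
    rw [S.h_mul hgen (neg_ne_zero.mpr one_ne_zero) (neg_ne_zero.mpr one_ne_zero)]
    rw [neg_mul_neg, one_mul, S.h_one]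
  have h2 : S.h (-1) = (S.w 1 * S.w 1)⁻¹ := by
    unfold h
    rw [mul_inv_rev, S.w_one_inv]
  have h3 : (S.h (-1))⁻¹ = S.h (-1) := inv_eq_of_mul_eq_one_left h1
  rw [← h3, h2, inv_inv]

/-- the Bruhat normal form -/
def NF (g : Γ) : Prop :=
  (∃ a t, t ≠ 0 ∧ g = S.x a * S.h t) ∨ (∃ a t b, t ≠ 0 ∧ g = S.x a * S.h t * S.w 1 * S.x b)

omit hgen [Finite K] in
theorem nf_one : S.NF 1 := Or.inl ⟨0, 1, one_ne_zero, by rw [S.x_zero, S.h_one, one_mul]⟩

omit hgen [Finite K] in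
theorem nf_x (c : K) {g : Γ} (hg : S.NF g) : S.NF (S.x c * g) := by
  rcases hg with ⟨a, t, ht, rfl⟩ | ⟨a, t, b, ht, rfl⟩
  · exact Or.inl ⟨c + a, t, ht, by rw [← mul_assoc, S.x_add]⟩
  · exact Or.inr ⟨c + a, t, b, ht, by simp only [← mul_assoc, S.x_add]⟩

omit hgen [Finite K] in
theorem h_mul_x {s : K} (hs : s ≠ 0) (a : K) : S.h s * S.x a = S.x (s ^ 2 * a) * S.h s := by
  rw [← S.h_x hs a]; group

omit hgen [Finite K] in
theorem x_mul_h {t : K} (ht : t ≠ 0) (a : K) : S.x a * S.h t = S.h t * S.x (t⁻¹ ^ 2 * a) := by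
  rw [← S.h_inv_x ht a]; group

omit hgen [Finite K] in
theorem y_mul_h {t : K} (ht : t ≠ 0) (a : K) : S.y a * S.h t = S.h t * S.y (t ^ 2 * a) := by
  rw [← S.h_inv_y ht a]; group

omit hgen [Finite K] in
theorem w_mul_h {t : K} (ht : t ≠ 0) : S.w 1 * S.h t = S.h t⁻¹ * S.w 1 := by
  rw [← S.w_h ht]; group

omit hgen [Finite K] in
theorem y_mul_w (v : K) : S.y v * S.w 1 = S.w 1 * S.x (-v) := by
  have := S.w_y (neg_ne_zero.mpr (one_ne_zero (α := K))) v
  rw [S.w_neg_one_inv, ← S.w_one_inv] at this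
  have e : -((-1 : K) ^ 2 * v) = -v := by ring
  rw [e] at this
  rw [← this]; group

omit hgen [Finite K] in
theorem w_mul_y (v : K) : S.w 1 * S.y v = S.x (-v) * S.w 1 := by
  have := S.w_y (one_ne_zero (α := K)) v
  have e : -((1 : K) ^ 2 * v) = -v := by ring
  rw [e] at this
  rw [← this]; group

theorem nf_h {s : K} (hs : s ≠ 0) {g : Γ} (hg : S.NF g) : S.NF (S.h s * g) := by
  rcases hg with ⟨a, t, ht, rfl⟩ | ⟨a, t, b, ht, rfl⟩
  · refine Or.inl ⟨s ^ 2 * a, s * t, mul_ne_zero hs ht, ?_⟩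
    rw [← mul_assoc, S.h_mul_x hs, mul_assoc, S.h_mul hgen hs ht]
  · refine Or.inr ⟨s ^ 2 * a, s * t, b, mul_ne_zero hs ht, ?_⟩
    rw [← S.h_mul hgen hs ht]
    simp only [← mul_assoc]
    rw [S.h_mul_x hs]

theorem w_mul_x {a : K} (ha : a ≠ 0) :
    S.w 1 * S.x a = S.x (-a⁻¹) * S.h (-a⁻¹) * S.y a⁻¹ := by
  have h1 : S.x a = S.y a⁻¹ * S.w a * S.y a⁻¹ := by
    have : S.w a = S.y (-a⁻¹) * S.x a * S.y (-a⁻¹) := by
      rw [S.w_eq_swap ha]
      unfold w
      simp only [swap_x, swap_y, inv_neg, inv_inv, neg_neg]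
    rw [this, ← S.y_inv]
    group
  have h2 : S.w 1 * S.w a = S.h (-a⁻¹) := by
    rw [S.w_eq_h a, ← mul_assoc, S.w_mul_h ha, mul_assoc, S.w_one_sq hgen,
      S.h_mul hgen (inv_ne_zero ha) (neg_ne_zero.mpr one_ne_zero), mul_neg_one]
  conv_lhs => rw [h1]
  rw [← mul_assoc, ← mul_assoc, S.w_mul_y, mul_assoc (S.x (-a⁻¹)), h2]

theorem nf_w {g : Γ} (hg : S.NF g) : S.NF (S.w 1 * g) := by
  rcases hg with ⟨a, t, ht, rfl⟩ | ⟨a, t, b, ht, rfl⟩
  · refine Or.inr ⟨0, t⁻¹, t⁻¹ ^ 2 * a, inv_ne_zero ht, ?_⟩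
    rw [S.x_mul_h ht, ← mul_assoc, S.w_mul_h ht, S.x_zero, one_mul]
  · by_cases ha : a = 0
    · subst ha
      refine Or.inl ⟨(-t⁻¹) ^ 2 * b, -t⁻¹, neg_ne_zero.mpr (inv_ne_zero ht), ?_⟩
      rw [S.x_zero, one_mul, ← S.h_mul_x (neg_ne_zero.mpr (inv_ne_zero ht))]
      rw [← mul_assoc, ← mul_assoc, S.w_mul_h ht, mul_assoc (S.h t⁻¹), S.w_one_sq hgen,
        S.h_mul hgen (inv_ne_zero ht) (neg_ne_zero.mpr one_ne_zero), mul_neg_one]
    · refine Or.inr ⟨-a⁻¹, -a⁻¹ * t, -(t ^ 2 * a⁻¹) + b,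
        mul_ne_zero (neg_ne_zero.mpr (inv_ne_zero ha)) ht, ?_⟩
      rw [← S.h_mul hgen (neg_ne_zero.mpr (inv_ne_zero ha)) ht, ← S.x_add]
      calc S.w 1 * (S.x a * S.h t * S.w 1 * S.x b)
          = (S.w 1 * S.x a) * S.h t * S.w 1 * S.x b := by group
        _ = S.x (-a⁻¹) * S.h (-a⁻¹) * (S.y a⁻¹ * S.h t) * S.w 1 * S.x b := by
            rw [S.w_mul_x hgen ha]; group
        _ = S.x (-a⁻¹) * S.h (-a⁻¹) * S.h t * (S.y (t ^ 2 * a⁻¹) * S.w 1) * S.x b := by
            rw [S.y_mul_h ht]; group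
        _ = S.x (-a⁻¹) * (S.h (-a⁻¹) * S.h t) * S.w 1 * (S.x (-(t ^ 2 * a⁻¹)) * S.x b) := by
            rw [S.y_mul_w]; group

theorem nf_w_inv {g : Γ} (hg : S.NF g) : S.NF ((S.w 1)⁻¹ * g) := by
  have h1 : (S.w 1)⁻¹ = S.h (-1) * S.w 1 := by
    rw [← S.w_one_sq hgen]
    have h2 : S.h (-1) * S.h (-1) = 1 := by
      rw [S.h_mul hgen (neg_ne_zero.mpr one_ne_zero) (neg_ne_zero.mpr one_ne_zero)]
      rw [neg_mul_neg, one_mul, S.h_one]
    rw [← S.w_one_sq hgen] at h2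
    rw [inv_eq_iff_mul_eq_one]
    rw [← h2]; group
  rw [h1, mul_assoc]
  exact S.nf_h hgen (neg_ne_zero.mpr one_ne_zero) (S.nf_w hgen hg)

theorem nf_y (c : K) {g : Γ} (hg : S.NF g) : S.NF (S.y c * g) := by
  have h1 : S.y c = S.w 1 * S.x (-c) * (S.w 1)⁻¹ := by
    rw [S.w_x one_ne_zero]
    congr 1
    simp
  rw [h1, mul_assoc, mul_assoc]
  exact S.nf_w hgen (S.nf_x _ (S.nf_w_inv hgen hg))

theorem nf_all (g : Γ) : S.NF g := by
  have hg : g ∈ Subgroup.closure (Set.range S.x ∪ Set.range S.y) := by rw [hgen]; trivial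
  induction hg using Subgroup.closure_induction_left with
  | one => exact S.nf_one
  | mul_left x hx y _ ih =>
    rcases hx with ⟨c, rfl⟩ | ⟨c, rfl⟩
    · exact S.nf_x c ih
    · exact S.nf_y hgen c ih
  | inv_mul_cancel x hx y _ ih =>
    rcases hx with ⟨c, rfl⟩ | ⟨c, rfl⟩
    · rw [S.x_inv]; exact S.nf_x _ ih
    · rw [S.y_inv]; exact S.nf_y hgen _ ih

end St2

end Cfsg.Agent.Lib.Helper66
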