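import Mathlib
import Cfsg.Agent.Lib.Helper66.St2

/-!
# The rank one Steinberg presentation of `SL₂` over a finite field
-/

set_option autoImplicit false

namespace Cfsg.Agent.Lib.Helper66

open Matrix

namespace St2

variable {K : Type*} [Field K]

def slx (t : K) : SpecialLinearGroup (Fin 2) K := ⟨!![1, t; 0, 1], by simp [Matrix.det_fin_two]⟩

def sly (t : K) : SpecialLinearGroup (Fin 2) K := ⟨!![1, 0; t, 1], by simp [Matrix.det_fin_two]⟩

theorem slx_coe (t : K) : (slx t : Matrix (Fin 2) (Fin 2) K) = !![1, t; 0, 1] := rfl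
theorem sly_coe (t : K) : (sly t : Matrix (Fin 2) (Fin 2) K) = !![1, 0; t, 1] := rfl

omit [Field K] in
theorem mk2_ext {a b c d a' b' c' d' : K} (h1 : a = a') (h2 : b = b') (h3 : c = c') (h4 : d = d') :
    !![a, b; c, d] = !![a', b'; c', d'] := by
  subst h1 h2 h3 h4; rfl

theorem slw_coe {t : K} (ht : t ≠ 0) :
    ((slx t * sly (-t⁻¹) * slx t : SpecialLinearGroup (Fin 2) K) : Matrix (Fin 2) (Fin 2) K) =
      !![0, t; -t⁻¹, 0] := by
  simp only [Matrix.SpecialLinearGroup.coe_mul, slx_coe, sly_coe, Matrix.mul_fin_two]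
  apply mk2_ext <;> field_simp <;> ring

theorem slw'_coe {t : K} (ht : t ≠ 0) :
    ((sly t * slx (-t⁻¹) * sly t : SpecialLinearGroup (Fin 2) K) : Matrix (Fin 2) (Fin 2) K) =
      !![0, -t⁻¹; t, 0] := by
  simp only [Matrix.SpecialLinearGroup.coe_mul, slx_coe, sly_coe, Matrix.mul_fin_two]
  apply mk2_ext <;> field_simp <;> ring

/-- the standard root subgroups of `SL₂` -/
def sl : St2 K (SpecialLinearGroup (Fin 2) K) where
  x := slx
  y := sly
  x_add t u := by
    apply Subtype.ext
    simp only [Matrix.SpecialLinearGroup.coe_mul, slx_coe, Matrix.mul_fin_two]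
    apply mk2_ext <;> ring
  y_add t u := by
    apply Subtype.ext
    simp only [Matrix.SpecialLinearGroup.coe_mul, sly_coe, Matrix.mul_fin_two]
    apply mk2_ext <;> ring
  relx t u ht := by
    rw [mul_inv_eq_iff_eq_mul]
    apply Subtype.ext
    have e1 := slw_coe ht
    simp only [Matrix.SpecialLinearGroup.coe_mul] at e1 ⊢
    rw [e1]
    simp only [slx_coe, sly_coe, Matrix.mul_fin_two]
    apply mk2_ext <;> field_simp <;> ring
  rely t u ht := by
    rw [mul_inv_eq_iff_eq_mul]
    apply Subtype.ext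
    have e1 := slw'_coe ht
    simp only [Matrix.SpecialLinearGroup.coe_mul] at e1 ⊢
    rw [e1]
    simp only [slx_coe, sly_coe, Matrix.mul_fin_two]
    apply mk2_ext <;> field_simp <;> ring

theorem sl_w_coe {t : K} (ht : t ≠ 0) :
    ((sl.w t : SpecialLinearGroup (Fin 2) K) : Matrix (Fin 2) (Fin 2) K) = !![0, t; -t⁻¹, 0] :=
  slw_coe ht

theorem sl_h_coe {t : K} (ht : t ≠ 0) :
    ((sl.h t : SpecialLinearGroup (Fin 2) K) : Matrix (Fin 2) (Fin 2) K) = !![t, 0; 0, t⁻¹] := by
  unfold h
  simp only [Matrix.SpecialLinearGroup.coe_mul, sl_w_coe ht, sl_w_coe (neg_ne_zero.mpr (one_ne_zero (α := K))),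
    Matrix.mul_fin_two]
  apply mk2_ext <;> simp

/-- every element of `SL₂` is a product of elementary matrices -/
theorem sl_surj (M : SpecialLinearGroup (Fin 2) K) :
    (∃ p c r : K, M = slx p * sly c * slx r) ∨ (∃ a t : K, t ≠ 0 ∧ M = slx a * sl.h t) := by
  have hdet : M 0 0 * M 1 1 - M 0 1 * M 1 0 = 1 := by
    have := M.2
    rwa [Matrix.det_fin_two] at this
  have hM : (M : Matrix (Fin 2) (Fin 2) K) = !![M 0 0, M 0 1; M 1 0, M 1 1] :=
    Matrix.eta_fin_two _
  generalize M 0 0 = α at hdet hM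
  generalize M 0 1 = β at hdet hM
  generalize M 1 0 = γ at hdet hM
  generalize M 1 1 = δ at hdet hM
  by_cases hc : γ = 0
  · right
    rw [hc, mul_zero, sub_zero] at hdet
    have h0 : α ≠ 0 := left_ne_zero_of_mul_eq_one hdet
    refine ⟨β * α, α, h0, ?_⟩
    apply Subtype.ext
    simp only [Matrix.SpecialLinearGroup.coe_mul, slx_coe, sl_h_coe h0, Matrix.mul_fin_two]
    rw [hM]
    apply mk2_ext
    · ring
    · field_simp; ring
    · rw [hc]; ring
    · rw [eq_comm, zero_mul, zero_add, one_mul]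
      exact inv_eq_of_mul_eq_one_right hdet
  · left
    refine ⟨(α - 1) / γ, γ, (δ - 1) / γ, ?_⟩
    apply Subtype.ext
    simp only [Matrix.SpecialLinearGroup.coe_mul, slx_coe, sly_coe, Matrix.mul_fin_two]
    rw [hM]
    apply mk2_ext
    · field_simp; ring
    · field_simp
      linear_combination (-1 : K) * hdet
    · ring
    · field_simp; ring

theorem bijective_of_hom [Finite K] {Γ : Type*} [Group Γ] (S : St2 K Γ)
    (hgen : Subgroup.closure (Set.range S.x ∪ Set.range S.y) = ⊤)
    (π : Γ →* SpecialLinearGroup (Fin 2) K) (hx : ∀ t, π (S.x t) = slx t)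
    (hy : ∀ t, π (S.y t) = sly t) : Function.Bijective π := by
  have hw : ∀ t, π (S.w t) = sl.w t := by
    intro t
    unfold w
    rw [map_mul, map_mul, hx, hy]
    rfl
  have hh : ∀ t, π (S.h t) = sl.h t := by
    intro t
    unfold h
    rw [map_mul, hw, hw]
  constructor
  · rw [injective_iff_map_eq_one]
    intro g hg
    rcases S.nf_all hgen g with ⟨a, t, ht, rfl⟩ | ⟨a, t, b, ht, rfl⟩
    · rw [map_mul, hx, hh] at hg
      have h1 := congrArg (fun M : SpecialLinearGroup (Fin 2) K => (M : Matrix (Fin 2) (Fin 2) K)) hg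
      simp only [Matrix.SpecialLinearGroup.coe_mul, slx_coe, sl_h_coe ht, Matrix.mul_fin_two,
        Matrix.SpecialLinearGroup.coe_one] at h1
      have h00 := congrFun (congrFun h1 0) 0
      have h01 := congrFun (congrFun h1 0) 1
      simp at h00 h01
      have ha : a = 0 := by
        rcases h01 with h | h
        · exact h
        · exact absurd h ht
      rw [h00, ha, S.x_zero, S.h_one, one_mul]
    · exfalso
      rw [map_mul, map_mul, map_mul, hx, hx, hh, hw] at hg
      have h1 := congrArg (fun M : SpecialLinearGroup (Fin 2) K => (M : Matrix (Fin 2) (Fin 2) K)) hg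
      simp only [Matrix.SpecialLinearGroup.coe_mul, slx_coe, sl_h_coe ht,
        sl_w_coe (one_ne_zero (α := K)), Matrix.mul_fin_two,
        Matrix.SpecialLinearGroup.coe_one] at h1
      have h10 := congrFun (congrFun h1 1) 0
      simp at h10
      exact ht h10
  · intro M
    rcases sl_surj M with ⟨p, c, r, rfl⟩ | ⟨a, t, -, rfl⟩
    · exact ⟨S.x p * S.y c * S.x r, by rw [map_mul, map_mul, hx, hx, hy]⟩
    · exact ⟨S.x a * S.h t, by rw [map_mul, hx, hh]⟩

end St2

end Cfsg.Agent.Lib.Helper66
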