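import Mathlib
import Cfsg.Agent.Lib.Helper66.AltStemMain
import Cfsg.Agent.Lib.Helper66.AltTriple
import Cfsg.Agent.Lib.Helper66.SchurMain

/-!
# The Schur multiplier of a group with Carmichael's presentation on 4 or 5 generators (`A₆`, `A₇`)
-/

set_option autoImplicit false

namespace Cfsg.Agent.Lib.Helper66.AltStem

open Cfsg.Agent.Lib.Helper66
open scoped commutatorElement

universe u v

section general

variable {C A α : Type*} [Group C] [Group A]

/-- Pull-back central extension attached to a "projective" solution of the relators. -/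
theorem exists_central_ext (R : Set (FreeGroup α)) (φ : PresentedGroup R ≃* A) (N : Subgroup C)
    (hN : N ≤ Subgroup.center C) (y : α → C) (hrel : ∀ r ∈ R, FreeGroup.lift y r ∈ N) :
    ∃ X : Subgroup (C × A), (∀ a : A, ∃ c, (c, a) ∈ X) ∧ (∀ c, (c, (1 : A)) ∈ X ↔ c ∈ N) ∧
      ∀ i, (y i, φ (PresentedGroup.of i)) ∈ X := by
  have hn : N.Normal := normal_of_le_center hN
  have hlift : ∀ w : FreeGroup α, FreeGroup.lift (fun i => (QuotientGroup.mk (y i) : C ⧸ N)) w =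
      QuotientGroup.mk (FreeGroup.lift y w) := by
    intro w
    have : FreeGroup.lift (fun i => (QuotientGroup.mk (y i) : C ⧸ N)) =
        (QuotientGroup.mk' N).comp (FreeGroup.lift y) := by
      ext i
      simp
    rw [this]; rfl
  obtain ⟨ψ, hψ⟩ : ∃ ψ : PresentedGroup R →* C ⧸ N,
      ∀ i, ψ (PresentedGroup.of i) = QuotientGroup.mk (y i) :=
    ⟨PresentedGroup.toGroup (f := fun i => (QuotientGroup.mk (y i) : C ⧸ N)) (by
      intro r hr
      rw [hlift, QuotientGroup.eq_one_iff]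
      exact hrel r hr), fun i => by simp⟩
  refine ⟨((QuotientGroup.mk' N).comp (MonoidHom.fst C A)).eqLocus
    ((ψ.comp φ.symm.toMonoidHom).comp (MonoidHom.snd C A)), ?_, ?_, ?_⟩
  · intro a
    obtain ⟨c, hc⟩ := QuotientGroup.mk_surjective (ψ (φ.symm a))
    exact ⟨c, hc⟩
  · intro c
    change (QuotientGroup.mk c : C ⧸ N) = ψ (φ.symm 1) ↔ c ∈ N
    rw [map_one, map_one, QuotientGroup.eq_one_iff]
  · intro i
    change (QuotientGroup.mk (y i) : C ⧸ N) = ψ (φ.symm (φ (PresentedGroup.of i)))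
    rw [MulEquiv.symm_apply_apply, hψ]

theorem comm_lemma {X : Type*} [Group X] (s v w ω : X) (hω : ω ∈ Subgroup.center X)
    (hv : v ^ 2 = 1) (hw : w ^ 2 = 1) (h1 : (s * v) ^ 2 = 1) (h2 : (s * w) ^ 2 = ω) :
    ω = ⁅v * w, s⁆ := by
  have e1 : v * s * v⁻¹ = s⁻¹ := by rw [conj_of_sq, h1, hv]; simp
  have e2 : w * s * w⁻¹ = s⁻¹ * ω := by rw [conj_of_sq, h2, hw]; simp
  rw [commutatorElement_def]
  calc ω = s * ω * s⁻¹ := (conj_cen hω s).symm
    _ = (v * s * v⁻¹)⁻¹ * (v * ω * v⁻¹) * s⁻¹ := by rw [e1, conj_cen hω v, inv_inv]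
    _ = v * (s⁻¹ * ω) * v⁻¹ * s⁻¹ := by group
    _ = v * (w * s * w⁻¹) * v⁻¹ * s⁻¹ := by rw [e2]
    _ = v * w * s * (v * w)⁻¹ * s⁻¹ := by group

end general

theorem orderOf_dvd_card_schurM (G : Type u) [Group G] [Finite G] {X : Type v} [Group X]
    (ξ : X →* G) (hsurj : Function.Surjective ξ) (hξ : ξ.ker ≤ Subgroup.center X) (w : X)
    (hw1 : w ∈ ξ.ker) (hw2 : w ∈ commutator X) : orderOf w ∣ Nat.card (schurM G) := by
  obtain ⟨f, hf⟩ := exists_surj_schurM G ξ hsurj hξ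
  have hfin : Finite ↥(ξ.ker ⊓ commutator X) := Finite.of_surjective f hf
  have h3 : orderOf (⟨w, hw1, hw2⟩ : ↥(ξ.ker ⊓ commutator X)) = orderOf w := by
    rw [← Subgroup.orderOf_coe]
  rw [← h3]
  exact (orderOf_dvd_natCard _).trans (Subgroup.card_dvd_of_surjective f hf)

theorem CarRel.mono {Γ : Type*} [Group Γ] {m m' : ℕ} (h : m ≤ m') {Y : ℕ → Γ} {W : Subgroup Γ}
    (hY : CarRel m' Y W) : CarRel m Y W :=
  ⟨hY.r0, fun i h1 h2 => hY.r1 i h1 (by omega), fun i h1 => hY.r2 i (by omega),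
    fun i j h1 h2 => hY.r3 i j h1 (by omega)⟩

section triple

open AltTriple

theorem Y_comm' (k : ℕ) : ζ * Y k = Y k * ζ := by
  by_cases h : k < 5
  · exact (Y_comm ⟨k, h⟩).symm
  · obtain ⟨j, rfl⟩ : ∃ j, k = j + 5 := ⟨k - 5, by omega⟩
    change ζ * 1 = 1 * ζ
    simp

/-- the centraliser of `ζ`. -/
abbrev Cz : Subgroup (Equiv.Perm (Fin 63)) := Subgroup.centralizer ({ζ} : Set (Equiv.Perm (Fin 63)))

/-- `ζ` as an element of its centraliser. -/
def ζc : Cz := ⟨ζ, by rw [Subgroup.mem_centralizer_iff]; intro h hh; rw [Set.mem_singleton_iff.mp hh]⟩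

/-- the generators as elements of the centraliser. -/
def Yc (k : ℕ) : Cz :=
  ⟨Y k, by rw [Subgroup.mem_centralizer_iff]; intro h hh; rw [Set.mem_singleton_iff.mp hh]; exact Y_comm' k⟩

theorem ζc_mem_center : ζc ∈ Subgroup.center Cz := by
  rw [Subgroup.mem_center_iff]
  rintro ⟨g, hg⟩
  apply Subtype.ext
  exact ((Subgroup.mem_centralizer_iff.mp hg) ζ rfl).symm

theorem carRel_Yc : CarRel 5 Yc (Subgroup.zpowers ζc) := by
  refine ⟨?_, ?_, ?_, ?_⟩
  · have : Yc 0 ^ 3 = 1 := Subtype.ext Y_r0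
    rw [this]; exact one_mem _
  · intro i h1 h2
    have : Yc i ^ 2 = 1 := Subtype.ext (Y_r1 ⟨i, h2⟩ h1)
    rw [this]; exact one_mem _
  · intro i h
    have : (Yc i * Yc (i + 1)) ^ 3 = 1 := Subtype.ext (Y_r2 ⟨i, by omega⟩)
    rw [this]; exact one_mem _
  · intro i j h1 h2
    have h3 := Y_r3 ⟨i, by omega⟩ ⟨j, h2⟩ h1
    by_cases h : i = 0 ∧ j = 3
    · have : (Yc i * Yc j) ^ 2 = ζc := Subtype.ext (h3.trans (if_pos h))
      rw [this]; exact Subgroup.mem_zpowers _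
    · have : (Yc i * Yc j) ^ 2 = 1 := Subtype.ext (h3.trans (if_neg h))
      rw [this]; exact one_mem _

theorem three_dvd_card_schurM {A : Type u} [Group A] [Finite A] (m : ℕ) (hm : 4 ≤ m) (hm5 : m ≤ 5)
    (φ : PresentedGroup (carRels m) ≃* A) : 3 ∣ Nat.card (schurM A) := by
  have hN : Subgroup.zpowers ζc ≤ Subgroup.center Cz := by
    rw [Subgroup.zpowers_le]; exact ζc_mem_center
  obtain ⟨X, hX1, hX2, hX3⟩ := exists_central_ext (carRels m) φ (Subgroup.zpowers ζc) hN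
    (fun i : Fin m => Yc i.val) (lift_mem_of_carRel (carRel_Yc.mono hm5))
  have hgen := carRel_genSeq (by omega : 1 ≤ m) φ
  have hmem : ∀ k, k < m → (Yc k, genSeq φ k) ∈ X := by
    intro k hk
    have := hX3 ⟨k, hk⟩
    rwa [← genSeq_val φ ⟨k, hk⟩] at this
  have hwmem : (ζc, (1 : A)) ∈ X := (hX2 ζc).mpr (Subgroup.mem_zpowers _)
  obtain ⟨ξ, hξ⟩ : ∃ ξ : X →* A, ∀ x : X, ξ x = x.1.2 :=
    ⟨(MonoidHom.snd Cz A).comp X.subtype, fun _ => rfl⟩
  have hsurj : Function.Surjective ξ := by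
    intro a
    obtain ⟨c, hc⟩ := hX1 a
    exact ⟨⟨(c, a), hc⟩, hξ _⟩
  have hker : ξ.ker ≤ Subgroup.center X := by
    rintro ⟨⟨c, a⟩, hca⟩ hx
    have ha : a = 1 := by
      rw [MonoidHom.mem_ker, hξ] at hx
      exact hx
    subst ha
    have hc : c ∈ Subgroup.center Cz := hN ((hX2 c).mp hca)
    rw [Subgroup.mem_center_iff]
    rintro ⟨⟨g, b⟩, hgb⟩
    apply Subtype.ext
    apply Prod.ext
    · exact Subgroup.mem_center_iff.mp hc g
    · simp
  have hwker : (⟨(ζc, 1), hwmem⟩ : X) ∈ ξ.ker := by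
    rw [MonoidHom.mem_ker, hξ]
  have hcomm : (⟨(ζc, 1), hwmem⟩ : X) = ⁅(⟨_, hmem 2 (by omega)⟩ : X) * ⟨_, hmem 3 (by omega)⟩,
      (⟨_, hmem 0 (by omega)⟩ : X)⁆ := by
    apply comm_lemma _ _ _ _ (hker hwker)
    · apply Subtype.ext
      apply Prod.ext
      · exact Subtype.ext (Y_r1 ⟨2, by omega⟩ (by norm_num))
      · exact hgen.r1 2 (by omega) (by omega)
    · apply Subtype.ext
      apply Prod.ext
      · exact Subtype.ext (Y_r1 ⟨3, by omega⟩ (by norm_num))
      · exact hgen.r1 3 (by omega) (by omega)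
    · apply Subtype.ext
      apply Prod.ext
      · exact Subtype.ext (Y_r3 ⟨0, by omega⟩ ⟨2, by omega⟩ (by norm_num))
      · exact hgen.r3 0 2 (by omega) (by omega)
    · apply Subtype.ext
      apply Prod.ext
      · exact Subtype.ext (Y_r3 ⟨0, by omega⟩ ⟨3, by omega⟩ (by norm_num))
      · exact hgen.r3 0 3 (by omega) (by omega)
  have hwc : (⟨(ζc, 1), hwmem⟩ : X) ∈ commutator X := by
    rw [hcomm, commutator_def]
    exact Subgroup.commutator_mem_commutator (Subgroup.mem_top _) (Subgroup.mem_top _)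
  have ho : orderOf (⟨(ζc, 1), hwmem⟩ : X) = 3 := by
    apply orderOf_eq_prime
    · apply Subtype.ext
      apply Prod.ext
      · exact Subtype.ext ζ_pow_three
      · simp
    · intro h
      have h1 : ζc = 1 := congrArg (fun x : X => x.1.1) h
      exact ζ_ne_one (congrArg Subtype.val h1)
  rw [← ho]
  exact orderOf_dvd_card_schurM A ξ hsurj hker _ hwker hwc

end triple

end Cfsg.Agent.Lib.Helper66.AltStem
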