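import Mathlib
import Cfsg.Prelude.Def_KGroupFacts

set_option autoImplicit false

namespace Cfsg.Agent.Lib.Helper66

open scoped commutatorElement

universe u v w

/-- The central extension of a group `Q` by an abelian group `A` defined by a bimultiplicative cocycle. -/
structure BilinExt {Q : Type u} {A : Type v} [Group Q] [CommGroup A] (f : Q →* Q →* A) : Type (max u v) where
  /-- central coordinate -/
  fst : A
  /-- quotient coordinate -/
  snd : Q

namespace BilinExt

variable {Q : Type u} {A : Type v} [Group Q] [CommGroup A] (f : Q →* Q →* A)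

@[ext] theorem ext' {f : Q →* Q →* A} {x y : BilinExt f} (h1 : x.fst = y.fst) (h2 : x.snd = y.snd) : x = y := by
  cases x; cases y; simp_all

instance instMulBilinExt : Mul (BilinExt f) := ⟨fun x y => ⟨x.fst * y.fst * f x.snd y.snd, x.snd * y.snd⟩⟩
instance instOneBilinExt : One (BilinExt f) := ⟨⟨1, 1⟩⟩
instance instInvBilinExt : Inv (BilinExt f) := ⟨fun x => ⟨x.fst⁻¹ * f x.snd x.snd, x.snd⁻¹⟩⟩

@[simp] theorem mul_fst (x y : BilinExt f) : (x * y).fst = x.fst * y.fst * f x.snd y.snd := rfl
@[simp] theorem mul_snd (x y : BilinExt f) : (x * y).snd = x.snd * y.snd := rfl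
@[simp] theorem one_fst : (1 : BilinExt f).fst = 1 := rfl
@[simp] theorem one_snd : (1 : BilinExt f).snd = 1 := rfl
@[simp] theorem inv_fst (x : BilinExt f) : (x⁻¹).fst = x.fst⁻¹ * f x.snd x.snd := rfl
@[simp] theorem inv_snd (x : BilinExt f) : (x⁻¹).snd = x.snd⁻¹ := rfl

instance instGroupBilinExt : Group (BilinExt f) :=
  Group.ofLeftAxioms
    (by
      intro x y z
      ext
      · simp only [mul_fst, mul_snd, map_mul, MonoidHom.mul_apply]
        simp only [mul_assoc, mul_comm, mul_left_comm]
      · simp [mul_assoc])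
    (by intro x; ext <;> simp)
    (by intro x; ext <;> simp)

/-- the projection to the quotient -/
def proj : BilinExt f →* Q where
  toFun x := x.snd
  map_one' := rfl
  map_mul' _ _ := rfl

@[simp] theorem proj_apply (x : BilinExt f) : proj f x = x.snd := rfl

theorem proj_surjective : Function.Surjective (proj f) := fun q => ⟨⟨1, q⟩, rfl⟩

theorem mem_ker_proj {x : BilinExt f} : x ∈ (proj f).ker ↔ x.snd = 1 := Iff.rfl

theorem ker_proj_le_center : (proj f).ker ≤ Subgroup.center (BilinExt f) := by
  intro x hx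
  rw [mem_ker_proj] at hx
  rw [Subgroup.mem_center_iff]
  intro g
  ext
  · simp [hx, mul_comm]
  · simp [hx]

/-- the kernel of the projection is `A` -/
def kerEquiv : (proj f).ker ≃* A where
  toFun x := x.1.fst
  invFun a := ⟨⟨a, 1⟩, rfl⟩
  left_inv := by
    rintro ⟨x, hx⟩
    rw [mem_ker_proj] at hx
    ext
    · rfl
    · exact hx.symm
  right_inv a := rfl
  map_mul' := by
    rintro ⟨x, hx⟩ ⟨y, hy⟩
    rw [mem_ker_proj] at hx hy
    simp [hx]

theorem commutatorElement_fst (x y : BilinExt f) :
    (⁅x, y⁆).fst = f x.snd y.snd * (f y.snd x.snd)⁻¹ := by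
  have h : ⁅x, y⁆ * (y * x) = x * y := by
    rw [commutatorElement_def]; group
  have h1 := congrArg BilinExt.fst h
  have h2 : (⁅x, y⁆).snd = ⁅x.snd, y.snd⁆ := by
    rw [commutatorElement_def, commutatorElement_def]; simp
  simp only [mul_fst, mul_snd, h2] at h1
  have h3 : f ⁅x.snd, y.snd⁆ = 1 := by
    rw [commutatorElement_def]
    simp [mul_comm]
  rw [h3] at h1
  simp only [MonoidHom.one_apply, mul_one] at h1
  rw [eq_mul_inv_iff_mul_eq]
  have h4 : (⁅x, y⁆).fst * (f y.snd) x.snd * (y.fst * x.fst) = (f x.snd) y.snd * (y.fst * x.fst) := by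
    calc (⁅x, y⁆).fst * (f y.snd) x.snd * (y.fst * x.fst) 
        = (⁅x, y⁆).fst * (y.fst * x.fst * (f y.snd) x.snd) := by
          simp only [mul_assoc, mul_comm, mul_left_comm]
      _ = x.fst * y.fst * (f x.snd) y.snd := h1
      _ = _ := by simp only [mul_assoc, mul_comm, mul_left_comm]
  exact mul_right_cancel h4

theorem commutatorElement_snd (x y : BilinExt f) : (⁅x, y⁆).snd = ⁅x.snd, y.snd⁆ := by
  rw [commutatorElement_def, commutatorElement_def]; simp

/-- underlying equivalence with the product -/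
def equivProd : BilinExt f ≃ A × Q where
  toFun x := (x.fst, x.snd)
  invFun p := ⟨p.1, p.2⟩
  left_inv _ := rfl
  right_inv _ := rfl

instance instFiniteBilinExt [Finite A] [Finite Q] : Finite (BilinExt f) :=
  Finite.of_equiv _ (equivProd f).symm

end BilinExt

end Cfsg.Agent.Lib.Helper66
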