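import Mathlib
import Cfsg.Prelude.Def_KGroupFacts
import Cfsg.Agent.Lib.Helper66.SchurMain
import Cfsg.Agent.Lib.Helper66.FibreProd

set_option autoImplicit false

namespace Cfsg.Agent.Lib.Helper66

open scoped commutatorElement

universe u v w

theorem exists_addHom_zmod_ne_zero_aux {V : Type u} [AddCommGroup V] (p : ℕ) [Fact p.Prime]
    [Module (ZMod p) V] {v₀ : V} (hv₀ : v₀ ≠ 0) : ∃ φ : V →+ ZMod p, φ v₀ ≠ 0 := by
  obtain ⟨φ, hφ⟩ : ∃ φ : V →ₗ[ZMod p] ZMod p, φ v₀ ≠ 0 := by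
    by_contra hcon
    push Not at hcon
    exact hv₀ ((Module.forall_dual_apply_eq_zero_iff (ZMod p) _).mp hcon)
  exact ⟨φ.toAddMonoidHom, hφ⟩

theorem exists_addHom_zmod_ne_zero {V : Type u} [AddCommGroup V] (p : ℕ) [Fact p.Prime]
    (hV : ∀ v : V, p • v = 0) {v₀ : V} (hv₀ : v₀ ≠ 0) : ∃ φ : V →+ ZMod p, φ v₀ ≠ 0 :=
  @exists_addHom_zmod_ne_zero_aux V _ p _ (AddCommGroup.zmodModule hV) _ hv₀

/-- a character of order `p` separating an element from a subgroup containing all `p`-th powers -/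
theorem exists_char_of_notMem {R : Type u} [Group R] (hcomm : ∀ a b : R, a * b = b * a)
    (p : ℕ) [Fact p.Prime] (N : Subgroup R) (hN : ∀ t : R, t ^ p ∈ N) {r : R} (hr : r ∉ N) :
    ∃ ψ : R →* Multiplicative (ZMod p), (∀ n ∈ N, ψ n = 1) ∧ ψ r ≠ 1 := by
  let _ : CommGroup R := { ‹Group R› with mul_comm := hcomm }
  have hV : ∀ v : Additive (R ⧸ N), p • v = 0 := by
    intro v
    induction v using Additive.rec with
    | ofMul v =>
    induction v using QuotientGroup.induction_on with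
    | H t =>
      rw [← ofMul_pow, ← QuotientGroup.mk_pow, (QuotientGroup.eq_one_iff _).mpr (hN t)]
      rfl
  have hv0 : (Additive.ofMul (QuotientGroup.mk r : R ⧸ N)) ≠ 0 := by
    intro h
    exact hr ((QuotientGroup.eq_one_iff r).mp h)
  obtain ⟨φ, hφ⟩ := exists_addHom_zmod_ne_zero p hV hv0
  refine ⟨(AddMonoidHom.toMultiplicativeRight φ).comp (QuotientGroup.mk' N), ?_, ?_⟩
  · intro n hn
    change Multiplicative.ofAdd (φ (Additive.ofMul (QuotientGroup.mk n : R ⧸ N))) = 1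
    rw [(QuotientGroup.eq_one_iff n).mpr hn]
    change Multiplicative.ofAdd (φ 0) = 1
    rw [map_zero]; rfl
  · intro h
    exact hφ h

/-- in `Multiplicative (ZMod p)` every nontrivial element generates -/
theorem exists_pow_eq_of_ne_one (p : ℕ) [Fact p.Prime] {a : Multiplicative (ZMod p)} (ha : a ≠ 1)
    (b : Multiplicative (ZMod p)) : ∃ k : ℕ, a ^ k = b := by
  have hcard : Nat.card (Multiplicative (ZMod p)) = p := by
    rw [Nat.card_eq_fintype_card, Fintype.card_multiplicative, ZMod.card]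
  have := mem_powers_of_prime_card (G := Multiplicative (ZMod p)) hcard ha (g' := b)
  exact this

/-- two characters of `R` agreeing on `M`, nontrivial on `M`, differing at `r₀`. -/
theorem exists_two_chars {R : Type u} [Group R] (hcomm : ∀ a b : R, a * b = b * a)
    (p : ℕ) [Fact p.Prime] (M : Subgroup R) {r₀ m₁ : R}
    (h1 : ∀ t : R, m₁ ≠ t ^ p) (h0 : ∀ m ∈ M, ∀ t : R, r₀ ≠ m * t ^ p) :
    ∃ χ₁ χ₂ : R →* Multiplicative (ZMod p), (∀ m ∈ M, χ₁ m = χ₂ m) ∧ χ₁ m₁ ≠ 1 ∧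
      χ₁ r₀ ≠ χ₂ r₀ := by
  let _ : CommGroup R := { ‹Group R› with mul_comm := hcomm }
  let Np : Subgroup R := (powMonoidHom p : R →* R).range
  obtain ⟨χ₁, -, hχ₁⟩ := exists_char_of_notMem hcomm p Np (fun t => ⟨t, rfl⟩) (r := m₁) (by
    rintro ⟨t, ht⟩
    exact h1 t ht.symm)
  obtain ⟨ψ, hψ1, hψ2⟩ := exists_char_of_notMem hcomm p (M ⊔ Np)
    (fun t => Subgroup.mem_sup_right ⟨t, rfl⟩) (r := r₀) (by
    intro h
    obtain ⟨m, hm, n, ⟨t, rfl⟩, h2⟩ := Subgroup.mem_sup.mp h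
    exact h0 m hm t h2.symm)
  refine ⟨χ₁, χ₁ * ψ, ?_, hχ₁, ?_⟩
  · intro m hm
    rw [MonoidHom.mul_apply, hψ1 m (Subgroup.mem_sup_left hm), mul_one]
  · intro h
    rw [MonoidHom.mul_apply] at h
    exact hψ2 (by simpa using h.symm)

theorem freeAb_pow_injective (Q : Type u) {n : ℕ} (hn : n ≠ 0)
    {a b : Multiplicative (FreeAbelianGroup Q)} (h : a ^ n = b ^ n) : a = b := by
  have h1 : n • (FreeAbelianGroup.equivFinsupp Q (Multiplicative.toAdd a)) =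
      n • (FreeAbelianGroup.equivFinsupp Q (Multiplicative.toAdd b)) := by
    rw [← map_nsmul (FreeAbelianGroup.equivFinsupp Q), ← map_nsmul (FreeAbelianGroup.equivFinsupp Q)]
    exact congrArg _ (congrArg Multiplicative.toAdd h)
  have h2 := IsAddTorsionFree.nsmul_right_injective hn h1
  exact Multiplicative.toAdd.injective ((FreeAbelianGroup.equivFinsupp Q).injective h2)

/-- consequence of an isomorphism over `Q` between two quotients of a central extension -/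
theorem iso_over_consequence {E : Type w} {Q : Type u} [Group E] [Group Q] (ε : E →* Q)
    (S₁ S₂ : Subgroup E) [S₁.Normal] [S₂.Normal]
    (σ₁ : E ⧸ S₁ →* Q) (σ₂ : E ⧸ S₂ →* Q)
    (hσ₁ : ∀ y : E, σ₁ (QuotientGroup.mk y) = ε y) (hσ₂ : ∀ y : E, σ₂ (QuotientGroup.mk y) = ε y)
    (h₁ : Cfsg.IsStemExtension σ₁) (h₂ : Cfsg.IsStemExtension σ₂)
    (e : E ⧸ S₁ ≃* E ⧸ S₂) (he : σ₂.comp e.toMonoidHom = σ₁)
    (x c : E) (hc : c ∈ commutator E) (p : ℕ) (hr : x ^ p * c⁻¹ ∈ ε.ker) :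
    ∃ m ∈ ε.ker ⊓ commutator E, ∃ s₁ ∈ S₁, ∃ y ∈ ε.ker, ∃ s₂ ∈ S₂,
      x ^ p * c⁻¹ = m * s₁ ∧ x ^ p * c⁻¹ * y ^ p = m * s₂ := by
  have he' : ∀ g : E ⧸ S₁, σ₂ (e g) = σ₁ g := fun g => DFunLike.congr_fun he g
  let f : E →* E ⧸ S₂ := e.toMonoidHom.comp (QuotientGroup.mk' S₁)
  let g : E →* E ⧸ S₂ := QuotientGroup.mk' S₂
  have hfg : ∀ a : E, σ₂ (f a) = σ₂ (g a) := by
    intro a
    change σ₂ (e (QuotientGroup.mk a)) = σ₂ (QuotientGroup.mk a)
    rw [he', hσ₁, hσ₂]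
  have hagree : ∀ d ∈ commutator E, f d = g d := by
    intro d hd
    rw [commutator_eq_closure] at hd
    refine MonoidHom.eqOn_closure (f := f) (g := g) ?_ hd
    rintro _ ⟨a, b, rfl⟩
    rw [map_commutatorElement, map_commutatorElement]
    exact commutatorElement_eq_of_central σ₂ h₂.2.1 (hfg a) (hfg b)
  -- the central defect at x
  obtain ⟨y, hy⟩ := QuotientGroup.mk_surjective (s := S₂) ((g x)⁻¹ * f x)
  have hyk : y ∈ ε.ker := by
    rw [MonoidHom.mem_ker, ← hσ₂, hy, map_mul, map_inv, hfg, inv_mul_cancel]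
  have hyc : (QuotientGroup.mk y : E ⧸ S₂) ∈ Subgroup.center (E ⧸ S₂) := by
    apply h₂.2.1
    rw [MonoidHom.mem_ker, hσ₂]; exact hyk
  have hfx : f x = g x * QuotientGroup.mk y := by rw [hy, mul_inv_cancel_left]
  have hcomm : ∀ t : E ⧸ S₂, Commute t (QuotientGroup.mk y) := fun t =>
    (Subgroup.mem_center_iff.mp hyc) t
  have hfr : f (x ^ p * c⁻¹) = g (x ^ p * c⁻¹ * y ^ p) := by
    rw [map_mul, map_pow, map_inv, hagree c hc, hfx, (hcomm (g x)).mul_pow, map_mul, map_mul,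
      map_pow, map_inv, map_pow, mul_assoc, mul_assoc]
    congr 1
    exact (((hcomm ((g c)⁻¹)).pow_right p).eq).symm
  -- r₀ modulo S₁
  have h3 : (QuotientGroup.mk (x ^ p * c⁻¹) : E ⧸ S₁) ∈ commutator (E ⧸ S₁) := by
    apply h₁.2.2
    rw [MonoidHom.mem_ker, hσ₁]; exact hr
  rw [← map_commutator_eq_of_surjective (QuotientGroup.mk' S₁) (QuotientGroup.mk'_surjective S₁)]
    at h3
  obtain ⟨m, hm, hmr⟩ := h3
  have hmr' : (QuotientGroup.mk m : E ⧸ S₁) = QuotientGroup.mk (x ^ p * c⁻¹) := hmr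
  have hmk : m ∈ ε.ker := by
    rw [MonoidHom.mem_ker, ← hσ₁, hmr', hσ₁]; exact hr
  refine ⟨m, ⟨hmk, hm⟩, m⁻¹ * (x ^ p * c⁻¹), QuotientGroup.eq.mp hmr', y, hyk,
    m⁻¹ * (x ^ p * c⁻¹ * y ^ p), ?_, by rw [mul_inv_cancel_left], by rw [mul_inv_cancel_left]⟩
  apply QuotientGroup.eq.mp
  have h4 : f m = f (x ^ p * c⁻¹) := congrArg e hmr'
  rw [hagree m hm, hfr] at h4
  exact h4

theorem zmod_pow_eq_one (p : ℕ) [Fact p.Prime] (a : Multiplicative (ZMod p)) : a ^ p = 1 := by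
  have hcard : Nat.card (Multiplicative (ZMod p)) = p := by
    rw [Nat.card_eq_fintype_card, Fintype.card_multiplicative, ZMod.card]
  have := pow_card_eq_one' (x := a)
  rwa [hcard] at this

theorem ker_char_sup_eq {E : Type u} [Group E] (R M : Subgroup E) (hMR : M ≤ R) (p : ℕ)
    [Fact p.Prime] (χ : R →* Multiplicative (ZMod p)) {m₁ : R} (hm₁ : (m₁ : E) ∈ M)
    (hχ : χ m₁ ≠ 1) : (χ.ker).map R.subtype ⊔ M = R := by
  apply le_antisymm (sup_le (Subgroup.map_subtype_le _) hMR)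
  intro r hr
  obtain ⟨k, hk⟩ := exists_pow_eq_of_ne_one p hχ (χ ⟨r, hr⟩)
  have h1 : (⟨r, hr⟩ : R) * (m₁ ^ k)⁻¹ ∈ χ.ker := by
    rw [MonoidHom.mem_ker, map_mul, map_inv, map_pow, hk, mul_inv_cancel]
  have h2 : r = ((⟨r, hr⟩ : R) * (m₁ ^ k)⁻¹ : R) * (m₁ : E) ^ k := by
    simp
  rw [h2]
  exact Subgroup.mul_mem _ (Subgroup.mem_sup_left ⟨_, h1, rfl⟩)
    (Subgroup.mem_sup_right (M.pow_mem hm₁ k))

/-- If a prime divides both `|Q/Q'|` and `|M(Q)|`, there are two Schur covers of `Q` which are not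
isomorphic over `Q`. -/
theorem exists_nonisomorphic_covers (Q : Type u) [Group Q] [Finite Q] (p : ℕ) [hp : Fact p.Prime]
    (hpQ : p ∣ Nat.card (Abelianization Q)) (hpM : p ∣ Nat.card (schurM Q)) :
    ∃ (Γ₁ Γ₂ : Type u) (_ : Group Γ₁) (_ : Finite Γ₁) (_ : Group Γ₂) (_ : Finite Γ₂)
      (σ₁ : Γ₁ →* Q) (σ₂ : Γ₂ →* Q), Cfsg.IsStemExtension σ₁ ∧ Cfsg.IsStemExtension σ₂ ∧
      Nonempty (σ₁.ker ≃* schurM Q) ∧ Nonempty (σ₂.ker ≃* schurM Q) ∧
      ¬ ∃ e : Γ₁ ≃* Γ₂, σ₂.comp e.toMonoidHom = σ₁ := by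
  have hp0 : p ≠ 0 := hp.out.ne_zero
  -- Step 1
  obtain ⟨a, ha⟩ := exists_prime_orderOf_dvd_card' p hpQ
  obtain ⟨q, rfl⟩ : ∃ q : Q, Abelianization.of q = a := QuotientGroup.mk_surjective a
  obtain ⟨x, rfl⟩ := fcProj_surjective Q q
  have hx1 : fcProj Q x ∉ commutator Q := by
    intro h
    rw [← Abelianization.ker_of, MonoidHom.mem_ker] at h
    rw [h, orderOf_one] at ha
    exact hp.out.one_lt.ne ha
  have hx2 : fcProj Q x ^ p ∈ commutator Q := by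
    rw [← Abelianization.ker_of, MonoidHom.mem_ker, map_pow, ← ha, pow_orderOf_eq_one]
  rw [← map_commutator_eq_of_surjective (fcProj Q) (fcProj_surjective Q)] at hx2
  obtain ⟨c, hc, hcx⟩ := hx2
  have hr : x ^ p * c⁻¹ ∈ (fcProj Q).ker := by
    rw [MonoidHom.mem_ker, map_mul, map_inv, hcx, map_pow, mul_inv_cancel]
  have tf : ∀ t : FreeCentral Q, t ^ p ∈ commutator (FreeCentral Q) →
      t ∈ commutator (FreeCentral Q) := by
    intro t ht
    rw [← ker_abE, MonoidHom.mem_ker] at ht ⊢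
    apply freeAb_pow_injective Q hp0
    rw [← map_pow, ht, one_pow]
  have fa : ∀ m ∈ schurM Q, ∀ t ∈ (fcProj Q).ker, x ^ p * c⁻¹ ≠ m * t ^ p := by
    intro m hm t ht h
    have h1 : abE Q x ^ p = abE Q t ^ p := by
      have h2 := congrArg (abE Q) h
      have hc1 : abE Q c = 1 := by
        rw [← MonoidHom.mem_ker, ker_abE]; exact hc
      have hm1 : abE Q m = 1 := by
        rw [← MonoidHom.mem_ker, ker_abE]; exact hm.2
      rw [map_mul, map_mul, map_inv, hc1, hm1, inv_one, mul_one, one_mul, map_pow, map_pow] at h2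
      exact h2
    have h3 := freeAb_pow_injective Q hp0 h1
    have h4 : x * t⁻¹ ∈ commutator (FreeCentral Q) := by
      rw [← ker_abE, MonoidHom.mem_ker, map_mul, map_inv, h3, mul_inv_cancel]
    apply hx1
    have h5 : fcProj Q (x * t⁻¹) ∈ commutator Q :=
      map_commutator_le (fcProj Q) ⟨_, h4, rfl⟩
    rwa [map_mul, map_inv, MonoidHom.mem_ker.mp ht, inv_one, mul_one] at h5
  have fb : ∃ m₁ ∈ schurM Q, ∀ t ∈ (fcProj Q).ker, m₁ ≠ t ^ p := by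
    by_contra hcon
    push Not at hcon
    have hsurj : Function.Surjective (powMonoidHom p : schurM Q →* schurM Q) := by
      rintro ⟨m, hm⟩
      obtain ⟨t, ht, hmt⟩ := hcon m hm
      have ht' : t ∈ commutator (FreeCentral Q) := tf t (by rw [← hmt]; exact hm.2)
      exact ⟨⟨t, ht, ht'⟩, Subtype.ext hmt.symm⟩
    have hinj := Finite.injective_iff_surjective.mpr hsurj
    obtain ⟨g, hg⟩ := exists_prime_orderOf_dvd_card' p hpM
    have h1 : g = 1 := by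
      apply hinj
      rw [powMonoidHom_apply, powMonoidHom_apply, one_pow, ← hg, pow_orderOf_eq_one]
    rw [h1, orderOf_one] at hg
    exact hp.out.one_lt.ne hg
  obtain ⟨m₁, hm₁, hm₁p⟩ := fb
  have hcommR : ∀ a b : (fcProj Q).ker, a * b = b * a := by
    intro a b
    apply Subtype.ext
    exact (Subgroup.mem_center_iff.mp (ker_fcProj_le_center Q b.2)) a
  obtain ⟨χ₁, χ₂, hχM, hχ1, hχr⟩ := exists_two_chars hcommR p
    ((schurM Q).subgroupOf (fcProj Q).ker) (r₀ := ⟨x ^ p * c⁻¹, hr⟩) (m₁ := ⟨m₁, hm₁.1⟩)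
    (fun t h => hm₁p t t.2 (congrArg Subtype.val h))
    (fun m hm t h => fa m hm t t.2 (congrArg Subtype.val h))
  have hχ2 : χ₂ ⟨m₁, hm₁.1⟩ ≠ 1 := by
    rw [← hχM _ (Subgroup.mem_subgroupOf.mpr hm₁)]; exact hχ1
  have hMR : schurM Q ≤ (fcProj Q).ker := inf_le_left
  obtain ⟨S₁, hS₁n, hS₁T, hfin₁, σ₁, hσ₁, hst₁, hk₁⟩ := exists_cover Q
    ((χ₁.ker).map (fcProj Q).ker.subtype) (Subgroup.map_subtype_le _)
    (ker_char_sup_eq _ _ hMR p χ₁ (m₁ := ⟨m₁, hm₁.1⟩) hm₁ hχ1)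
  obtain ⟨S₂, hS₂n, hS₂T, hfin₂, σ₂, hσ₂, hst₂, hk₂⟩ := exists_cover Q
    ((χ₂.ker).map (fcProj Q).ker.subtype) (Subgroup.map_subtype_le _)
    (ker_char_sup_eq _ _ hMR p χ₂ (m₁ := ⟨m₁, hm₁.1⟩) hm₁ hχ2)
  refine ⟨FreeCentral Q ⧸ S₁, FreeCentral Q ⧸ S₂, inferInstance, hfin₁, inferInstance, hfin₂,
    σ₁, σ₂, hst₁, hst₂, hk₁, hk₂, ?_⟩
  rintro ⟨e, he⟩
  obtain ⟨m, hm, s₁, hs₁, y, hy, s₂, hs₂, e1, e2⟩ := iso_over_consequence (fcProj Q) S₁ S₂ σ₁ σ₂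
    hσ₁ hσ₂ hst₁ hst₂ e he x c hc p hr
  obtain ⟨s₁', hs₁', rfl⟩ := hS₁T hs₁
  obtain ⟨s₂', hs₂', rfl⟩ := hS₂T hs₂
  apply hχr
  have E1 : (⟨x ^ p * c⁻¹, hr⟩ : (fcProj Q).ker) = ⟨m, hm.1⟩ * s₁' := Subtype.ext e1
  have E2 : (⟨x ^ p * c⁻¹, hr⟩ : (fcProj Q).ker) * ⟨y, hy⟩ ^ p = ⟨m, hm.1⟩ * s₂' := Subtype.ext e2
  have F1 := congrArg χ₁ E1
  have F2 := congrArg χ₂ E2
  rw [map_mul, MonoidHom.mem_ker.mp hs₁', mul_one] at F1
  rw [map_mul, map_mul, map_pow, zmod_pow_eq_one, MonoidHom.mem_ker.mp hs₂', mul_one, mul_one] at F2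
  rw [F1, F2]
  exact hχM _ (Subgroup.mem_subgroupOf.mpr hm)

end Cfsg.Agent.Lib.Helper66
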