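import Cfsg.Agent.Lib.Helper66.TCE
import Cfsg.Agent.Lib.Helper66.SchurMain
import Cfsg.Agent.Lib.Helper66.StemLemmas

/-!
# Glue between Todd–Coxeter certificates and central extensions
-/

set_option autoImplicit false

namespace Cfsg.Agent.Lib.Helper66.TCE

open scoped commutatorElement

section basic

variable {Γ Δ : Type*} [Group Γ] [Group Δ]

theorem L_map (π : Γ →* Δ) (g : ℕ → Γ) (a : ℕ) : π (L g a) = L (fun i => π (g i)) a := by
  unfold L; split_ifs <;> simp

theorem ev_map (π : Γ →* Δ) (g : ℕ → Γ) (w : List ℕ) : π (ev g w) = ev (fun i => π (g i)) w := by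
  induction w with
  | nil => simp
  | cons a w ih => rw [ev_cons, ev_cons, map_mul, ih, L_map]

theorem L_mem (S : Subgroup Γ) (g : ℕ → Γ) {a : ℕ} (h : g (a / 2) ∈ S) : L g a ∈ S := by
  unfold L; split_ifs
  · exact h
  · exact S.inv_mem h

theorem ev_mem (S : Subgroup Γ) (g : ℕ → Γ) {w : List ℕ} (h : ∀ a ∈ w, g (a / 2) ∈ S) :
    ev g w ∈ S := by
  induction w with
  | nil => simp [S.one_mem]
  | cons a w ih =>
    rw [ev_cons]
    exact S.mul_mem (L_mem S g (h a (by simp))) (ih fun b hb => h b (by simp [hb]))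

theorem L_congr {g g' : ℕ → Γ} {a : ℕ} (h : g (a / 2) = g' (a / 2)) : L g a = L g' a := by
  unfold L; rw [h]

theorem ev_congr {g g' : ℕ → Γ} {w : List ℕ} (h : ∀ a ∈ w, g (a / 2) = g' (a / 2)) :
    ev g w = ev g' w := by
  induction w with
  | nil => simp
  | cons a w ih =>
    rw [ev_cons, ev_cons, L_congr (h a (by simp)), ih fun b hb => h b (by simp [hb])]

/-- the inverse word -/
def invW (w : List ℕ) : List ℕ := (w.map flipL).reverse

theorem ev_invW (g : ℕ → Γ) (w : List ℕ) : ev g (invW w) = (ev g w)⁻¹ := by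
  induction w with
  | nil => simp [invW]
  | cons a w ih =>
    have : invW (a :: w) = invW w ++ [flipL a] := by simp [invW]
    rw [this, ev_append, ih, ev_cons, ev_cons, ev_nil, L_xor]
    simp

/-- exponent sum of the generator `t` -/
def es (t : ℕ) : List ℕ → ℤ
  | [] => 0
  | a :: w => (if a / 2 = t then (if a % 2 = 0 then 1 else -1) else 0) + es t w

theorem ev_scale (g : ℕ → Γ) (t : ℕ) {c : Γ} (hc : c ∈ Subgroup.center Γ) (w : List ℕ) :
    ev (Function.update g t (g t * c)) w = ev g w * c ^ es t w := by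
  have hcomm : ∀ x : Γ, c * x = x * c := fun x => (Subgroup.mem_center_iff.mp hc x).symm
  have hcz : ∀ (n : ℤ) (x : Γ), c ^ n * x = x * c ^ n := fun n x =>
    ((Subgroup.mem_center_iff.mp (Subgroup.zpow_mem _ hc n)) x).symm
  induction w with
  | nil => simp [es]
  | cons a w ih =>
    rw [ev_cons, ev_cons, ih, es]
    by_cases h : a / 2 = t
    · have hL : L (Function.update g t (g t * c)) a = L g a * c ^ (if a % 2 = 0 then (1 : ℤ) else -1) := by
        unfold L
        rw [h]
        by_cases h2 : a % 2 = 0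
        · simp [h2]
        · simp only [h2, if_false, Function.update_self, mul_inv_rev, zpow_neg, zpow_one]
          exact hcz (-1) _ |>.trans (by simp) |> fun e => by simpa using e
      rw [hL, if_pos h, zpow_add, mul_assoc, mul_assoc, ← mul_assoc (c ^ _) (ev g w), hcz,
        mul_assoc]
    · have hL : L (Function.update g t (g t * c)) a = L g a := by
        apply L_congr
        rw [Function.update_of_ne h]
      rw [hL, if_neg h, zero_add, mul_assoc]

theorem ev_map_flipL_comm {B : Type*} [CommGroup B] (a : ℕ → B) (v : List ℕ) :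
    ev a (v.map flipL) = (ev a v)⁻¹ := by
  induction v with
  | nil => simp
  | cons x v ih => rw [List.map_cons, ev_cons, ev_cons, ih, L_xor, mul_inv]

theorem ev_comm_perm {B : Type*} [CommGroup B] (a : ℕ → B) {w v : List ℕ}
    (h : w.Perm (v ++ v.map flipL)) : ev a w = 1 := by
  have h1 : ev a w = ev a (v ++ v.map flipL) := (h.map (L a)).prod_eq
  rw [h1, ev_append, ev_map_flipL_comm, mul_inv_cancel]

theorem ev_mem_commutator_of_perm (g : ℕ → Γ) {w v : List ℕ} (h : w.Perm (v ++ v.map flipL)) :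
    ev g w ∈ commutator Γ := by
  have h1 : (Abelianization.of (ev g w) : Abelianization Γ) = 1 := by
    rw [ev_map]; exact ev_comm_perm _ h
  exact (QuotientGroup.eq_one_iff _).mp h1

end basic

section classifier

def isTriv : List ℕ → Bool
  | [a, b] => Nat.beq b (flipL a)
  | _ => false

def isComm (lo : ℕ) : List ℕ → Bool
  | [a, b, c, d] => and (Nat.ble lo a) (and (Nat.beq c (flipL a)) (Nat.beq d (flipL b)))
  | _ => false

def isDef : ℕ → List (List ℕ) → List ℕ → Bool
  | _, [], _ => false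
  | base, r :: rs, w => or (decide (w = r ++ [2 * base + 1])) (isDef (base + 1) rs w)

def clsB (ny : ℕ) (sr ex : List (List ℕ)) (nw w : List ℕ) : Bool :=
  w.isEmpty || isTriv w || decide (w ∈ sr) || isComm (2 * (ny + 1)) w || isDef (ny + 1) ex w ||
    decide (w = nw)

def cls (ny : ℕ) (sr ex : List (List ℕ)) (nw w : List ℕ) : Bool :=
  clsB ny sr ex nw w || clsB ny sr ex nw (invW w)

variable {Γ : Type*} [Group Γ]

theorem ev_of_isTriv (g : ℕ → Γ) {w : List ℕ} (h : isTriv w = true) : ev g w = 1 := by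
  match w, h with
  | [a, b], h =>
    have hb : b = flipL a := nbeq.mp h
    subst hb
    simp [L_xor]

theorem L_center (g : ℕ → Γ) {lo a : ℕ} (hcen : ∀ i, lo ≤ i → g i ∈ Subgroup.center Γ)
    (h : 2 * lo ≤ a) : L g a ∈ Subgroup.center Γ :=
  L_mem _ g (hcen _ (by omega))

theorem ev_of_isComm (g : ℕ → Γ) {lo : ℕ} (hcen : ∀ i, lo ≤ i → g i ∈ Subgroup.center Γ)
    {w : List ℕ} (h : isComm (2 * lo) w = true) : ev g w = 1 := by
  match w, h with
  | [a, b, c, d], h =>
    simp only [isComm, Bool.and_eq_true, nbeq] at h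
    obtain ⟨h1, rfl, rfl⟩ := h
    have h1' : 2 * lo ≤ a := Nat.le_of_ble_eq_true h1
    have hc := Subgroup.mem_center_iff.mp (L_center g hcen h1') (L g b)
    simp only [ev_cons, ev_nil, L_xor, mul_one]
    rw [← mul_assoc, ← hc]
    simp

theorem ev_of_isDef (g : ℕ → Γ) : ∀ (rs : List (List ℕ)) (base : ℕ) (w : List ℕ),
    (∀ j (hj : j < rs.length), g (base + j) = ev g rs[j]) → isDef base rs w = true →
      ev g w = 1 := by
  intro rs
  induction rs with
  | nil => intro base w _ h; simp [isDef] at h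
  | cons r rs ih =>
    intro base w hg h
    simp only [isDef, Bool.or_eq_true, decide_eq_true_eq] at h
    rcases h with rfl | h
    · have h0 := hg 0 (by simp)
      simp only [add_zero, List.getElem_cons_zero] at h0
      have hL : L g (2 * base + 1) = (g base)⁻¹ := by
        unfold L
        have e3 : (2 * base + 1) % 2 = 1 := by omega
        have e4 : (2 * base + 1) / 2 = base := by omega
        simp [e3, e4]
      rw [ev_append, ev_cons, ev_nil, hL, h0]
      simp
    · refine ih (base + 1) w (fun j hj => ?_) h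
      have := hg (j + 1) (by simpa using hj)
      simp only [List.getElem_cons_succ] at this
      rw [← this]; congr 1; omega

theorem good_of_cls (S : Subgroup Γ) (g : ℕ → Γ) (ny : ℕ) (sr ex : List (List ℕ)) (nw : List ℕ)
    (hcen : ∀ i, ny + 1 ≤ i → g i ∈ Subgroup.center Γ)
    (hsr : ∀ w ∈ sr, ∀ x : Γ, x * ev g w * x⁻¹ ∈ S)
    (hdef : ∀ j (hj : j < ex.length), g (ny + 1 + j) = ev g ex[j])
    (hnw : ev g nw = 1) (w : List ℕ) (h : cls ny sr ex nw w = true) :
    ∀ x : Γ, x * ev g w * x⁻¹ ∈ S := by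
  have key : ∀ w, clsB ny sr ex nw w = true → ∀ x : Γ, x * ev g w * x⁻¹ ∈ S := by
    intro w h x
    simp only [clsB, Bool.or_eq_true, decide_eq_true_eq, List.isEmpty_iff] at h
    have one : ev g w = 1 → x * ev g w * x⁻¹ ∈ S := by
      intro h1; rw [h1]; simp [S.one_mem]
    rcases h with ((((rfl | h) | h) | h) | h) | rfl
    · exact one rfl
    · exact one (ev_of_isTriv g h)
    · exact hsr w h x
    · exact one (ev_of_isComm g hcen h)
    · exact one (ev_of_isDef g ex (ny + 1) w hdef h)
    · exact one hnw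
  intro x
  simp only [cls, Bool.or_eq_true] at h
  rcases h with h | h
  · exact key w h x
  · have := S.inv_mem (key _ h x)
    rw [ev_invW] at this
    simpa [mul_assoc] using this

end classifier

section link

variable {A G Γ : Type*} [Group A] [Group G] [Group Γ]

theorem link [Finite A] [Finite Γ] (ψ : A →* G) (π : Γ →* G) (hsurj : Function.Surjective π)
    (hc : π.ker ≤ Subgroup.center Γ) (hA : commutator A = ⊤) :
    ∃ H₁ : Subgroup Γ, Nat.card H₁ ≤ Nat.card (schurM A) * Nat.card A ∧
      ∀ a, ∃ γ ∈ H₁, π γ = ψ a := by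
  let X : Subgroup (A × Γ) :=
    (ψ.comp (MonoidHom.fst A Γ)).eqLocus (π.comp (MonoidHom.snd A Γ))
  have hX : ∀ x : X, ψ x.1.1 = π x.1.2 := fun x => x.2
  let ξ : X →* A := (MonoidHom.fst A Γ).comp X.subtype
  have hξs : Function.Surjective ξ := by
    intro a
    obtain ⟨γ, hγ⟩ := hsurj (ψ a)
    exact ⟨⟨(a, γ), hγ.symm⟩, rfl⟩
  have hξk : ξ.ker ≤ Subgroup.center X := by
    intro x hx
    have h1 : x.1.1 = 1 := hx
    have h2 : x.1.2 ∈ π.ker := by
      rw [MonoidHom.mem_ker, ← hX x, h1, map_one]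
    rw [Subgroup.mem_center_iff]
    intro y
    apply Subtype.ext
    apply Prod.ext
    · change y.1.1 * x.1.1 = x.1.1 * y.1.1
      rw [h1]; simp
    · exact Subgroup.mem_center_iff.mp (hc h2) y.1.2
  obtain ⟨f, hf⟩ := exists_surj_schurM A ξ hξs hξk
  have hfinM : Finite (schurM A) := inferInstance
  refine ⟨(commutator X).map ((MonoidHom.snd A Γ).comp X.subtype), ?_, ?_⟩
  · have h1 : Nat.card ((commutator X).map ((MonoidHom.snd A Γ).comp X.subtype)) ≤
        Nat.card (commutator X) := Nat.le_of_dvd Nat.card_pos (Subgroup.card_map_dvd _ _)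
    have h2 : Nat.card ↥(ξ.ker ⊓ commutator X) ≤ Nat.card (schurM A) :=
      Nat.card_le_card_of_surjective f hf
    have h3 := Subgroup.relIndex_mul_relIndex ⊥ (ξ.ker ⊓ commutator X) (commutator X) bot_le
      inf_le_right
    rw [Subgroup.relIndex_bot_left, Subgroup.relIndex_bot_left, Subgroup.inf_relIndex_right] at h3
    have h4 : ξ.ker.relIndex (commutator X) ∣ ξ.ker.index :=
      Subgroup.relIndex_dvd_index_of_normal _ _
    have h5 : ξ.ker.index = Nat.card A := by
      rw [Subgroup.index_ker, MonoidHom.range_eq_top.mpr hξs, Subgroup.card_top]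
    have h6 : ξ.ker.relIndex (commutator X) ≤ Nat.card A := by
      rw [h5] at h4
      exact Nat.le_of_dvd Nat.card_pos h4
    calc _ ≤ Nat.card (commutator X) := h1
      _ = Nat.card ↥(ξ.ker ⊓ commutator X) * ξ.ker.relIndex (commutator X) := h3.symm
      _ ≤ _ := Nat.mul_le_mul h2 h6
  · intro a
    have h1 : (commutator X).map ξ = ⊤ := by
      rw [commutator_def, Subgroup.map_commutator, Subgroup.map_top_of_surjective ξ hξs,
        ← commutator_def, hA]
    have ha : a ∈ (commutator X).map ξ := by rw [h1]; trivial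
    obtain ⟨x, hx, rfl⟩ := ha
    exact ⟨x.1.2, ⟨x, hx, rfl⟩, (hX x).symm⟩

end link

section graph

variable {G E : Type} [Group G] [Group E]

/-- the subgroup of `G × E` generated by the pairs of generators -/
def graphX (k : ℕ) (gb : ℕ → G) (e : ℕ → E) : Subgroup (G × E) :=
  Subgroup.closure {x | ∃ i < k, x = (gb i, e i)}

/-- its generators -/
def graphGen (k : ℕ) (gb : ℕ → G) (e : ℕ → E) (i : ℕ) : graphX k gb e :=
  if h : i < k then ⟨(gb i, e i), Subgroup.subset_closure ⟨i, h, rfl⟩⟩ else 1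

theorem graphGen_val {k : ℕ} {gb : ℕ → G} {e : ℕ → E} {i : ℕ} (h : i < k) :
    (graphGen k gb e i).1 = (gb i, e i) := by
  simp [graphGen, h]

theorem ev_graphGen {k : ℕ} {gb : ℕ → G} {e : ℕ → E} {w : List ℕ} (hw : ∀ a ∈ w, a / 2 < k) :
    (ev (graphGen k gb e) w).1 = (ev gb w, ev e w) := by
  have h1 := ev_map ((MonoidHom.fst G E).comp (graphX k gb e).subtype) (graphGen k gb e) w
  have h2 := ev_map ((MonoidHom.snd G E).comp (graphX k gb e).subtype) (graphGen k gb e) w
  apply Prod.ext
  · refine h1.trans (ev_congr fun a ha => ?_)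
    change (graphGen k gb e (a / 2)).1.1 = _
    rw [graphGen_val (hw a ha)]
  · refine h2.trans (ev_congr fun a ha => ?_)
    change (graphGen k gb e (a / 2)).1.2 = _
    rw [graphGen_val (hw a ha)]

theorem graph_central [Finite G] [Finite E] (k : ℕ) (gb : ℕ → G) (e : ℕ → E) (C : Subgroup E)
    (hgen : Subgroup.closure {x | ∃ i < k, x = gb i} = ⊤)
    (hC : ∀ c ∈ C, ∀ i < k, c * e i = e i * c)
    (R : List (List ℕ)) (hRk : ∀ w ∈ R, ∀ a ∈ w, a / 2 < k)
    (hRG : ∀ w ∈ R, ev gb w = 1) (hRE : ∀ w ∈ R, ev e w ∈ C)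
    (PB : ∀ (Δ : Type) [Group Δ] [Finite Δ] (d : ℕ → Δ),
      Subgroup.closure {x | ∃ i < k, x = d i} = ⊤ → (∀ w ∈ R, ev d w = 1) →
        Nat.card Δ ≤ Nat.card G) :
    Function.Surjective ((MonoidHom.fst G E).comp (graphX k gb e).subtype) ∧
      ((MonoidHom.fst G E).comp (graphX k gb e).subtype).ker ≤ Subgroup.center (graphX k gb e) := by
  obtain ⟨X, hXdef⟩ : ∃ X, X = graphX k gb e := ⟨_, rfl⟩
  let ξ : graphX k gb e →* G := (MonoidHom.fst G E).comp (graphX k gb e).subtype
  have hgenX : Subgroup.closure {x : graphX k gb e | ∃ i < k, x = graphGen k gb e i} = ⊤ := by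
    have h := Subgroup.closure_closure_coe_preimage (k := {x : G × E | ∃ i < k, x = (gb i, e i)})
    have hs : ((↑) ⁻¹' {x : G × E | ∃ i < k, x = (gb i, e i)} :
        Set (Subgroup.closure {x : G × E | ∃ i < k, x = (gb i, e i)})) =
        {x : graphX k gb e | ∃ i < k, x = graphGen k gb e i} := by
      ext x
      constructor
      · rintro ⟨i, hi, hx⟩
        exact ⟨i, hi, Subtype.ext (hx.trans (graphGen_val hi).symm)⟩
      · rintro ⟨i, hi, rfl⟩
        exact ⟨i, hi, graphGen_val hi⟩
    rw [hs] at h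
    exact h
  have hξs : Function.Surjective ξ := by
    rw [← MonoidHom.range_eq_top, eq_top_iff, ← hgen, Subgroup.closure_le]
    rintro _ ⟨i, hi, rfl⟩
    exact ⟨graphGen k gb e i, by change (graphGen k gb e i).1.1 = _; rw [graphGen_val hi]⟩
  let N : Subgroup (graphX k gb e) :=
    ξ.ker ⊓ C.comap ((MonoidHom.snd G E).comp (graphX k gb e).subtype)
  have hNc : N ≤ Subgroup.center (graphX k gb e) := by
    rintro n ⟨hn1, hn2⟩
    have h1 : n.1.1 = 1 := hn1
    have h2 : n.1.2 ∈ C := hn2
    have hle : graphX k gb e ≤ Subgroup.centralizer {n.1} := by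
      unfold graphX
      rw [Subgroup.closure_le]
      rintro _ ⟨i, hi, rfl⟩
      rw [SetLike.mem_coe, Subgroup.mem_centralizer_iff]
      rintro _ rfl
      apply Prod.ext
      · change n.1.1 * gb i = gb i * n.1.1
        rw [h1]; simp
      · exact hC _ h2 i hi
    rw [Subgroup.mem_center_iff]
    intro y
    apply Subtype.ext
    exact ((Subgroup.mem_centralizer_iff.mp (hle y.2)) n.1 rfl).symm
  have hNn : N.Normal := normal_of_le_center hNc
  have hcard : Nat.card (graphX k gb e ⧸ N) ≤ Nat.card G := by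
    refine PB (graphX k gb e ⧸ N) (fun i => QuotientGroup.mk' N (graphGen k gb e i)) ?_ ?_
    · have h1 : {x : graphX k gb e ⧸ N | ∃ i < k, x = QuotientGroup.mk' N (graphGen k gb e i)} =
          (QuotientGroup.mk' N) '' {x : graphX k gb e | ∃ i < k, x = graphGen k gb e i} := by
        ext x
        constructor
        · rintro ⟨i, hi, rfl⟩; exact ⟨_, ⟨i, hi, rfl⟩, rfl⟩
        · rintro ⟨_, ⟨i, hi, rfl⟩, rfl⟩; exact ⟨i, hi, rfl⟩
      rw [h1, ← MonoidHom.map_closure, hgenX,
        Subgroup.map_top_of_surjective _ (QuotientGroup.mk'_surjective N)]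
    · intro w hw
      rw [← ev_map (QuotientGroup.mk' N) (graphGen k gb e) w]
      change (QuotientGroup.mk (ev (graphGen k gb e) w) : graphX k gb e ⧸ N) = 1
      rw [QuotientGroup.eq_one_iff]
      have hv := ev_graphGen (gb := gb) (e := e) (hRk w hw)
      refine ⟨?_, ?_⟩
      · change (ev (graphGen k gb e) w).1.1 = 1
        rw [hv]; exact hRG w hw
      · change (ev (graphGen k gb e) w).1.2 ∈ C
        rw [hv]; exact hRE w hw
  refine ⟨hξs, ?_⟩
  have hNk : N ≤ ξ.ker := inf_le_left
  let ξb : graphX k gb e ⧸ N →* G := QuotientGroup.lift N ξ (fun x hx => hNk hx)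
  have hξbs : Function.Surjective ξb := by
    intro g
    obtain ⟨x, hx⟩ := hξs g
    exact ⟨QuotientGroup.mk x, hx⟩
  have hbij : Function.Bijective ξb := by
    rw [Nat.bijective_iff_surjective_and_card]
    exact ⟨hξbs, le_antisymm hcard (Nat.card_le_card_of_surjective ξb hξbs)⟩
  intro x hx
  apply hNc
  have h1 : ξb (QuotientGroup.mk x) = ξb 1 := by
    rw [map_one]; exact hx
  have h2 := hbij.1 h1
  exact (QuotientGroup.eq_one_iff x).mp h2

end graph

end Cfsg.Agent.Lib.Helper66.TCE
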