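import Mathlib

set_option autoImplicit false

namespace Cfsg.Agent.Lib.Helper66

universe u v

section pairing

variable {F : Type u} [Field F] {Z : Type v} [CommGroup Z] (β : F → F → Z)

theorem pairing_zero_left (hadd1 : ∀ a a' b, β (a + a') b = β a b * β a' b) (b : F) : β 0 b = 1 := by
  have := hadd1 0 0 b
  rw [add_zero] at this
  exact (mul_eq_left.mp this.symm)

theorem pairing_neg_left (hadd1 : ∀ a a' b, β (a + a') b = β a b * β a' b) (a b : F) :
    β (-a) b = (β a b)⁻¹ := by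
  have := hadd1 a (-a) b
  rw [add_neg_cancel, pairing_zero_left β hadd1] at this
  exact eq_inv_of_mul_eq_one_right this.symm

/-- key step -/
theorem pairing_trivial_of_exists
    (hadd1 : ∀ a a' b, β (a + a') b = β a b * β a' b)
    (hadd2 : ∀ a b b', β a (b + b') = β a b * β a b')
    (hinv : ∀ t : F, t ≠ 0 → ∀ a b, β (t ^ 2 * a) (t ^ 2 * b) = β a b)
    (s y : F) (hs : s ≠ 0) (hy : y ≠ 0) (hsy : 1 + s ^ 2 = y ^ 2) (hδ : s ^ 4 + s ^ 2 + 1 ≠ 0) :
    ∀ a b, β a b = 1 := by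
  have hmove : ∀ t : F, t ≠ 0 → ∀ a b, β a (t ^ 2 * b) = β ((t ^ 2)⁻¹ * a) b := by
    intro t ht a b
    have := hinv t ht ((t ^ 2)⁻¹ * a) b
    rw [mul_inv_cancel_left₀ (pow_ne_zero 2 ht)] at this
    exact this
  set δ : F := (y ^ 2)⁻¹ - 1 - (s ^ 2)⁻¹ with hδdef
  have hδ0 : δ ≠ 0 := by
    intro h
    apply hδ
    have h1 : δ * (s ^ 2 * y ^ 2) = -(s ^ 4 + s ^ 2 + 1) := by
      rw [hδdef]
      field_simp
      rw [← hsy]; ring
    rw [h, zero_mul] at h1
    exact neg_eq_zero.mp h1.symm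
  have hkill : ∀ a b, β (δ * a) b = 1 := by
    intro a b
    have h1 : β a (y ^ 2 * b) = β a b * β a (s ^ 2 * b) := by
      rw [← hsy, add_mul, one_mul, hadd2]
    rw [hmove y hy, hmove s hs] at h1
    have h2 : δ * a = (y ^ 2)⁻¹ * a + (-a + -((s ^ 2)⁻¹ * a)) := by
      rw [hδdef]; ring
    rw [h2, hadd1, hadd1, pairing_neg_left β hadd1, pairing_neg_left β hadd1, h1,
      mul_mul_mul_comm, mul_inv_cancel, mul_inv_cancel, one_mul]
  intro a b
  have := hkill (δ⁻¹ * a) b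
  rwa [mul_inv_cancel_left₀ hδ0] at this

theorem pairing_natCast_left (hadd1 : ∀ a a' b, β (a + a') b = β a b * β a' b) (n : ℕ) (b : F) :
    β (n : F) b = β 1 b ^ n := by
  induction n with
  | zero => rw [Nat.cast_zero, pairing_zero_left β hadd1, pow_zero]
  | succ n ih => rw [Nat.cast_succ, hadd1, ih, pow_succ]

theorem pairing_natCast_right (hadd2 : ∀ a b b', β a (b + b') = β a b * β a b') (a : F) (n : ℕ) :
    β a (n : F) = β a 1 ^ n :=
  pairing_natCast_left (fun x y => β y x) (fun b b' a => hadd2 a b b') n a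

end pairing

theorem exists_natCast_of_card_prime {F : Type u} [Field F] [Fintype F] (p : ℕ) [Fact p.Prime]
    [CharP F p] (hcard : Fintype.card F = p) (a : F) : ∃ n : ℕ, a = n := by
  have hinj : Function.Injective (ZMod.castHom (dvd_refl p) F) := RingHom.injective _
  have hbij : Function.Bijective (ZMod.castHom (dvd_refl p) F) := by
    rw [Fintype.bijective_iff_injective_and_card]
    exact ⟨hinj, by rw [ZMod.card, hcard]⟩
  obtain ⟨k, rfl⟩ := hbij.2 a
  refine ⟨k.val, ?_⟩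
  rw [ZMod.castHom_apply, ZMod.natCast_val]

open Polynomial in
theorem exists_eval_ne_zero_of_natDegree_lt {F : Type u} [Field F] [Fintype F] (P : F[X])
    (hP0 : P ≠ 0) (hdeg : P.natDegree < Fintype.card F) : ∃ s : F, P.eval s ≠ 0 := by
  classical
  by_contra hcon
  push Not at hcon
  have h1 : Fintype.card F ≤ P.natDegree := by
    have h2 : (Finset.univ : Finset F) ⊆ P.roots.toFinset := by
      intro x _
      rw [Multiset.mem_toFinset, mem_roots hP0]
      exact hcon x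
    calc Fintype.card F = (Finset.univ : Finset F).card := rfl
      _ ≤ P.roots.toFinset.card := Finset.card_le_card h2
      _ ≤ Multiset.card P.roots := Multiset.toFinset_card_le _
      _ ≤ P.natDegree := card_roots' P
  omega

open Polynomial in
theorem exists_good_char_two {F : Type u} [Field F] [Fintype F] [CharP F 2]
    (hq : 8 ≤ Fintype.card F) :
    ∃ s y : F, s ≠ 0 ∧ y ≠ 0 ∧ 1 + s ^ 2 = y ^ 2 ∧ s ^ 4 + s ^ 2 + 1 ≠ 0 := by
  let P : F[X] := X * (1 + X) * (X ^ 4 + X ^ 2 + 1)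
  have hP0 : P ≠ 0 := by
    have h1 : (1 + X : F[X]) ≠ 0 := by
      intro h
      have := congrArg (eval 0) h
      simp at this
    have h2 : (X ^ 4 + X ^ 2 + 1 : F[X]) ≠ 0 := by
      intro h
      have := congrArg (eval 0) h
      simp at this
    exact mul_ne_zero (mul_ne_zero X_ne_zero h1) h2
  have hdeg : P.natDegree ≤ 6 := by
    change (X * (1 + X) * (X ^ 4 + X ^ 2 + 1) : F[X]).natDegree ≤ 6
    compute_degree
  obtain ⟨s, hs⟩ := exists_eval_ne_zero_of_natDegree_lt P hP0 (by omega)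
  have hs' : s * (1 + s) * (s ^ 4 + s ^ 2 + 1) ≠ 0 := by
    simpa [P] using hs
  have h3 : s ≠ 0 := fun h => hs' (by rw [h]; ring)
  have h4 : 1 + s ≠ 0 := fun h => hs' (by rw [h]; ring)
  have h5 : s ^ 4 + s ^ 2 + 1 ≠ 0 := fun h => hs' (by rw [h]; ring)
  refine ⟨s, 1 + s, h3, h4, ?_, h5⟩
  have h2 : (2 : F) = 0 := CharTwo.two_eq_zero
  linear_combination (-s) * h2

open Polynomial in
theorem exists_good_char_odd {F : Type u} [Field F] [Fintype F] (h2 : (2 : F) ≠ 0)
    (hq : 14 ≤ Fintype.card F) :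
    ∃ s y : F, s ≠ 0 ∧ y ≠ 0 ∧ 1 + s ^ 2 = y ^ 2 ∧ s ^ 4 + s ^ 2 + 1 ≠ 0 := by
  let P : F[X] := X * (1 - X ^ 2) * (1 + X ^ 2) *
    ((1 - X ^ 2) ^ 4 + 4 * X ^ 2 * (1 - X ^ 2) ^ 2 + 16 * X ^ 4)
  have hP0 : P ≠ 0 := by
    have h1 : (1 - X ^ 2 : F[X]) ≠ 0 := by
      intro h
      have := congrArg (eval 0) h
      simp at this
    have h2 : (1 + X ^ 2 : F[X]) ≠ 0 := by
      intro h
      have := congrArg (eval 0) h
      simp at this
    have h3 : ((1 - X ^ 2) ^ 4 + 4 * X ^ 2 * (1 - X ^ 2) ^ 2 + 16 * X ^ 4 : F[X]) ≠ 0 := by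
      intro h
      have := congrArg (eval 0) h
      simp at this
    exact mul_ne_zero (mul_ne_zero (mul_ne_zero X_ne_zero h1) h2) h3
  have hdeg : P.natDegree ≤ 13 := by
    change (X * (1 - X ^ 2) * (1 + X ^ 2) *
      ((1 - X ^ 2) ^ 4 + 4 * X ^ 2 * (1 - X ^ 2) ^ 2 + 16 * X ^ 4) : F[X]).natDegree ≤ 13
    compute_degree
  obtain ⟨u, hu⟩ := exists_eval_ne_zero_of_natDegree_lt P hP0 (by omega)
  have hu' : u * (1 - u ^ 2) * (1 + u ^ 2) *
      ((1 - u ^ 2) ^ 4 + 4 * u ^ 2 * (1 - u ^ 2) ^ 2 + 16 * u ^ 4) ≠ 0 := by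
    simpa [P] using hu
  have h3 : u ≠ 0 := fun h => hu' (by rw [h]; ring)
  have h4 : 1 - u ^ 2 ≠ 0 := fun h => hu' (by rw [h]; ring)
  have h5 : 1 + u ^ 2 ≠ 0 := fun h => hu' (by rw [h]; ring)
  have h6 : (1 - u ^ 2) ^ 4 + 4 * u ^ 2 * (1 - u ^ 2) ^ 2 + 16 * u ^ 4 ≠ 0 :=
    fun h => hu' (by rw [h]; ring)
  have h2u : 2 * u ≠ 0 := mul_ne_zero h2 h3
  refine ⟨(1 - u ^ 2) / (2 * u), (1 + u ^ 2) / (2 * u), div_ne_zero h4 h2u, div_ne_zero h5 h2u, ?_, ?_⟩
  · field_simp
    ring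
  · intro h
    apply h6
    have h7 : (1 - u ^ 2) ^ 4 + 4 * u ^ 2 * (1 - u ^ 2) ^ 2 + 16 * u ^ 4 =
        (((1 - u ^ 2) / (2 * u)) ^ 4 + ((1 - u ^ 2) / (2 * u)) ^ 2 + 1) * (2 * u) ^ 4 := by
      field_simp
      ring
    rw [h7, h, zero_mul]

/-- A biadditive alternating pairing on a finite field `F`, `|F| ≠ 4, 9`, invariant under
multiplication of both arguments by a nonzero square, is trivial. -/
theorem pairing_trivial {F : Type u} [Field F] [Fintype F] (h4 : Fintype.card F ≠ 4)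
    (h9 : Fintype.card F ≠ 9) {Z : Type v} [CommGroup Z] (β : F → F → Z)
    (hadd1 : ∀ a a' b, β (a + a') b = β a b * β a' b)
    (hadd2 : ∀ a b b', β a (b + b') = β a b * β a b')
    (halt : ∀ a, β a a = 1)
    (hinv : ∀ t : F, t ≠ 0 → ∀ a b, β (t ^ 2 * a) (t ^ 2 * b) = β a b) : ∀ a b, β a b = 1 := by
  obtain ⟨p, hp⟩ := CharP.exists F
  have hpp : p.Prime := CharP.char_is_prime F p
  have : Fact p.Prime := ⟨hpp⟩
  obtain ⟨n, -, hcard⟩ := FiniteField.card F p
  by_cases hn : (n : ℕ) = 1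
  · -- prime field
    rw [hn, pow_one] at hcard
    intro a b
    obtain ⟨k, rfl⟩ := exists_natCast_of_card_prime p hcard a
    obtain ⟨l, rfl⟩ := exists_natCast_of_card_prime p hcard b
    rw [pairing_natCast_left β hadd1, pairing_natCast_right β hadd2, halt, one_pow, one_pow]
  · have hn2 : 2 ≤ (n : ℕ) := by
      have := n.pos
      omega
    obtain ⟨s, y, hs, hy, hsy, hδ⟩ :
        ∃ s y : F, s ≠ 0 ∧ y ≠ 0 ∧ 1 + s ^ 2 = y ^ 2 ∧ s ^ 4 + s ^ 2 + 1 ≠ 0 := by
      by_cases hp2 : p = 2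
      · subst hp2
        apply exists_good_char_two
        have hn3 : 3 ≤ (n : ℕ) := by
          by_contra hcon
          have : (n : ℕ) = 2 := by omega
          rw [this] at hcard
          exact h4 (by rw [hcard]; norm_num)
        rw [hcard]
        calc 8 = 2 ^ 3 := by norm_num
          _ ≤ 2 ^ (n : ℕ) := Nat.pow_le_pow_right (by norm_num) hn3
      · apply exists_good_char_odd
        · intro h
          have h1 : ((2 : ℕ) : F) = 0 := by exact_mod_cast h
          rw [CharP.cast_eq_zero_iff F p] at h1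
          exact hp2 ((Nat.prime_dvd_prime_iff_eq hpp Nat.prime_two).mp h1)
        · rw [hcard]
          have hp3 : 3 ≤ p := by
            have := hpp.two_le
            omega
          by_cases hp3' : p = 3
          · subst hp3'
            have hn3 : 3 ≤ (n : ℕ) := by
              by_contra hcon
              have : (n : ℕ) = 2 := by omega
              rw [this] at hcard
              exact h9 (by rw [hcard]; norm_num)
            calc 14 ≤ 3 ^ 3 := by norm_num
              _ ≤ 3 ^ (n : ℕ) := Nat.pow_le_pow_right (by norm_num) hn3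
          · have hp5 : 4 ≤ p := by omega
            calc 14 ≤ 4 ^ 2 := by norm_num
              _ ≤ p ^ 2 := Nat.pow_le_pow_left hp5 2
              _ ≤ p ^ (n : ℕ) := Nat.pow_le_pow_right (by omega) hn2
    exact pairing_trivial_of_exists β hadd1 hadd2 hinv s y hs hy hsy hδ

end Cfsg.Agent.Lib.Helper66
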