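import Mathlib
import Cfsg.Prelude.Def_KGroupFacts
import Cfsg.Agent.Lib.Helper66.SchurMain
import Cfsg.Agent.Lib.Helper66.FibreProd

set_option autoImplicit false

namespace Cfsg.Agent.Lib.Helper66

open scoped commutatorElement

universe u v w

/-- abstract version: retraction onto a divisible central subgroup meeting the commutator subgroup trivially -/
theorem exists_retraction_of_divisible {P : Type u} [Group P] {D : Type v} [CommGroup D]
    (j : D →* P) (hj : Function.Injective j) (hinf : ∀ d : D, j d ∈ commutator P → d = 1)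
    (hdiv : ∀ (d : D) (k : ℕ), k ≠ 0 → ∃ d' : D, d' ^ k = d) :
    ∃ r : P →* D, ∀ d, r (j d) = d := by
  have hdivN : ∀ {n : ℕ}, n ≠ 0 → Function.Surjective (fun a : Additive D => n • a) := by
    intro n hn a
    obtain ⟨d', hd'⟩ := hdiv a.toMul n hn
    exact ⟨Additive.ofMul d', by
      change Additive.ofMul (d' ^ n) = a
      rw [hd']; rfl⟩
  letI i1 : DivisibleBy (Additive D) ℕ := divisibleByOfSMulRightSurj (Additive D) ℕ hdivN
  letI i2 : DivisibleBy (Additive D) ℤ := AddGroup.divisibleByIntOfDivisibleByNat (Additive D)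
  have hB : Module.Baer ℤ (Additive D) := Module.Baer.of_divisible (Additive D)
  let f : Additive D →+ Additive (Abelianization P) := MonoidHom.toAdditive (Abelianization.of.comp j)
  have hf : Function.Injective f := by
    rw [injective_iff_map_eq_zero]
    intro a ha
    have h1 : Abelianization.of (j a.toMul) = 1 := ha
    have h2 : j a.toMul ∈ commutator P := (QuotientGroup.eq_one_iff _).mp h1
    exact hinf _ h2
  obtain ⟨h, hh⟩ := hB.extension_property_addMonoidHom f hf (AddMonoidHom.id _)
  refine ⟨(MonoidHom.toAdditive.symm h).comp Abelianization.of, ?_⟩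
  intro d
  exact DFunLike.congr_fun hh (Additive.ofMul d)

/-- commutative group structure on a central kernel -/
@[instance_reducible] def kerCommGroup {Γ : Type*} {G : Type*} [Group Γ] [Group G] (σ : Γ →* G)
    (h : σ.ker ≤ Subgroup.center Γ) : CommGroup σ.ker :=
  { σ.ker.toGroup with
    mul_comm := by
      rintro ⟨x, hx⟩ ⟨y, hy⟩
      apply Subtype.ext
      exact (Subgroup.mem_center_iff.mp (h hy)) x }

/-- A central extension with divisible kernel meeting the commutator subgroup trivially splits. -/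
theorem exists_section_of_divisible {P : Type u} {Γ : Type v} [Group P] [Group Γ] (p : P →* Γ)
    (hp : Function.Surjective p) (hcen : p.ker ≤ Subgroup.center P)
    (hinf : p.ker ⊓ commutator P = ⊥)
    (hdiv : ∀ d ∈ p.ker, ∀ k : ℕ, k ≠ 0 → ∃ d' ∈ p.ker, d' ^ k = d) :
    ∃ s : Γ →* P, p.comp s = MonoidHom.id Γ := by
  letI := kerCommGroup p hcen
  obtain ⟨r, hr⟩ := exists_retraction_of_divisible p.ker.subtype p.ker.subtype_injective
    (by
      intro d hd
      have : (d : P) ∈ p.ker ⊓ commutator P := ⟨d.2, hd⟩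
      rw [hinf, Subgroup.mem_bot] at this
      exact Subtype.ext this)
    (by
      intro d k hk
      obtain ⟨d', hd', hdd⟩ := hdiv d d.2 k hk
      exact ⟨⟨d', hd'⟩, Subtype.ext hdd⟩)
  let C := r.ker
  let θ : C →* Γ := p.comp C.subtype
  have hinj : Function.Injective θ := by
    rw [injective_iff_map_eq_one]
    intro c hc
    have h1 : (c : P) ∈ p.ker := hc
    have h2 : r (c : P) = ⟨c, h1⟩ := hr ⟨c, h1⟩
    have h3 : r (c : P) = 1 := c.2
    rw [h3] at h2
    apply Subtype.ext
    exact (congrArg Subtype.val h2).symm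
  have hsurj : Function.Surjective θ := by
    intro x
    obtain ⟨w, rfl⟩ := hp x
    refine ⟨⟨w * ((r w : p.ker) : P)⁻¹, ?_⟩, ?_⟩
    · change r (w * ((r w : p.ker) : P)⁻¹) = 1
      rw [map_mul, map_inv]
      have : r ((r w : p.ker) : P) = r w := hr (r w)
      rw [this, mul_inv_cancel]
    · change p (w * ((r w : p.ker) : P)⁻¹) = p w
      rw [map_mul, map_inv]
      have : p ((r w : p.ker) : P) = 1 := (r w).2
      rw [this, inv_one, mul_one]
  let e : C ≃* Γ := MulEquiv.ofBijective θ ⟨hinj, hsurj⟩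
  refine ⟨C.subtype.comp e.symm.toMonoidHom, ?_⟩
  ext g
  exact e.apply_symm_apply g

/-- the centre of `GL n ℂ` is divisible -/
theorem center_GL_divisible (n : ℕ) (z : GL (Fin n) ℂ) (hz : z ∈ Subgroup.center (GL (Fin n) ℂ))
    (k : ℕ) (hk : k ≠ 0) : ∃ z' ∈ Subgroup.center (GL (Fin n) ℂ), z' ^ k = z := by
  rw [Matrix.GeneralLinearGroup.center_eq_range_scalar] at hz ⊢
  obtain ⟨c, rfl⟩ := hz
  obtain ⟨w, hw⟩ := IsAlgClosed.exists_pow_nat_eq (c : ℂ) (Nat.pos_of_ne_zero hk)
  have hw0 : w ≠ 0 := by
    rintro rfl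
    rw [zero_pow hk] at hw
    exact c.ne_zero hw.symm
  refine ⟨Matrix.GeneralLinearGroup.scalar (Fin n) (Units.mk0 w hw0), ⟨_, rfl⟩, ?_⟩
  rw [← map_pow]
  congr 1
  ext
  simpa using hw

/-- Lifting of projective representations along `σ`, provided the relevant fibre product has
commutator subgroup meeting the scalars trivially. -/
theorem exists_lift_of_fibre {Γ : Type u} [Group Γ] (n : ℕ)
    (δ : Γ →* (GL (Fin n) ℂ ⧸ Subgroup.center (GL (Fin n) ℂ)))
    (h : (fibreFst δ (QuotientGroup.mk' (Subgroup.center (GL (Fin n) ℂ)))).ker ⊓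
      commutator (fibre δ (QuotientGroup.mk' (Subgroup.center (GL (Fin n) ℂ)))) = ⊥) :
    ∃ ρ : Γ →* GL (Fin n) ℂ, (QuotientGroup.mk' (Subgroup.center (GL (Fin n) ℂ))).comp ρ = δ := by
  set q := QuotientGroup.mk' (Subgroup.center (GL (Fin n) ℂ)) with hq
  have hqs : Function.Surjective q := QuotientGroup.mk'_surjective _
  have hqk : q.ker ≤ Subgroup.center (GL (Fin n) ℂ) := by rw [hq, QuotientGroup.ker_mk']
  obtain ⟨s, hs⟩ := exists_section_of_divisible (fibreFst δ q) (fibreFst_surjective δ q hqs)
    (ker_fibreFst_le_center δ q hqk) h (by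
      rintro ⟨⟨x, z⟩, hxz⟩ hd k hk
      have hx : x = 1 := hd
      subst hx
      have hz : z ∈ Subgroup.center (GL (Fin n) ℂ) := by
        apply hqk
        rw [MonoidHom.mem_ker]
        have : δ 1 = q z := hxz
        rw [← this, map_one]
      obtain ⟨z', hz', hzz⟩ := center_GL_divisible n z hz k hk
      have hmem : ((1 : Γ), z') ∈ fibre δ q := by
        rw [mem_fibre, map_one]
        symm
        exact (QuotientGroup.eq_one_iff z').mpr hz'
      refine ⟨⟨(1, z'), hmem⟩, rfl, ?_⟩
      apply Subtype.ext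
      apply Prod.ext
      · simp
      · exact hzz)
  refine ⟨(fibreSnd δ q).comp s, ?_⟩
  ext g
  change q (fibreSnd δ q (s g)) = δ g
  rw [← fibre_comm]
  have : fibreFst δ q (s g) = g := DFunLike.congr_fun hs g
  rw [this]

end Cfsg.Agent.Lib.Helper66
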