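import Mathlib
import Cfsg.Prelude.Def_KGroupFacts
import Cfsg.Agent.Lib.Helper66.ProjLift

set_option autoImplicit false

namespace Cfsg.Agent.Lib.Helper66

open scoped commutatorElement

universe u v w

section ind

variable {Δ : Type u} [Group Δ] (K : Subgroup Δ) (lam : K →* ℂˣ)

/-- the space of the representation induced from the linear character `lam` of `K` -/
def indSpace : Submodule ℂ (Δ → ℂ) where
  carrier := {f | ∀ (k : K) (x : Δ), f (k * x) = (lam k : ℂ) * f x}
  add_mem' := by
    intro f g hf hg k x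
    simp only [Pi.add_apply, hf k x, hg k x, mul_add]
  zero_mem' := by intro k x; simp
  smul_mem' := by
    intro c f hf k x
    simp only [Pi.smul_apply, hf k x, smul_eq_mul]
    ring

theorem mem_indSpace {f : Δ → ℂ} :
    f ∈ indSpace K lam ↔ ∀ (k : K) (x : Δ), f (k * x) = (lam k : ℂ) * f x := Iff.rfl

/-- right translation on the induced space -/
def indEnd (y : Δ) : Module.End ℂ (indSpace K lam) :=
  (LinearMap.funLeft ℂ ℂ (fun x : Δ => x * y)).restrict (by
    intro f hf k x
    simp only [LinearMap.funLeft_apply]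
    rw [mul_assoc]
    exact hf k (x * y))

theorem indEnd_apply (y : Δ) (f : indSpace K lam) (x : Δ) :
    (indEnd K lam y f : Δ → ℂ) x = (f : Δ → ℂ) (x * y) := rfl

/-- the induced representation -/
def indRep : Δ →* Module.End ℂ (indSpace K lam) where
  toFun := indEnd K lam
  map_one' := by
    ext f x
    simp [indEnd_apply]
  map_mul' := by
    intro y y'
    ext f x
    simp [indEnd_apply, mul_assoc]

theorem indRep_central (hK : K ≤ Subgroup.center Δ) (k : K) :
    indRep K lam k = (lam k : ℂ) • (1 : Module.End ℂ (indSpace K lam)) := by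
  ext f x
  change (f : Δ → ℂ) (x * k) = (lam k : ℂ) * (f : Δ → ℂ) x
  rw [(Subgroup.mem_center_iff.mp (hK k.2)) x]
  exact f.2 k x

open Classical in
/-- a nonzero vector -/
noncomputable def indVec : indSpace K lam :=
  ⟨fun x => if h : x ∈ K then (lam ⟨x, h⟩ : ℂ) else 0, by
    intro k x
    by_cases hx : x ∈ K
    · have hkx : (k : Δ) * x ∈ K := K.mul_mem k.2 hx
      simp only [dif_pos hx, dif_pos hkx]
      rw [← Units.val_mul, ← map_mul]
      rfl
    · have hkx : (k : Δ) * x ∉ K := by
        intro h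
        apply hx
        have := K.mul_mem (K.inv_mem k.2) h
        simpa using this
      simp only [dif_neg hx, dif_neg hkx, mul_zero]⟩

open Classical in
theorem indVec_one : (indVec K lam : Δ → ℂ) 1 = 1 := by
  have h1 : (1 : Δ) ∈ K := K.one_mem
  change (if h : (1 : Δ) ∈ K then (lam ⟨1, h⟩ : ℂ) else 0) = 1
  rw [dif_pos h1]
  have : (⟨1, h1⟩ : K) = 1 := rfl
  rw [this, map_one]; rfl

end ind

/-- For a finite group `Δ`, a central subgroup `K` and `1 ≠ k ∈ K` there is a matrix representation in which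
`K` acts by scalars and `k` acts nontrivially. -/
theorem exists_rep_central_ne_one {Δ : Type u} [Group Δ] [Finite Δ] (K : Subgroup Δ)
    (hK : K ≤ Subgroup.center Δ) (k : Δ) (hk : k ∈ K) (hk1 : k ≠ 1) :
    ∃ (n : ℕ) (ρ : Δ →* GL (Fin n) ℂ), (∀ k' ∈ K, ρ k' ∈ Subgroup.center (GL (Fin n) ℂ)) ∧ ρ k ≠ 1 := by
  letI : CommGroup K :=
    { K.toGroup with
      mul_comm := by
        rintro ⟨x, hx⟩ ⟨y, hy⟩
        apply Subtype.ext
        exact (Subgroup.mem_center_iff.mp (hK hy)) x }
  obtain ⟨lam, hlam⟩ := CommGroup.exists_apply_ne_one_of_hasEnoughRootsOfUnity K ℂ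
    (a := ⟨k, hk⟩) (by intro h; exact hk1 (congrArg Subtype.val h))
  let V := indSpace K lam
  let b := Module.finBasis ℂ V
  let E := LinearMap.toMatrixAlgEquiv b
  let ρ : Δ →* GL (Fin (Module.finrank ℂ V)) ℂ :=
    (Units.mapEquiv E.toMulEquiv).toMonoidHom.comp (MonoidHom.toHomUnits (indRep K lam))
  have hρ : ∀ y : Δ, ((ρ y : GL (Fin (Module.finrank ℂ V)) ℂ) : Matrix _ _ ℂ) = E (indRep K lam y) :=
    fun y => rfl
  refine ⟨Module.finrank ℂ V, ρ, ?_, ?_⟩
  · intro k' hk'
    rw [Matrix.GeneralLinearGroup.mem_center_iff_val_mem_range_scalar]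
    refine ⟨(lam ⟨k', hk'⟩ : ℂ), ?_⟩
    rw [hρ, indRep_central K lam hK ⟨k', hk'⟩, map_smul, map_one]
    ext i j
    simp [Matrix.scalar_apply, Matrix.diagonal_apply, Matrix.one_apply]
  · intro h
    have h1 : E (indRep K lam k) = 1 := by rw [← hρ, h]; rfl
    have h2 : indRep K lam k = 1 := by
      apply E.injective
      rw [h1, map_one]
    rw [indRep_central K lam hK ⟨k, hk⟩] at h2
    have h3 := congrArg (fun T : Module.End ℂ V => ((T (indVec K lam) : V) : Δ → ℂ) 1) h2
    simp only [LinearMap.smul_apply, Module.End.one_apply, Submodule.coe_smul, Pi.smul_apply,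
      indVec_one, smul_eq_mul, mul_one] at h3
    apply hlam
    ext
    exact h3

/-- two homomorphisms that agree modulo a central subgroup agree on the commutator subgroup -/
theorem commutator_le_eqLocus_of_central {G : Type u} {X : Type v} {Q : Type w} [Group G] [Group X] [Group Q]
    (ξ : X →* Q) (hξ : ξ.ker ≤ Subgroup.center X) (η₁ η₂ : G →* X)
    (h : ξ.comp η₁ = ξ.comp η₂) : commutator G ≤ η₁.eqLocus η₂ := by
  rw [commutator_eq_closure, Subgroup.closure_le]
  rintro _ ⟨a, b, rfl⟩
  change η₁ ⁅a, b⁆ = η₂ ⁅a, b⁆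
  rw [map_commutatorElement, map_commutatorElement]
  apply commutatorElement_eq_of_central ξ hξ
  · exact DFunLike.congr_fun h a
  · exact DFunLike.congr_fun h b

end Cfsg.Agent.Lib.Helper66
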