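import Cfsg.Agent.Lib.Helper66.PermModel

/-! # Lower bounds for Schur multipliers from permutation models of covers -/

set_option autoImplicit false

namespace Cfsg.Agent.Lib.Helper66.TCE

open Cfsg.Agent.Lib.Helper66

theorem model_dvd_exponent {G : Type} [Group G] [Finite G] (gb : ℕ → G) (kk : ℕ)
    (hgen : Subgroup.closure {x | ∃ i < kk, x = gb i} = ⊤)
    (R : List (List ℕ)) (hRk : ∀ w ∈ R, ∀ a ∈ w, a / 2 < kk) (hRG : ∀ w ∈ R, ev gb w = 1)
    (PB : ∀ (Δ : Type) [Group Δ] [Finite Δ] (d : ℕ → Δ),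
      Subgroup.closure {x | ∃ i < kk, x = d i} = ⊤ → (∀ w ∈ R, ev d w = 1) →
        Nat.card Δ ≤ Nat.card G)
    (tab : ℕ → ℕ → ℕ) (N : ℕ) (hv : chkValid tab N (kk + 1) = true) (hN : 0 < N)
    (vals : List ℕ) (hlen : vals.length = R.length)
    (hrels : (R.zip vals).all (fun x => chkEq tab N x.1 (List.replicate x.2 (2 * kk))) = true)
    (hcomm : allBelow (fun i => chkEq tab N [2 * kk, 2 * i] [2 * i, 2 * kk]) kk = true)
    (w0 v0 : List ℕ) (m0 : ℕ) (hw0k : ∀ a ∈ w0, a / 2 < kk) (hw0G : ev gb w0 = 1)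
    (hw0 : chkEq tab N w0 (List.replicate m0 (2 * kk)) = true)
    (hperm : w0.Perm (v0 ++ v0.map flipL))
    (p n : ℕ) [Fact p.Prime]
    (h1 : chkEq tab N (List.replicate (m0 * p ^ (n + 1)) (2 * kk)) [] = true)
    (h2 : Nat.beq (appW tab (List.replicate (m0 * p ^ n) (2 * kk)) 0) 0 = false) :
    p ^ (n + 1) ∣ Monoid.exponent (schurM G) := by
  obtain ⟨e, he⟩ : ∃ e, e = pe tab N (kk + 1) hv := ⟨_, rfl⟩
  have hlt : ∀ {w : List ℕ}, (∀ a ∈ w, a / 2 < kk) → ∀ a ∈ w, a < 2 * (kk + 1) := by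
    intro w hw a ha
    have := hw a ha
    omega
  have hrep : ∀ m : ℕ, ∀ a ∈ List.replicate m (2 * kk), a < 2 * (kk + 1) := by
    intro m a ha
    rw [List.eq_of_mem_replicate ha]; omega
  have hLc : L e (2 * kk) = e kk := by
    unfold L
    have e3 : (2 * kk) % 2 = 0 := by omega
    have e4 : (2 * kk) / 2 = kk := by omega
    simp [e3, e4]
  have hRE : ∀ w ∈ R, ev e w ∈ Subgroup.zpowers (e kk) := by
    intro w hw
    obtain ⟨j, hj, rfl⟩ := List.mem_iff_getElem.mp hw
    have hz : (R[j], vals[j]'(by omega)) ∈ R.zip vals := by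
      have : (R.zip vals)[j]'(by simp [hlen]; exact hj) = (R[j], vals[j]'(by omega)) := by simp
      rw [← this]; exact List.getElem_mem _
    have hc := List.all_eq_true.mp hrels _ hz
    have := ev_pe_eq hv (hlt (hRk _ hw)) (hrep _) hc
    rw [he, this, ev_replicate, ← he, hLc]
    exact Subgroup.pow_mem _ (Subgroup.mem_zpowers _) _
  have hC : ∀ c ∈ Subgroup.zpowers (e kk), ∀ i < kk, c * e i = e i * c := by
    intro c hc i hi
    have hci : e kk * e i = e i * e kk := by
      have hc' := (allBelow_iff _ _).mp hcomm i hi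
      have := ev_pe_eq hv (w := [2 * kk, 2 * i]) (w' := [2 * i, 2 * kk])
        (by intro a ha; simp at ha; rcases ha with rfl | rfl <;> omega)
        (by intro a ha; simp at ha; rcases ha with rfl | rfl <;> omega) hc'
      rw [← he] at this
      have hLi : L e (2 * i) = e i := by
        unfold L
        have e3 : (2 * i) % 2 = 0 := by omega
        have e4 : (2 * i) / 2 = i := by omega
        simp [e3, e4]
      simpa [hLc, hLi] using this
    obtain ⟨z, rfl⟩ := Subgroup.mem_zpowers_iff.mp hc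
    exact ((Commute.zpow_left (show Commute (e kk) (e i) from hci) z)).eq
  obtain ⟨hs, hk⟩ := graph_central kk gb e (Subgroup.zpowers (e kk)) hgen hC R hRk hRG hRE PB
  obtain ⟨f, hf⟩ := exists_surj_schurM G _ hs hk
  obtain ⟨x, hx⟩ : ∃ x, x = ev (graphGen kk gb e) w0 := ⟨_, rfl⟩
  have hxv : x.1 = (1, e kk ^ m0) := by
    rw [hx, ev_graphGen hw0k, hw0G]
    congr 1
    have := ev_pe_eq hv (hlt hw0k) (hrep _) hw0
    rw [he, this, ev_replicate, ← he, hLc]
  have hxk : x ∈ ((MonoidHom.fst G (Equiv.Perm (Fin N))).comp (graphX kk gb e).subtype).ker := by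
    rw [MonoidHom.mem_ker]
    change x.1.1 = 1
    rw [hxv]
  have hxc : x ∈ commutator (graphX kk gb e) := by
    rw [hx]; exact ev_mem_commutator_of_perm _ hperm
  have hord : orderOf x = p ^ (n + 1) := by
    apply orderOf_eq_prime_pow
    · intro hcon
      have h3 : (x ^ p ^ n).1.2 = 1 := by rw [hcon]; rfl
      have h4 : (x ^ p ^ n).1.2 = (e kk ^ m0) ^ p ^ n := by
        change (x.1 ^ p ^ n).2 = _
        rw [hxv]; rfl
      rw [h4, ← pow_mul, ← hLc, ← ev_replicate] at h3
      have := ev_pe_ne hv (w := List.replicate (m0 * p ^ n) (2 * kk)) (w' := []) (hrep _)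
        (by simp) hN (by simpa [appW] using h2)
      rw [← he] at this
      exact this (by simpa using h3)
    · apply Subtype.ext
      change x.1 ^ p ^ (n + 1) = 1
      rw [hxv]
      apply Prod.ext
      · simp
      · change (e kk ^ m0) ^ p ^ (n + 1) = 1
        rw [← pow_mul, ← hLc, ← ev_replicate]
        have := ev_pe_eq hv (hrep _) (w' := []) (by simp) h1
        rw [← he] at this
        simpa using this
  obtain ⟨m, hm⟩ := hf ⟨x, hxk, hxc⟩
  have h5 : orderOf (f m) ∣ orderOf m := orderOf_map_dvd f m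
  have h6 : orderOf (f m) = orderOf x := by
    rw [hm, ← Subgroup.orderOf_coe]
  rw [← hord, ← h6]
  exact h5.trans (Monoid.order_dvd_exponent m)

end Cfsg.Agent.Lib.Helper66.TCE
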