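import Cfsg.Agent.Lib.Helper66.M22C3D

set_option autoImplicit false
set_option maxRecDepth 100000
namespace Cfsg.Agent.Lib.Helper66.M22C3
open Cfsg.Agent.Lib.Helper66.TCE
theorem chk_valid : chkValid tab 11088 7 = true := by decide +kernel
theorem chk_rels : (RGm.zip vals).all (fun x => chkEq tab 11088 x.1 (List.replicate x.2 12)) = true := by decide +kernel
theorem chk_comm : allBelow (fun i => chkEq tab 11088 [12, 2 * i] [2 * i, 12]) 6 = true := by decide +kernel
theorem chk_w0 : chkEq tab 11088 w0 (List.replicate m0 12) = true := by decide +kernel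
theorem chk_perm : w0.Perm (v0 ++ v0.map flipL) := by decide +kernel
theorem chk_ord1 : chkEq tab 11088 (List.replicate (m0 * 3 ^ (0 + 1)) 12) [] = true := by decide +kernel
theorem chk_ord2 : Nat.beq (appW tab (List.replicate (m0 * 3 ^ 0) 12) 0) 0 = false := by decide +kernel
end Cfsg.Agent.Lib.Helper66.M22C3
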