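import Mathlib

set_option autoImplicit false

namespace Cfsg.Agent.Lib.Helper66

theorem modEq_add_of_dvd (x y M : ℕ) (h : M ∣ y) : x + y ≡ x [MOD M] := by
  simpa using (Nat.modEq_zero_iff_dvd.mpr h).add_left x

/-- The arithmetic behind Beyl's theorem on the multiplier of a metacyclic group. -/
theorem metacyclic_arith (m n r l : ℕ) (hm : 0 < m) (hr : 0 < r)
    (hrn : r ^ n ≡ 1 [MOD m]) :
    ∃ k R e : ℕ,
      k = Nat.gcd l (Nat.gcd m (r - 1) * Nat.gcd m (∑ i ∈ Finset.range n, r ^ i) / m) ∧ 0 < k ∧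
      Nat.gcd (Nat.gcd m (∑ i ∈ Finset.range n, r ^ i)) (m * l / Nat.gcd m (r - 1))
        = (m / Nat.gcd m (r - 1)) * k ∧
      R ≡ r [MOD m] ∧ R ^ n ≡ 1 [MOD m * k] ∧ R * m ≡ m [MOD m * k] ∧
      R * (m * l / Nat.gcd m (r - 1)) ≡ m * l / Nat.gcd m (r - 1) [MOD m * k] ∧
      R * e ≡ m + e [MOD m * k] := by
  obtain ⟨r', rfl⟩ : ∃ r', r = r' + 1 := ⟨r - 1, by omega⟩
  simp only [Nat.add_sub_cancel]
  have hgeo : (∑ i ∈ Finset.range n, (r' + 1) ^ i) * r' + 1 = (r' + 1) ^ n := geom_sum_mul_add r' n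
  generalize hs : (∑ i ∈ Finset.range n, (r' + 1) ^ i) = s at hgeo ⊢
  have hcop0 : (m / Nat.gcd m r').Coprime (r' / Nat.gcd m r') :=
    Nat.coprime_div_gcd_div_gcd (Nat.gcd_pos_of_pos_left _ hm)
  have hdm : Nat.gcd m r' ∣ m := Nat.gcd_dvd_left _ _
  have hdr : Nat.gcd m r' ∣ r' := Nat.gcd_dvd_right _ _
  have hdpos : 0 < Nat.gcd m r' := Nat.gcd_pos_of_pos_left _ hm
  have hmdg : m ∣ Nat.gcd m r' * Nat.gcd m s := by
    have h1 : m ∣ r' * s := by
      rw [← hgeo] at hrn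
      have h2 : s * r' ≡ 0 [MOD m] := Nat.ModEq.add_right_cancel' 1 (by simpa using hrn)
      rw [mul_comm]
      exact Nat.modEq_zero_iff_dvd.mp h2
    have h3 := Nat.gcd_mul_right_dvd_mul_gcd m r' s
    rwa [Nat.gcd_eq_left h1] at h3
  generalize Nat.gcd m r' = d at *
  have hgm : Nat.gcd m s ∣ m := Nat.gcd_dvd_left _ _
  have hgs : Nat.gcd m s ∣ s := Nat.gcd_dvd_right _ _
  have hgpos : 0 < Nat.gcd m s := Nat.gcd_pos_of_pos_left _ hm
  generalize Nat.gcd m s = g at *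
  obtain ⟨m', rfl⟩ := hdm
  obtain ⟨u, rfl⟩ := hdr
  obtain ⟨h, hh⟩ := hmdg
  rw [Nat.mul_div_cancel_left _ hdpos, Nat.mul_div_cancel_left _ hdpos] at hcop0
  have hm'pos : 0 < m' := Nat.pos_of_mul_pos_left hm
  have hg : g = m' * h := by
    have : d * g = d * (m' * h) := by rw [hh]; ring
    exact Nat.eq_of_mul_eq_mul_left hdpos this
  have hhpos : 0 < h := by
    rcases Nat.eq_zero_or_pos h with h0 | h0
    · rw [h0, mul_zero] at hg; omega
    · exact h0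
  have hhd : h ∣ d := by
    rw [hg, mul_comm d m'] at hgm
    exact Nat.dvd_of_mul_dvd_mul_left hm'pos hgm
  have e1 : d * g / (d * m') = h := by rw [hh]; exact Nat.mul_div_cancel_left _ hm
  have e2 : d * m' * l / d = m' * l := by rw [mul_assoc]; exact Nat.mul_div_cancel_left _ hdpos
  have e3 : d * m' / d = m' := Nat.mul_div_cancel_left _ hdpos
  rw [e1, e2, e3]
  have hkpos : 0 < Nat.gcd l h := Nat.gcd_pos_of_pos_right _ hhpos
  have hkl : Nat.gcd l h ∣ l := Nat.gcd_dvd_left _ _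
  have hkh : Nat.gcd l h ∣ h := Nat.gcd_dvd_right _ _
  have hgcd : Nat.gcd g (m' * l) = m' * Nat.gcd l h := by
    rw [hg, Nat.gcd_mul_left, Nat.gcd_comm]
  generalize Nat.gcd l h = k at *
  have hkd : k ∣ d := hkh.trans hhd
  -- the unit `v`
  have : NeZero (m' * k) := ⟨(Nat.mul_pos hm'pos hkpos).ne'⟩
  obtain ⟨vb, hvb⟩ := ZMod.unitsMap_surjective (Dvd.intro k rfl : m' ∣ m' * k)
    (ZMod.unitOfCoprime u hcop0.symm)
  obtain ⟨v, hv⟩ : ∃ v : ℕ, (v : ZMod (m' * k)) = (vb : ZMod (m' * k)) :=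
    ⟨(vb : ZMod (m' * k)).val, ZMod.natCast_zmod_val _⟩
  obtain ⟨e0, he0⟩ : ∃ v : ℕ, (v : ZMod (m' * k)) = ((vb⁻¹ : (ZMod (m' * k))ˣ) : ZMod (m' * k)) :=
    ⟨((vb⁻¹ : (ZMod (m' * k))ˣ) : ZMod (m' * k)).val, ZMod.natCast_zmod_val _⟩
  have hv1 : v ≡ u [MOD m'] := by
    rw [← ZMod.natCast_eq_natCast_iff]
    have h1 := congrArg (fun x : (ZMod m')ˣ => (x : ZMod m')) hvb
    simp only [ZMod.unitsMap_val, ZMod.coe_unitOfCoprime] at h1
    rw [← h1, ← hv, ZMod.cast_natCast (Dvd.intro k rfl : m' ∣ m' * k)]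
  have hv2 : v * e0 ≡ 1 [MOD m' * k] := by
    rw [← ZMod.natCast_eq_natCast_iff]
    push_cast
    rw [hv, he0, Units.mul_inv]
  have hRr : 1 + d * v ≡ d * u + 1 [MOD d * m'] := by
    rw [add_comm]
    exact (hv1.mul_left' d).add_right 1
  refine ⟨k, 1 + d * v, e0 * m', rfl, hkpos, hgcd, hRr, ?_, ?_, ?_, ?_⟩
  · -- `R ^ n ≡ 1`
    have hgeo2 := geom_sum_mul_add (d * v) n
    have hS : (∑ i ∈ Finset.range n, (d * v + 1) ^ i) ≡ ∑ i ∈ Finset.range n, (d * u + 1) ^ i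
        [MOD d * m'] := by
      apply Nat.ModEq.sum
      intro i _
      apply Nat.ModEq.pow
      rw [add_comm]; exact hRr
    rw [hs] at hS
    have h1 : m' * k ∣ d * m' := by
      rw [mul_comm d m']; exact Nat.mul_dvd_mul_left _ hkd
    have h2 : m' * k ∣ s := by
      refine dvd_trans ?_ hgs
      rw [hg]; exact Nat.mul_dvd_mul_left _ hkh
    have h3 : m' * k ∣ ∑ i ∈ Finset.range n, (d * v + 1) ^ i := (hS.dvd_iff h1).mpr h2
    obtain ⟨q, hq⟩ := h3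
    rw [add_comm 1, ← hgeo2, hq, add_comm]
    apply modEq_add_of_dvd
    exact ⟨q * v, by ring⟩
  · have : (1 + d * v) * (d * m') = d * m' + d * v * (d * m') := by ring
    rw [this]
    apply modEq_add_of_dvd
    obtain ⟨q, rfl⟩ := hkd
    exact ⟨q * v, by ring⟩
  · have : (1 + d * v) * (m' * l) = m' * l + d * v * (m' * l) := by ring
    rw [this]
    apply modEq_add_of_dvd
    obtain ⟨q, rfl⟩ := hkl
    exact ⟨v * q, by ring⟩
  · have : (1 + d * v) * (e0 * m') = d * (v * e0) * m' + e0 * m' := by ring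
    rw [this]
    apply Nat.ModEq.add_right
    have h1 := ((hv2.mul_left' d).mul_right m')
    rw [mul_one, ← mul_assoc] at h1
    exact h1

end Cfsg.Agent.Lib.Helper66
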