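import Mathlib

set_option autoImplicit false

namespace Cfsg.Agent.Lib.Helper66

universe u

/-- The split metacyclic group `ZMod M ⋊ ℤ`, where `1 : ℤ` acts by multiplication with the unit `ρ`. -/
@[ext] structure MetaGp (M : ℕ) (ρ : (ZMod M)ˣ) where
  i : ZMod M
  j : ℤ

namespace MetaGp

variable {M : ℕ} {ρ : (ZMod M)ˣ}

instance : Mul (MetaGp M ρ) := ⟨fun x y => ⟨x.i + ((ρ ^ x.j : (ZMod M)ˣ) : ZMod M) * y.i, x.j + y.j⟩⟩
instance : One (MetaGp M ρ) := ⟨⟨0, 0⟩⟩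
instance : Inv (MetaGp M ρ) := ⟨fun x => ⟨-(((ρ ^ (-x.j) : (ZMod M)ˣ) : ZMod M) * x.i), -x.j⟩⟩

@[simp] theorem mul_i (x y : MetaGp M ρ) :
    (x * y).i = x.i + ((ρ ^ x.j : (ZMod M)ˣ) : ZMod M) * y.i := rfl
@[simp] theorem mul_j (x y : MetaGp M ρ) : (x * y).j = x.j + y.j := rfl
@[simp] theorem one_i : (1 : MetaGp M ρ).i = 0 := rfl
@[simp] theorem one_j : (1 : MetaGp M ρ).j = 0 := rfl
@[simp] theorem inv_i (x : MetaGp M ρ) :
    (x⁻¹).i = -(((ρ ^ (-x.j) : (ZMod M)ˣ) : ZMod M) * x.i) := rfl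
@[simp] theorem inv_j (x : MetaGp M ρ) : (x⁻¹).j = -x.j := rfl

instance : Group (MetaGp M ρ) :=
  Group.ofLeftAxioms
    (by
      intro x y z
      ext
      · simp only [mul_i, mul_j, zpow_add, Units.val_mul]; ring
      · simp only [mul_j]; ring)
    (by
      intro x
      ext
      · simp
      · simp)
    (by
      intro x
      ext
      · simp
      · simp)

/-- the generator of the normal cyclic subgroup -/
def al : MetaGp M ρ := ⟨1, 0⟩
/-- the generator of the complement -/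
def be : MetaGp M ρ := ⟨0, 1⟩

theorem al_pow (e : ℕ) : (al : MetaGp M ρ) ^ e = ⟨(e : ZMod M), 0⟩ := by
  induction e with
  | zero => simp; rfl
  | succ e ih =>
    rw [pow_succ, ih]
    ext
    · simp [al]
    · simp [al]

theorem be_zpow (e : ℤ) : (be : MetaGp M ρ) ^ e = ⟨0, e⟩ := by
  induction e using Int.induction_on with
  | zero => simp; rfl
  | succ e ih =>
    rw [zpow_add_one, ih]
    ext
    · simp [be]
    · simp [be]
  | pred e ih =>
    rw [zpow_sub_one, ih]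
    ext
    · simp [be]
    · simp [be]; ring

theorem be_pow (e : ℕ) : (be : MetaGp M ρ) ^ e = ⟨0, (e : ℤ)⟩ := by
  rw [← zpow_natCast, be_zpow]

theorem eq_al_be [NeZero M] (x : MetaGp M ρ) : x = al ^ x.i.val * be ^ x.j := by
  rw [al_pow, be_zpow]
  ext
  · simp
  · simp

section lift

variable {Γ : Type u} [Group Γ] (a b : Γ) (R : ℕ)

theorem apow_add [NeZero M] (ha : a ^ M = 1) (x y : ZMod M) :
    a ^ (x + y).val = a ^ x.val * a ^ y.val := by
  rw [ZMod.val_add, ← pow_eq_pow_mod _ ha, pow_add]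

theorem apow_conj [NeZero M] (ha : a ^ M = 1) (hR : (R : ZMod M) = ρ) (hab : b * a * b⁻¹ = a ^ R)
    (x : ZMod M) : b * a ^ x.val * b⁻¹ = a ^ ((ρ : ZMod M) * x).val := by
  rw [← conj_pow, hab, ← hR, ZMod.val_mul, ← pow_eq_pow_mod _ ha, ZMod.val_natCast, pow_mul,
    ← pow_eq_pow_mod _ ha]

theorem apow_conj_inv [NeZero M] (ha : a ^ M = 1) (hR : (R : ZMod M) = ρ)
    (hab : b * a * b⁻¹ = a ^ R) (x : ZMod M) :
    b⁻¹ * a ^ x.val * b = a ^ (((ρ⁻¹ : (ZMod M)ˣ) : ZMod M) * x).val := by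
  have h := apow_conj (ρ := ρ) a b R ha hR hab (((ρ⁻¹ : (ZMod M)ˣ) : ZMod M) * x)
  rw [← mul_assoc, Units.mul_inv, one_mul] at h
  rw [← h]; group

theorem apow_conj_zpow [NeZero M] (ha : a ^ M = 1) (hR : (R : ZMod M) = ρ)
    (hab : b * a * b⁻¹ = a ^ R) (j : ℤ) (x : ZMod M) :
    b ^ j * a ^ x.val * (b ^ j)⁻¹ = a ^ (((ρ ^ j : (ZMod M)ˣ) : ZMod M) * x).val := by
  induction j using Int.induction_on generalizing x with
  | zero => simp
  | succ j ih =>
    have e1 : b ^ ((j : ℤ) + 1) * a ^ x.val * (b ^ ((j : ℤ) + 1))⁻¹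
        = b * (b ^ (j : ℤ) * a ^ x.val * (b ^ (j : ℤ))⁻¹) * b⁻¹ := by
      rw [zpow_add_one]
      have : Commute (b ^ (j : ℤ)) b := (Commute.refl b).zpow_left _
      rw [this.eq]; group
    rw [e1, ih, apow_conj (ρ := ρ) a b R ha hR hab, ← mul_assoc, ← Units.val_mul, zpow_add_one,
      mul_comm ρ]
  | pred j ih =>
    have e1 : b ^ (-(j : ℤ) - 1) * a ^ x.val * (b ^ (-(j : ℤ) - 1))⁻¹
        = b⁻¹ * (b ^ (-(j : ℤ)) * a ^ x.val * (b ^ (-(j : ℤ)))⁻¹) * b := by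
      rw [zpow_sub_one]
      have : Commute (b ^ (-(j : ℤ))) b⁻¹ := ((Commute.refl b).zpow_left _).inv_right
      rw [this.eq]; group
    rw [e1, ih, apow_conj_inv (ρ := ρ) a b R ha hR hab, ← mul_assoc, ← Units.val_mul, zpow_sub_one,
      mul_comm ρ⁻¹]

/-- The homomorphism from the model to a group with elements satisfying the relations. -/
def lift [NeZero M] (ha : a ^ M = 1) (hR : (R : ZMod M) = ρ) (hab : b * a * b⁻¹ = a ^ R) :
    MetaGp M ρ →* Γ where
  toFun x := a ^ x.i.val * b ^ x.j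
  map_one' := by simp
  map_mul' := by
    intro x y
    simp only [mul_i, mul_j]
    rw [apow_add a ha, ← apow_conj_zpow (ρ := ρ) a b R ha hR hab, zpow_add]
    group

theorem lift_apply [NeZero M] (ha : a ^ M = 1) (hR : (R : ZMod M) = ρ) (hab : b * a * b⁻¹ = a ^ R)
    (x : MetaGp M ρ) : lift a b R ha hR hab x = a ^ x.i.val * b ^ x.j := rfl

end lift

end MetaGp

end Cfsg.Agent.Lib.Helper66
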