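import Mathlib
import Cfsg.Agent.Lib.Helper66.StemLemmas

set_option autoImplicit false

namespace Cfsg.Agent.Lib.Helper66

open scoped commutatorElement

universe u v

/-- Upper bound for the multiplier of a metacyclic group: in every central extension `ξ : X → G` of
`G = ⟨a, b⟩`, `a ^ m = 1`, `b ^ n = a ^ t`, `b a b⁻¹ = a ^ r`, the group `ker ξ ⊓ X'` is generated by
`w ^ (m / gcd m (r - 1))`, where `w ^ m = w ^ t = w ^ s = 1`. -/
theorem metacyclic_upper {G : Type u} {X : Type v} [Group G] [Group X] (a b : G) (m n r t : ℕ)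
    (hm : 0 < m) (hn : 0 < n) (hr : 0 < r) (hrn : r ^ n ≡ 1 [MOD m])
    (hgen : Subgroup.closure ({a, b} : Set G) = ⊤) (ha : orderOf a = m) (hb : b ^ n = a ^ t)
    (hab : b * a * b⁻¹ = a ^ r) (ξ : X →* G) (hsurj : Function.Surjective ξ)
    (hker : ξ.ker ≤ Subgroup.center X) :
    ∃ w : X, w ^ m = 1 ∧ w ^ t = 1 ∧ w ^ (∑ i ∈ Finset.range n, r ^ i) = 1 ∧
      w ^ (m / Nat.gcd m (r - 1)) ∈ ξ.ker ⊓ commutator X ∧
      ∀ x ∈ ξ.ker ⊓ commutator X, x ∈ Subgroup.zpowers (w ^ (m / Nat.gcd m (r - 1))) := by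
  obtain ⟨r', rfl⟩ : ∃ r', r = r' + 1 := ⟨r - 1, by omega⟩
  simp only [Nat.add_sub_cancel]
  obtain ⟨α, hα⟩ := hsurj a
  obtain ⟨β, hβ⟩ := hsurj b
  have ham : a ^ m = 1 := by rw [← ha]; exact pow_orderOf_eq_one a
  -- central elements
  obtain ⟨Z, hZ⟩ : ∃ Z : X, Z = β * α * β⁻¹ * (α ^ (r' + 1))⁻¹ := ⟨_, rfl⟩
  have hZker : Z ∈ ξ.ker := by
    rw [MonoidHom.mem_ker, hZ]
    simp only [map_mul, map_inv, map_pow, hα, hβ, hab, mul_inv_cancel]
  have hZc : ∀ x : X, Commute Z x := fun x => ((Subgroup.mem_center_iff.mp (hker hZker)) x).symm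
  have h1 : β * α * β⁻¹ = Z * α ^ (r' + 1) := by rw [hZ]; group
  obtain ⟨w, hw⟩ : ∃ w : X, w = Z * α ^ r' := ⟨_, rfl⟩
  have hwα : β * α * β⁻¹ = w * α := by rw [h1, hw, pow_succ, mul_assoc]
  have hcwα : Commute w α := by
    rw [hw]; exact (hZc α).mul_left ((Commute.refl α).pow_left r')
  have hconjZ : β * Z * β⁻¹ = Z := by
    rw [(hZc β).symm.eq, mul_assoc, mul_inv_cancel, mul_one]
  have hwβ : β * w * β⁻¹ = w ^ (r' + 1) := by
    have e1 : β * w * β⁻¹ = (β * Z * β⁻¹) * (β * α * β⁻¹) ^ r' := by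
      rw [conj_pow, hw]; group
    rw [e1, hconjZ, hwα, hcwα.mul_pow, ← mul_assoc, ((hZc (w ^ r'))).eq, mul_assoc, ← hw, pow_succ]
  have hpowα : ∀ e : ℕ, β * α ^ e * β⁻¹ = w ^ e * α ^ e := by
    intro e
    rw [← conj_pow, hwα, hcwα.mul_pow]
  have hpoww : ∀ e : ℕ, β * w ^ e * β⁻¹ = w ^ ((r' + 1) * e) := by
    intro e
    rw [← conj_pow, hwβ, pow_mul]
  have hβj : ∀ j : ℕ, β ^ j * α * (β ^ j)⁻¹ = w ^ (∑ i ∈ Finset.range j, (r' + 1) ^ i) * α := by
    intro j
    induction j with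
    | zero => simp
    | succ j ih =>
      have e1 : β ^ (j + 1) * α * (β ^ (j + 1))⁻¹ = β * (β ^ j * α * (β ^ j)⁻¹) * β⁻¹ := by
        rw [pow_succ']; group
      have e2 : ∀ x y : X, β * (x * y) * β⁻¹ = (β * x * β⁻¹) * (β * y * β⁻¹) := by
        intro x y; group
      rw [e1, ih, e2, hpoww, hwα, ← mul_assoc, ← pow_succ, geom_sum_succ]
  -- `w ^ m = 1`
  have hαm : α ^ m ∈ ξ.ker := by
    rw [MonoidHom.mem_ker, map_pow, hα, ham]
  have hαmc : ∀ x : X, Commute (α ^ m) x :=
    fun x => ((Subgroup.mem_center_iff.mp (hker hαm)) x).symm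
  have hwm : w ^ m = 1 := by
    have e1 := hpowα m
    rw [(hαmc β).symm.eq, mul_assoc, mul_inv_cancel, mul_one] at e1
    exact (mul_eq_right.mp e1.symm)
  -- second central element
  obtain ⟨Z2, hZ2⟩ : ∃ Z2 : X, Z2 = β ^ n * (α ^ t)⁻¹ := ⟨_, rfl⟩
  have hZ2ker : Z2 ∈ ξ.ker := by
    rw [MonoidHom.mem_ker, hZ2]
    simp only [map_mul, map_inv, map_pow, hα, hβ, hb, mul_inv_cancel]
  have hZ2c : ∀ x : X, Commute Z2 x := fun x => ((Subgroup.mem_center_iff.mp (hker hZ2ker)) x).symm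
  have hβn : β ^ n = Z2 * α ^ t := by rw [hZ2]; group
  have hαt : α ^ t = Z2⁻¹ * β ^ n := by rw [hβn]; group
  have hwt : w ^ t = 1 := by
    have e1 := hpowα t
    have e2 : Commute β (α ^ t) := by
      rw [hαt]
      exact ((hZ2c β).symm.inv_right).mul_right ((Commute.refl β).pow_right n)
    rw [e2.eq, mul_assoc, mul_inv_cancel, mul_one] at e1
    exact (mul_eq_right.mp e1.symm)
  have hws : w ^ (∑ i ∈ Finset.range n, (r' + 1) ^ i) = 1 := by
    have e1 := hβj n
    have e2 : Commute (β ^ n) α := by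
      rw [hβn]
      exact (hZ2c α).mul_left ((Commute.refl α).pow_left t)
    rw [e2.eq, mul_assoc, mul_inv_cancel, mul_one] at e1
    exact (mul_eq_right.mp e1.symm)
  -- normality of `zpowers w`
  have hβinv : β⁻¹ * w * β = w ^ ((r' + 1) ^ (n - 1)) := by
    have e1 : β * w ^ ((r' + 1) ^ (n - 1)) * β⁻¹ = w := by
      rw [hpoww, ← pow_succ', Nat.sub_add_cancel hn]
      have : w ^ ((r' + 1) ^ n) = w ^ 1 := by
        rw [pow_eq_pow_iff_modEq]
        exact hrn.of_dvd (orderOf_dvd_of_pow_eq_one hwm)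
      rw [this, pow_one]
    calc β⁻¹ * w * β = β⁻¹ * (β * w ^ ((r' + 1) ^ (n - 1)) * β⁻¹) * β := by rw [e1]
      _ = w ^ ((r' + 1) ^ (n - 1)) := by group
  have htop : Subgroup.closure (({α, β} : Set X) ∪ (ξ.ker : Set X)) = ⊤ := by
    rw [Subgroup.closure_union, Subgroup.closure_eq, ← Subgroup.comap_map_eq, MonoidHom.map_closure,
      Set.image_pair, hα, hβ, hgen, Subgroup.comap_top]
  have hnorm : (Subgroup.zpowers w).Normal := by
    have key : ∀ g : X, g * w * g⁻¹ ∈ Subgroup.zpowers w ∧ g⁻¹ * w * g ∈ Subgroup.zpowers w := by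
      intro g
      have hg : g ∈ Subgroup.closure (({α, β} : Set X) ∪ (ξ.ker : Set X)) := by rw [htop]; trivial
      induction hg using Subgroup.closure_induction with
      | mem s hs =>
        rcases hs with (hs | hs) | hs
        · rw [hs]
          constructor
          · rw [hcwα.symm.eq, mul_assoc, mul_inv_cancel, mul_one]
            exact Subgroup.mem_zpowers w
          · rw [mul_assoc, hcwα.eq, ← mul_assoc, inv_mul_cancel, one_mul]
            exact Subgroup.mem_zpowers w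
        · rw [Set.mem_singleton_iff] at hs
          rw [hs]
          constructor
          · rw [hwβ]; exact Subgroup.npow_mem_zpowers w _
          · rw [hβinv]; exact Subgroup.npow_mem_zpowers w _
        · have hc : Commute s w := ((Subgroup.mem_center_iff.mp (hker hs)) w).symm
          constructor
          · rw [hc.eq, mul_assoc, mul_inv_cancel, mul_one]
            exact Subgroup.mem_zpowers w
          · rw [mul_assoc, hc.symm.eq, ← mul_assoc, inv_mul_cancel, one_mul]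
            exact Subgroup.mem_zpowers w
      | one => simp
      | mul x y _ _ hx hy =>
        constructor
        · obtain ⟨e, he⟩ := Subgroup.mem_zpowers_iff.mp hy.1
          have : x * y * w * (x * y)⁻¹ = x * (y * w * y⁻¹) * x⁻¹ := by group
          rw [this, ← he, ← conj_zpow]
          exact Subgroup.zpow_mem _ hx.1 e
        · obtain ⟨e, he⟩ := Subgroup.mem_zpowers_iff.mp hx.2
          have : (x * y)⁻¹ * w * (x * y) = y⁻¹ * (x⁻¹ * w * x) * y⁻¹⁻¹ := by group
          rw [this, ← he, ← conj_zpow, inv_inv]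
          exact Subgroup.zpow_mem _ hy.2 e
      | inv x _ hx =>
        refine ⟨?_, ?_⟩
        · simpa using hx.2
        · simpa using hx.1
    constructor
    intro x hx g
    obtain ⟨e, he⟩ := Subgroup.mem_zpowers_iff.mp hx
    rw [← he, ← conj_zpow]
    exact Subgroup.zpow_mem _ (key g).1 e
  have hcomm : commutator X ≤ Subgroup.zpowers w := by
    apply commutator_le_of_closure _ htop
    have hβα : ⁅β, α⁆ = w := by
      rw [commutatorElement_def, hwα, mul_assoc, mul_inv_cancel, mul_one]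
    have hcen : ∀ s ∈ (ξ.ker : Set X), ∀ x : X, ⁅s, x⁆ = 1 ∧ ⁅x, s⁆ = 1 := by
      intro s hs x
      have hc : Commute s x := ((Subgroup.mem_center_iff.mp (hker hs)) x).symm
      exact ⟨commutatorElement_eq_one_iff_commute.mpr hc,
        commutatorElement_eq_one_iff_commute.mpr hc.symm⟩
    rintro s ((hs | hs) | hs) x ((hx | hx) | hx)
    · rw [hs, hx, commutatorElement_self]; exact one_mem _
    · rw [Set.mem_singleton_iff] at hx
      rw [hs, hx, ← commutatorElement_inv, hβα]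
      exact inv_mem (Subgroup.mem_zpowers w)
    · rw [(hcen x hx s).2]; exact one_mem _
    · rw [Set.mem_singleton_iff] at hs
      rw [hs, hx, hβα]
      exact Subgroup.mem_zpowers w
    · rw [Set.mem_singleton_iff] at hs hx
      rw [hs, hx, commutatorElement_self]; exact one_mem _
    · rw [(hcen x hx s).2]; exact one_mem _
    · rw [(hcen s hs x).1]; exact one_mem _
    · rw [(hcen s hs x).1]; exact one_mem _
    · rw [(hcen s hs x).1]; exact one_mem _
  have hξw : ξ w = a ^ r' := by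
    rw [hw, map_mul, MonoidHom.mem_ker.mp hZker, one_mul, map_pow, hα]
  have hord : orderOf (a ^ r') = m / Nat.gcd m r' := by
    have hfin : IsOfFinOrder a := isOfFinOrder_iff_pow_eq_one.mpr ⟨m, hm, ham⟩
    rw [hfin.orderOf_pow, ha]
  refine ⟨w, hwm, hwt, hws, ⟨?_, ?_⟩, ?_⟩
  · change w ^ (m / m.gcd r') ∈ ξ.ker
    rw [MonoidHom.mem_ker, map_pow, hξw, ← hord]
    exact pow_orderOf_eq_one _
  · apply Subgroup.pow_mem
    have hβα : ⁅β, α⁆ = w := by
      rw [commutatorElement_def, hwα, mul_assoc, mul_inv_cancel, mul_one]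
    rw [← hβα]
    exact Subgroup.commutator_mem_commutator (Subgroup.mem_top _) (Subgroup.mem_top _)
  · rintro x ⟨hx1, hx2⟩
    obtain ⟨e, he⟩ := Subgroup.mem_zpowers_iff.mp (hcomm hx2)
    have h2 : (a ^ r') ^ e = 1 := by
      rw [← hξw, ← map_zpow, he]
      exact hx1
    rw [← orderOf_dvd_iff_zpow_eq_one, hord] at h2
    obtain ⟨f, hf⟩ := h2
    rw [Subgroup.mem_zpowers_iff]
    refine ⟨f, ?_⟩
    rw [← he, hf, zpow_mul, zpow_natCast]

end Cfsg.Agent.Lib.Helper66
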