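import Mathlib
import Cfsg.Agent.Lib.Helper66.SchurMain
import Cfsg.Agent.Lib.Helper66.MetaUpper
import Cfsg.Agent.Lib.Helper66.MetaModel
import Cfsg.Agent.Lib.Helper66.MetaArith

set_option autoImplicit false

namespace Cfsg.Agent.Lib.Helper66

open scoped commutatorElement

universe u

namespace MetaGp

variable {M : ℕ} {ρ : (ZMod M)ˣ}

theorem zpow_mul_eq_of_mul_eq {c : ZMod M} (h : (ρ : ZMod M) * c = c) (j : ℤ) :
    ((ρ ^ j : (ZMod M)ˣ) : ZMod M) * c = c := by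
  have h1 : ρ ∈ MulAction.stabilizer (ZMod M)ˣ c := by
    rw [MulAction.mem_stabilizer_iff, Units.smul_def]; exact h
  have h2 := Subgroup.zpow_mem _ h1 j
  rw [MulAction.mem_stabilizer_iff, Units.smul_def] at h2
  exact h2

theorem mk_pow (x : ZMod M) (e : ℕ) : (⟨x, 0⟩ : MetaGp M ρ) ^ e = ⟨e * x, 0⟩ := by
  induction e with
  | zero => simp; rfl
  | succ e ih =>
    rw [pow_succ, ih]
    ext
    · simp; ring
    · simp

/-- The central subgroup generated by `al ^ m` and `al ^ (-t) * be ^ n`. -/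
def Ksub (m n t : ℕ) (hρn : ρ ^ n = 1) : Subgroup (MetaGp M ρ) where
  carrier := {x | ∃ e f : ℤ, x.i = (m : ZMod M) * f - t * e ∧ x.j = n * e}
  mul_mem' := by
    rintro x y ⟨e, f, h1, h2⟩ ⟨e', f', h1', h2'⟩
    refine ⟨e + e', f + f', ?_, ?_⟩
    · have : ρ ^ x.j = 1 := by rw [h2, zpow_mul, zpow_natCast, hρn, one_zpow]
      rw [mul_i, this, h1, h1']
      push_cast; ring
    · rw [mul_j, h2, h2']; ring
  one_mem' := ⟨0, 0, by simp, by simp⟩
  inv_mem' := by
    rintro x ⟨e, f, h1, h2⟩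
    refine ⟨-e, -f, ?_, ?_⟩
    · have : ρ ^ (-x.j) = 1 := by rw [h2, zpow_neg, zpow_mul, zpow_natCast, hρn, one_zpow, inv_one]
      rw [inv_i, this, h1]
      push_cast; ring
    · rw [inv_j, h2]; ring

theorem mem_Ksub {m n t : ℕ} {hρn : ρ ^ n = 1} {x : MetaGp M ρ} :
    x ∈ Ksub m n t hρn ↔ ∃ e f : ℤ, x.i = (m : ZMod M) * f - t * e ∧ x.j = n * e := Iff.rfl

theorem Ksub_le_center {m n t : ℕ} {hρn : ρ ^ n = 1} (hm : (ρ : ZMod M) * m = m)
    (ht : (ρ : ZMod M) * t = t) : Ksub m n t hρn ≤ Subgroup.center (MetaGp M ρ) := by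
  rintro x ⟨e, f, h1, h2⟩
  rw [Subgroup.mem_center_iff]
  intro y
  have h3 : ρ ^ x.j = 1 := by rw [h2, zpow_mul, zpow_natCast, hρn, one_zpow]
  have h4 : (ρ : ZMod M) * x.i = x.i := by
    rw [h1, mul_sub, ← mul_assoc, ← mul_assoc, hm, ht]
  ext
  · rw [mul_i, mul_i, h3, zpow_mul_eq_of_mul_eq h4]
    simp [add_comm]
  · rw [mul_j, mul_j, add_comm]

end MetaGp

open MetaGp in
/-- **Beyl's theorem**, abstract form. -/
theorem metacyclic_main {G : Type u} [Group G] (a b : G) (m n r l : ℕ)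
    (hm : 0 < m) (hn : 0 < n) (hr : 0 < r) (hrn : r ^ n ≡ 1 [MOD m])
    (hgen : Subgroup.closure ({a, b} : Set G) = ⊤) (ham : a ^ m = 1)
    (hbn : b ^ n = a ^ (m * l / Nat.gcd m (r - 1))) (hab : b * a * b⁻¹ = a ^ r)
    (huniv : ∀ (Y : Type) [Group Y] (x y : Y), x ^ m = 1 → y ^ n = x ^ (m * l / Nat.gcd m (r - 1)) →
      y * x * y⁻¹ = x ^ r → ∃ φ : G →* Y, φ a = x ∧ φ b = y) :
    Cfsg.HasCyclicSchurMultiplier G
      (Nat.gcd l (Nat.gcd m (r - 1) * Nat.gcd m (∑ i ∈ Finset.range n, r ^ i) / m)) := by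
  obtain ⟨k, R, e, hk, hkpos, hgcd, hRr, hRn, hRm, hRt, hRe⟩ := metacyclic_arith m n r l hm hr hrn
  rw [← hk]
  generalize m * l / Nat.gcd m (r - 1) = t at *
  have hMne : NeZero (m * k) := ⟨(Nat.mul_pos hm hkpos).ne'⟩
  have hR1 : (R : ZMod (m * k)) ^ n = 1 := by
    have := (ZMod.natCast_eq_natCast_iff _ _ _).mpr hRn
    push_cast at this; exact this
  obtain ⟨ρ, hρ, hρn⟩ : ∃ ρ : (ZMod (m * k))ˣ, (R : ZMod (m * k)) = ρ ∧ ρ ^ n = 1 :=
    ⟨Units.ofPowEqOne _ n hR1 hn.ne', (Units.val_ofPowEqOne _ _ _ _).symm,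
      Units.pow_ofPowEqOne hR1 hn.ne'⟩
  have hρm : (ρ : ZMod (m * k)) * (m : ℕ) = (m : ℕ) := by
    have := (ZMod.natCast_eq_natCast_iff _ _ _).mpr hRm
    rw [← hρ]; push_cast at this; exact this
  have hρt : (ρ : ZMod (m * k)) * (t : ℕ) = (t : ℕ) := by
    have := (ZMod.natCast_eq_natCast_iff _ _ _).mpr hRt
    rw [← hρ]; push_cast at this; exact this
  have hρe : (ρ : ZMod (m * k)) * (e : ℕ) = (m : ℕ) + (e : ℕ) := by
    have := (ZMod.natCast_eq_natCast_iff _ _ _).mpr hRe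
    rw [← hρ]; push_cast at this; exact this
  have hKc : Ksub m n t hρn ≤ Subgroup.center (MetaGp (m * k) ρ) := Ksub_le_center hρm hρt
  have hKn : (Ksub m n t hρn).Normal := normal_of_le_center hKc
  -- the relations in the model
  have hrel1 : (al : MetaGp (m * k) ρ) ^ m ∈ Ksub m n t hρn := by
    rw [al_pow]; exact ⟨0, 1, by simp, by simp⟩
  have hrel2 : ((al : MetaGp (m * k) ρ) ^ t)⁻¹ * be ^ n ∈ Ksub m n t hρn := by
    rw [al_pow, be_pow]; exact ⟨1, 0, by simp, by simp⟩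
  have hrel3 : (be : MetaGp (m * k) ρ) * al * be⁻¹ = al ^ R := by
    rw [al_pow]
    ext
    · simp [al, be, hρ]
    · simp [al, be]
  have hrel4 : ((al : MetaGp (m * k) ρ) ^ r)⁻¹ * al ^ R ∈ Ksub m n t hρn := by
    rw [al_pow, al_pow]
    obtain ⟨f, hf⟩ := (Nat.modEq_iff_dvd.mp hRr.symm)
    refine ⟨0, f, ?_, by simp⟩
    have h2 : ((R : ℤ) : ZMod (m * k)) - ((r : ℤ) : ZMod (m * k)) = ((m : ℤ) : ZMod (m * k)) * f := by
      rw [← Int.cast_sub, hf, Int.cast_mul]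
    simp only [Int.cast_natCast] at h2
    simp only [mul_i, inv_i, inv_j, neg_zero, zpow_zero, Units.val_one, one_mul, Int.cast_zero,
      mul_zero, sub_zero]
    rw [← h2]; ring
  obtain ⟨φ, hφa, hφb⟩ := huniv (MetaGp (m * k) ρ ⧸ Ksub m n t hρn)
    (QuotientGroup.mk al) (QuotientGroup.mk be)
    (by rw [← QuotientGroup.mk_pow, QuotientGroup.eq_one_iff]; exact hrel1)
    (by
      rw [← QuotientGroup.mk_pow, ← QuotientGroup.mk_pow, eq_comm, QuotientGroup.eq]; exact hrel2)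
    (by
      rw [← QuotientGroup.mk_inv, ← QuotientGroup.mk_mul, ← QuotientGroup.mk_mul,
        ← QuotientGroup.mk_pow, hrel3, eq_comm, QuotientGroup.eq]
      exact hrel4)
  have haM : a ^ (m * k) = 1 := by rw [pow_mul, ham, one_pow]
  have hab' : b * a * b⁻¹ = a ^ R := by
    rw [hab, pow_eq_pow_iff_modEq]
    exact hRr.symm.of_dvd (orderOf_dvd_of_pow_eq_one ham)
  obtain ⟨ψ, hψ⟩ : ∃ ψ : MetaGp (m * k) ρ →* G, ∀ x, ψ x = a ^ x.i.val * b ^ x.j :=
    ⟨MetaGp.lift a b R haM hρ hab', fun x => rfl⟩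
  have hφψ : ∀ x, φ (ψ x) = QuotientGroup.mk x := by
    intro x
    rw [hψ, map_mul, map_pow, map_zpow, hφa, hφb, ← QuotientGroup.mk_pow, ← QuotientGroup.mk_zpow,
      ← QuotientGroup.mk_mul, ← eq_al_be]
  have hkerψ : ψ.ker ≤ Ksub m n t hρn := by
    intro x hx
    rw [← QuotientGroup.eq_one_iff, ← hφψ, MonoidHom.mem_ker.mp hx, map_one]
  have hψal : ψ al = a := by
    rw [hψ]
    simp only [al, zpow_zero, mul_one]
    rw [ZMod.val_one_eq_one_mod, ← pow_eq_pow_mod _ haM, pow_one]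
  have hψbe : ψ be = b := by
    rw [hψ]
    simp [be]
  have hψsurj : Function.Surjective ψ := by
    rw [← MonoidHom.range_eq_top, eq_top_iff, ← hgen, Subgroup.closure_le]
    rintro x (hx | hx)
    · exact ⟨al, by rw [hψal, hx]⟩
    · rw [Set.mem_singleton_iff] at hx
      exact ⟨be, by rw [hψbe, hx]⟩
  have horda : orderOf a = m := by
    apply Nat.dvd_antisymm (orderOf_dvd_of_pow_eq_one ham)
    have h1 : (al : MetaGp (m * k) ρ) ^ orderOf a ∈ Ksub m n t hρn := by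
      apply hkerψ
      rw [MonoidHom.mem_ker, map_pow, hψal, pow_orderOf_eq_one]
    rw [al_pow] at h1
    obtain ⟨e', f, h2, h3⟩ := h1
    simp only at h2 h3
    have he' : e' = 0 := by
      rcases mul_eq_zero.mp h3.symm with h | h
      · exact absurd (by exact_mod_cast h) hn.ne'
      · exact h
    rw [he'] at h2
    simp only [Int.cast_zero, mul_zero, sub_zero] at h2
    have h4 : (((orderOf a : ℤ) - m * f : ℤ) : ZMod (m * k)) = 0 := by
      push_cast; rw [h2]; ring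
    rw [ZMod.intCast_zmod_eq_zero_iff_dvd] at h4
    have h5 : (m : ℤ) ∣ (orderOf a : ℤ) - m * f := by
      refine dvd_trans ?_ h4
      push_cast
      exact Dvd.intro _ rfl
    have h6 : (m : ℤ) ∣ (orderOf a : ℤ) := by
      have := dvd_add h5 (Dvd.intro f rfl : (m : ℤ) ∣ m * f)
      simpa using this
    exact_mod_cast h6
  -- finiteness
  have hfinG : Finite G := by
    have hfo : IsOfFinOrder a := isOfFinOrder_iff_pow_eq_one.mpr ⟨m, hm, ham⟩
    have hfz : Finite (Subgroup.zpowers a) := hfo.finite_zpowers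
    let F : Subgroup.zpowers a × Fin n → G := fun p => (p.1 : G) * b ^ (p.2 : ℕ)
    apply Finite.of_surjective F
    intro g
    obtain ⟨x, rfl⟩ := hψsurj g
    have hn' : (0 : ℤ) < n := by exact_mod_cast hn
    have h0 : 0 ≤ x.j % n := Int.emod_nonneg _ hn'.ne'
    have h1 : x.j % n < n := Int.emod_lt_of_pos _ hn'
    refine ⟨(⟨a ^ x.i.val * (a ^ t) ^ (x.j / n), ?_⟩, ⟨(x.j % n).toNat, by omega⟩), ?_⟩
    · exact mul_mem (Subgroup.npow_mem_zpowers _ _)
        (Subgroup.zpow_mem _ (Subgroup.npow_mem_zpowers _ _) _)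
    · simp only [F]
      rw [hψ, mul_assoc, ← hbn, ← zpow_natCast b (x.j % n).toNat, Int.toNat_of_nonneg h0,
        ← zpow_natCast b n, ← zpow_mul, ← zpow_add, add_comm, Int.emod_add_mul_ediv]
  -- upper bound
  obtain ⟨w, hwm, hwt, hws, hwmem, hwall⟩ := metacyclic_upper a b m n r t hm hn hr hrn hgen horda hbn
    hab (fcProj G) (fcProj_surjective G) (ker_fcProj_le_center G)
  have hck : (w ^ (m / Nat.gcd m (r - 1))) ^ k = 1 := by
    rw [← pow_mul, ← hgcd, ← orderOf_dvd_iff_pow_eq_one]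
    exact Nat.dvd_gcd (Nat.dvd_gcd (orderOf_dvd_of_pow_eq_one hwm) (orderOf_dvd_of_pow_eq_one hws))
      (orderOf_dvd_of_pow_eq_one hwt)
  obtain ⟨π, hπ⟩ := exists_surj_zmod_of_zpowers (H := schurM G)
    ⟨w ^ (m / Nat.gcd m (r - 1)), hwmem⟩ k (Subtype.ext (by simpa using hck))
    (by
      intro x
      obtain ⟨j, hj⟩ := Subgroup.mem_zpowers_iff.mp (hwall x.1 x.2)
      rw [Subgroup.mem_zpowers_iff]
      exact ⟨j, Subtype.ext (by simpa using hj)⟩)
  -- lower bound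
  obtain ⟨f, hf⟩ := exists_surj_schurM G ψ hψsurj (hkerψ.trans hKc)
  have hfin2 : Finite ↥(ψ.ker ⊓ commutator (MetaGp (m * k) ρ)) := Finite.of_surjective f hf
  have hy : (al : MetaGp (m * k) ρ) ^ m ∈ ψ.ker ⊓ commutator (MetaGp (m * k) ρ) := by
    constructor
    · change _ ∈ ψ.ker
      rw [MonoidHom.mem_ker, map_pow, hψal, ham]
    · have h1 : ⁅(be : MetaGp (m * k) ρ), (al : MetaGp (m * k) ρ)⁆ = ⟨(ρ : ZMod (m * k)) - 1, 0⟩ := by
        rw [commutatorElement_def, hrel3, al_pow]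
        ext
        · simp [al, hρ]; ring
        · simp [al]
      have h2 : (al : MetaGp (m * k) ρ) ^ m = ⁅(be : MetaGp (m * k) ρ), (al : MetaGp (m * k) ρ)⁆ ^ e := by
        rw [h1, mk_pow, al_pow]
        ext
        · simp only
          rw [mul_sub, mul_comm (e : ZMod (m * k)) (ρ : ZMod (m * k)), hρe]; ring
        · rfl
      rw [h2]
      exact Subgroup.pow_mem _
        (Subgroup.commutator_mem_commutator (Subgroup.mem_top _) (Subgroup.mem_top _)) _
  have hlow : k ≤ Nat.card ↥(ψ.ker ⊓ commutator (MetaGp (m * k) ρ)) := by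
    refine le_trans ?_ (orderOf_le_card (x := (⟨_, hy⟩ : ↥(ψ.ker ⊓ commutator (MetaGp (m * k) ρ)))))
    have hpos := orderOf_pos (⟨_, hy⟩ : ↥(ψ.ker ⊓ commutator (MetaGp (m * k) ρ)))
    rw [Subgroup.orderOf_mk] at hpos ⊢
    apply Nat.le_of_dvd hpos
    have h1 := pow_orderOf_eq_one ((al : MetaGp (m * k) ρ) ^ m)
    rw [← pow_mul, al_pow] at h1
    have h2 := congrArg MetaGp.i h1
    simp only [one_i] at h2
    rw [ZMod.natCast_eq_zero_iff] at h2
    exact Nat.dvd_of_mul_dvd_mul_left hm h2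
  have hkne : NeZero k := ⟨hkpos.ne'⟩
  have hcard1 : Nat.card (Multiplicative (ZMod k)) = k := by
    rw [Nat.card_congr Multiplicative.toAdd, Nat.card_zmod]
  have hbij : Function.Bijective π := by
    rw [Nat.bijective_iff_surjective_and_card]
    refine ⟨hπ, le_antisymm ?_ (Nat.card_le_card_of_surjective π hπ)⟩
    rw [hcard1]
    exact hlow.trans (Nat.card_le_card_of_surjective f hf)
  exact hasSchurMultiplier_iff.mpr ⟨MulEquiv.ofBijective π hbij⟩

end Cfsg.Agent.Lib.Helper66
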