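import Cfsg.Agent.Lib.Helper66.PermModel

/-! # Permutation models with several central generators; homomorphisms from presentation bounds -/

set_option autoImplicit false

namespace Cfsg.Agent.Lib.Helper66.TCE

open Cfsg.Agent.Lib.Helper66

theorem ev_pe_ne_at {tab : ℕ → ℕ → ℕ} {N k : ℕ} (h : chkValid tab N k = true) {w w' : List ℕ}
    (hw : ∀ a ∈ w, a < 2 * k) (hw' : ∀ a ∈ w', a < 2 * k) (p : ℕ) (hp : p < N)
    (hc : Nat.beq (appW tab w p) (appW tab w' p) = false) :
    ev (pe tab N k h) w ≠ ev (pe tab N k h) w' := by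
  intro he
  have h1 := ev_pe h hw ⟨p, hp⟩
  have h2 := ev_pe h hw' ⟨p, hp⟩
  rw [he, h2] at h1
  rw [← h1, Nat.beq_refl] at hc
  exact Bool.noConfusion hc

/-- A permutation model of a central extension, with `nc` central generators: every balanced word
that is trivial in `G` takes a value in the image of a homomorphism from the multiplier. -/
theorem model_hom {G : Type} [Group G] [Finite G] (gb : ℕ → G) (kk nc : ℕ)
    (hgen : Subgroup.closure {x | ∃ i < kk, x = gb i} = ⊤)
    (R : List (List ℕ)) (hRk : ∀ w ∈ R, ∀ a ∈ w, a / 2 < kk) (hRG : ∀ w ∈ R, ev gb w = 1)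
    (PB : ∀ (Δ : Type) [Group Δ] [Finite Δ] (d : ℕ → Δ),
      Subgroup.closure {x | ∃ i < kk, x = d i} = ⊤ → (∀ w ∈ R, ev d w = 1) →
        Nat.card Δ ≤ Nat.card G)
    (tab : ℕ → ℕ → ℕ) (N : ℕ) (hv : chkValid tab N (kk + nc) = true)
    (vals : List (List ℕ)) (hlen : vals.length = R.length)
    (hvals : ∀ v ∈ vals, ∀ a ∈ v, kk ≤ a / 2 ∧ a / 2 < kk + nc)
    (hrels : (R.zip vals).all (fun x => chkEq tab N x.1 x.2) = true)
    (hcomm : allBelow (fun j => allBelow
      (fun i => chkEq tab N [2 * (kk + j), 2 * i] [2 * i, 2 * (kk + j)]) kk) nc = true) :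
    ∃ φ : schurM G →* Equiv.Perm (Fin N), ∀ w0 v0 : List ℕ, (∀ a ∈ w0, a / 2 < kk) →
      ev gb w0 = 1 → w0.Perm (v0 ++ v0.map flipL) → ev (pe tab N (kk + nc) hv) w0 ∈ φ.range := by
  obtain ⟨e, he⟩ : ∃ e, e = pe tab N (kk + nc) hv := ⟨_, rfl⟩
  rw [← he]
  have hlt : ∀ {w : List ℕ}, (∀ a ∈ w, a / 2 < kk) → ∀ a ∈ w, a < 2 * (kk + nc) := by
    intro w hw a ha
    have := hw a ha
    omega
  obtain ⟨C, hCdef⟩ : ∃ C, C = Subgroup.closure {x | ∃ j < nc, x = e (kk + j)} := ⟨_, rfl⟩
  have hLe : ∀ i, L e (2 * i) = e i := by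
    intro i
    unfold L
    have e3 : (2 * i) % 2 = 0 := by omega
    have e4 : (2 * i) / 2 = i := by omega
    simp [e3, e4]
  have hRE : ∀ w ∈ R, ev e w ∈ C := by
    intro w hw
    obtain ⟨j, hj, rfl⟩ := List.mem_iff_getElem.mp hw
    have hz : (R[j], vals[j]'(by omega)) ∈ R.zip vals := by
      have : (R.zip vals)[j]'(by simp [hlen]; exact hj) = (R[j], vals[j]'(by omega)) := by simp
      rw [← this]; exact List.getElem_mem _
    have hc := List.all_eq_true.mp hrels _ hz
    have hvj := hvals (vals[j]'(by omega)) (List.getElem_mem _)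
    have := ev_pe_eq hv (hlt (hRk _ hw)) (fun a ha => by have := hvj a ha; omega) hc
    rw [he, this, ← he]
    apply ev_mem
    intro a ha
    obtain ⟨h1, h2⟩ := hvj a ha
    rw [hCdef]
    exact Subgroup.subset_closure ⟨a / 2 - kk, by omega, by congr 1; omega⟩
  have hC : ∀ c ∈ C, ∀ i < kk, c * e i = e i * c := by
    intro c hc i hi
    have hle : C ≤ Subgroup.centralizer {e i} := by
      rw [hCdef, Subgroup.closure_le]
      rintro _ ⟨j, hj, rfl⟩
      rw [SetLike.mem_coe, Subgroup.mem_centralizer_iff]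
      intro y hy
      rw [Set.mem_singleton_iff] at hy
      subst hy
      have hc' := (allBelow_iff _ _).mp ((allBelow_iff _ _).mp hcomm j hj) i hi
      have := ev_pe_eq hv (w := [2 * (kk + j), 2 * i]) (w' := [2 * i, 2 * (kk + j)])
        (by intro a ha; simp at ha; rcases ha with rfl | rfl <;> omega)
        (by intro a ha; simp at ha; rcases ha with rfl | rfl <;> omega) hc'
      rw [← he] at this
      simpa [hLe] using this.symm
    have := Subgroup.mem_centralizer_iff.mp (hle hc) (e i) rfl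
    exact this.symm
  obtain ⟨hs, hk⟩ := graph_central kk gb e C hgen hC R hRk hRG hRE PB
  obtain ⟨f, hf⟩ := exists_surj_schurM G _ hs hk
  refine ⟨(((MonoidHom.snd G (Equiv.Perm (Fin N))).comp (graphX kk gb e).subtype).comp
    (Subgroup.subtype _)).comp f, ?_⟩
  intro w0 v0 hw0k hw0G hperm
  obtain ⟨x, hx⟩ : ∃ x, x = ev (graphGen kk gb e) w0 := ⟨_, rfl⟩
  have hxv : x.1 = (1, ev e w0) := by
    rw [hx, ev_graphGen hw0k, hw0G]
  have hxk : x ∈ ((MonoidHom.fst G (Equiv.Perm (Fin N))).comp (graphX kk gb e).subtype).ker := by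
    rw [MonoidHom.mem_ker]
    change x.1.1 = 1
    rw [hxv]
  have hxc : x ∈ commutator (graphX kk gb e) := by
    rw [hx]; exact ev_mem_commutator_of_perm _ hperm
  obtain ⟨m, hm⟩ := hf ⟨x, hxk, hxc⟩
  refine ⟨m, ?_⟩
  change ((f m).1.1).2 = _
  rw [hm, hxv]

/-- A presentation bound gives homomorphisms out of `G`. -/
theorem exists_hom_of_PB {G E : Type} [Group G] [Group E] [Finite G] [Finite E] (k : ℕ)
    (gb : ℕ → G) (e : ℕ → E)
    (hgen : Subgroup.closure {x | ∃ i < k, x = gb i} = ⊤)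
    (R : List (List ℕ)) (hRk : ∀ w ∈ R, ∀ a ∈ w, a / 2 < k)
    (hRG : ∀ w ∈ R, ev gb w = 1) (hRE : ∀ w ∈ R, ev e w = 1)
    (PB : ∀ (Δ : Type) [Group Δ] [Finite Δ] (d : ℕ → Δ),
      Subgroup.closure {x | ∃ i < k, x = d i} = ⊤ → (∀ w ∈ R, ev d w = 1) →
        Nat.card Δ ≤ Nat.card G) :
    ∃ ψ : G →* E, ∀ i < k, ψ (gb i) = e i := by
  obtain ⟨hs, -⟩ := graph_central k gb e ⊥ hgen
    (fun c hc i _ => by rw [Subgroup.mem_bot.mp hc]; simp) R hRk hRG
    (fun w hw => Subgroup.mem_bot.mpr (hRE w hw)) PB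
  have hgenX : Subgroup.closure {x : graphX k gb e | ∃ i < k, x = graphGen k gb e i} = ⊤ := by
    have h := Subgroup.closure_closure_coe_preimage (k := {x : G × E | ∃ i < k, x = (gb i, e i)})
    have hs : ((↑) ⁻¹' {x : G × E | ∃ i < k, x = (gb i, e i)} :
        Set (Subgroup.closure {x : G × E | ∃ i < k, x = (gb i, e i)})) =
        {x : graphX k gb e | ∃ i < k, x = graphGen k gb e i} := by
      ext x
      constructor
      · rintro ⟨i, hi, hx⟩
        exact ⟨i, hi, Subtype.ext (hx.trans (graphGen_val hi).symm)⟩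
      · rintro ⟨i, hi, rfl⟩
        exact ⟨i, hi, graphGen_val hi⟩
    rw [hs] at h
    exact h
  have hcard : Nat.card (graphX k gb e) ≤ Nat.card G := by
    apply PB _ (graphGen k gb e) hgenX
    intro w hw
    apply Subtype.ext
    rw [ev_graphGen (hRk w hw), hRG w hw, hRE w hw]
    rfl
  have hbij : Function.Bijective ((MonoidHom.fst G E).comp (graphX k gb e).subtype) :=
    hs.bijective_of_nat_card_le hcard
  let ε := MulEquiv.ofBijective _ hbij
  refine ⟨((MonoidHom.snd G E).comp (graphX k gb e).subtype).comp ε.symm.toMonoidHom, ?_⟩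
  intro i hi
  have h1 : ε (graphGen k gb e i) = gb i := by
    change (graphGen k gb e i).1.1 = gb i
    rw [graphGen_val hi]
  have h2 : ε.symm (gb i) = graphGen k gb e i := by
    rw [← h1, MulEquiv.symm_apply_apply]
  change (ε.symm (gb i)).1.2 = e i
  rw [h2, graphGen_val hi]

end Cfsg.Agent.Lib.Helper66.TCE
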