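import Cfsg.Agent.Lib.Helper66.O8CD

set_option autoImplicit false
set_option maxRecDepth 100000
namespace Cfsg.Agent.Lib.Helper66.O8C
open Cfsg.Agent.Lib.Helper66.TCE
theorem chk_valid : chkValid tab 480 10 = true := by decide +kernel
theorem chk_rels : (RGm.zip vals).all (fun x => chkEq tab 480 x.1 x.2) = true := by decide +kernel
theorem chk_comm : allBelow (fun j => allBelow (fun i => chkEq tab 480 [2 * (8 + j), 2 * i] [2 * i, 2 * (8 + j)]) 8) 2 = true := by decide +kernel
theorem chk_permz : wz.Perm (vz ++ vz.map flipL) := by decide +kernel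
theorem chk_permc : wc.Perm (vc ++ vc.map flipL) := by decide +kernel
theorem chk_z2 : chkEq tab 480 (wz ++ wz) [] = true := by decide +kernel
theorem chk_c2 : chkEq tab 480 (wc ++ wc) [] = true := by decide +kernel
theorem chk_z0 : Nat.beq (appW tab wz 0) (appW tab [] 0) = false := by decide +kernel
theorem chk_c0 : Nat.beq (appW tab wc 240) (appW tab [] 240) = false := by decide +kernel
theorem chk_zc : Nat.beq (appW tab wz 240) (appW tab wc 240) = false := by decide +kernel
end Cfsg.Agent.Lib.Helper66.O8C
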