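import Mathlib
import Cfsg.Prelude.Def_KGroupFacts
import Cfsg.Agent.Lib.Helper66.Hopf
import Cfsg.Agent.Lib.Helper66.FibreProd

set_option autoImplicit false

namespace Cfsg.Agent.Lib.Helper66

open scoped commutatorElement

universe u v w

/-- Two homomorphisms from a perfect group that agree modulo a central subgroup are equal. -/
theorem hom_eq_of_perfect_of_central {G : Type u} {X : Type v} {Q : Type w} [Group G] [Group X] [Group Q]
    (hG : commutator G = ⊤) (ξ : X →* Q) (hξ : ξ.ker ≤ Subgroup.center X) (η₁ η₂ : G →* X)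
    (h : ξ.comp η₁ = ξ.comp η₂) : η₁ = η₂ := by
  have hle : commutator G ≤ η₁.eqLocus η₂ := by
    rw [commutator_eq_closure, Subgroup.closure_le]
    rintro _ ⟨a, b, rfl⟩
    change η₁ ⁅a, b⁆ = η₂ ⁅a, b⁆
    rw [map_commutatorElement, map_commutatorElement]
    apply commutatorElement_eq_of_central ξ hξ
    · exact DFunLike.congr_fun h a
    · exact DFunLike.congr_fun h b
  rw [hG] at hle
  ext g
  exact hle (Subgroup.mem_top g)

/-- If `E → Q` is a central extension of a perfect group then `E'` is perfect. -/
theorem commutator_perfect_of_central {E : Type u} {Q : Type v} [Group E] [Group Q]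
    (hQ : commutator Q = ⊤) (ε : E →* Q) (hsurj : Function.Surjective ε)
    (hε : ε.ker ≤ Subgroup.center E) : ⁅commutator E, commutator E⁆ = commutator E := by
  apply le_antisymm
  · exact Subgroup.commutator_le_left _ _
  · have hC : ∀ x : E, ∃ c ∈ commutator E, ε c = ε x := by
      intro x
      have : ε x ∈ commutator Q := by rw [hQ]; trivial
      rw [← map_commutator_eq_of_surjective ε hsurj] at this
      obtain ⟨c, hc, hcx⟩ := this
      exact ⟨c, hc, hcx⟩
    conv_lhs => rw [commutator_eq_closure]
    rw [Subgroup.closure_le]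
    rintro _ ⟨x, y, rfl⟩
    obtain ⟨c, hc, hcx⟩ := hC x
    obtain ⟨d, hd, hdy⟩ := hC y
    rw [← commutatorElement_eq_of_central ε hε hcx hdy]
    exact Subgroup.commutator_mem_commutator hc hd

end Cfsg.Agent.Lib.Helper66
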