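import Cfsg.Agent.Lib.Helper66.CoverTC

/-! # Permutation models given by tables -/

set_option autoImplicit false

namespace Cfsg.Agent.Lib.Helper66.TCE

/-- the action of a word; the last letter acts first -/
def appW (tab : ℕ → ℕ → ℕ) : List ℕ → ℕ → ℕ
  | [], p => p
  | a :: w, p => tab a (appW tab w p)

def chkValid (tab : ℕ → ℕ → ℕ) (N k : ℕ) : Bool :=
  allBelow (fun i => allBelow (fun p =>
    and (Nat.blt (tab (2 * i) p) N) (and (Nat.blt (tab (2 * i + 1) p) N)
      (and (Nat.beq (tab (2 * i + 1) (tab (2 * i) p)) p)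
        (Nat.beq (tab (2 * i) (tab (2 * i + 1) p)) p)))) N) k

/-- two words act in the same way -/
def chkEq (tab : ℕ → ℕ → ℕ) (N : ℕ) (w w' : List ℕ) : Bool :=
  allBelow (fun p => Nat.beq (appW tab w p) (appW tab w' p)) N

variable (tab : ℕ → ℕ → ℕ) (N k : ℕ)

/-- the permutations of the model -/
noncomputable def pe (h : chkValid tab N k = true) (i : ℕ) : Equiv.Perm (Fin N) :=
  if hi : i < k then
    have H := fun p (hp : p < N) => ((allBelow_iff _ _).mp ((allBelow_iff _ _).mp h i hi) p hp)
    { toFun := fun p => ⟨tab (2 * i) p.1, by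
        have := H p.1 p.2
        simp only [Bool.and_eq_true, nblt, nbeq] at this
        exact this.1⟩
      invFun := fun p => ⟨tab (2 * i + 1) p.1, by
        have := H p.1 p.2
        simp only [Bool.and_eq_true, nblt, nbeq] at this
        exact this.2.1⟩
      left_inv := fun p => by
        have := H p.1 p.2
        simp only [Bool.and_eq_true, nblt, nbeq] at this
        exact Fin.ext this.2.2.1
      right_inv := fun p => by
        have := H p.1 p.2
        simp only [Bool.and_eq_true, nblt, nbeq] at this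
        exact Fin.ext this.2.2.2 }
  else 1

variable {tab N k}

theorem L_pe (h : chkValid tab N k = true) {a : ℕ} (ha : a < 2 * k) (p : Fin N) :
    ((L (pe tab N k h) a) p).1 = tab a p.1 := by
  unfold L
  rcases Nat.even_or_odd' a with ⟨m, rfl | rfl⟩
  · have e3 : (2 * m) % 2 = 0 := by omega
    have e4 : (2 * m) / 2 = m := by omega
    have e5 : m < k := by omega
    simp only [e3, e4, if_true]
    unfold pe
    rw [dif_pos e5]
    rfl
  · have e3 : (2 * m + 1) % 2 = 1 := by omega
    have e4 : (2 * m + 1) / 2 = m := by omega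
    have e5 : m < k := by omega
    simp only [e3, e4, one_ne_zero, if_false]
    unfold pe
    rw [dif_pos e5]
    rfl

theorem ev_pe (h : chkValid tab N k = true) {w : List ℕ} (hw : ∀ a ∈ w, a < 2 * k) (p : Fin N) :
    ((ev (pe tab N k h) w) p).1 = appW tab w p.1 := by
  induction w with
  | nil => simp [appW]
  | cons a w ih =>
    rw [ev_cons, Equiv.Perm.mul_apply, L_pe h (hw a (by simp)), ih fun b hb => hw b (by simp [hb])]
    rfl

theorem ev_pe_eq (h : chkValid tab N k = true) {w w' : List ℕ} (hw : ∀ a ∈ w, a < 2 * k)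
    (hw' : ∀ a ∈ w', a < 2 * k) (hc : chkEq tab N w w' = true) :
    ev (pe tab N k h) w = ev (pe tab N k h) w' := by
  ext p
  rw [ev_pe h hw, ev_pe h hw']
  exact nbeq.mp ((allBelow_iff _ _).mp hc p.1 p.2)

theorem ev_pe_ne (h : chkValid tab N k = true) {w w' : List ℕ} (hw : ∀ a ∈ w, a < 2 * k)
    (hw' : ∀ a ∈ w', a < 2 * k) (hN : 0 < N) (hc : Nat.beq (appW tab w 0) (appW tab w' 0) = false) :
    ev (pe tab N k h) w ≠ ev (pe tab N k h) w' := by
  intro he
  have h1 := ev_pe h hw ⟨0, hN⟩
  have h2 := ev_pe h hw' ⟨0, hN⟩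
  rw [he, h2] at h1
  rw [← h1, Nat.beq_refl] at hc
  exact Bool.noConfusion hc

theorem ev_replicate {Γ : Type*} [Group Γ] (g : ℕ → Γ) (a m : ℕ) :
    ev g (List.replicate m a) = L g a ^ m := by
  induction m with
  | zero => simp
  | succ m ih => rw [List.replicate_succ, ev_cons, ih, pow_succ']

end Cfsg.Agent.Lib.Helper66.TCE
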