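import Mathlib
import Cfsg.Prelude.Def_KGroupFacts
import Cfsg.Agent.Lib.Helper66.TransferCentral
import Cfsg.Agent.Lib.Helper66.FieldPairing
import Cfsg.Agent.Lib.Helper5.SL2Sylow

set_option autoImplicit false

namespace Cfsg.Agent.Lib.Helper66

open scoped commutatorElement
open Matrix

universe u v w

theorem commutatorElement_mul_left_of_central {Γ : Type u} [Group Γ] (x y z : Γ)
    (h : ⁅y, z⁆ ∈ Subgroup.center Γ) : ⁅x * y, z⁆ = ⁅x, z⁆ * ⁅y, z⁆ := by
  have h1 : ⁅x * y, z⁆ = x * ⁅y, z⁆ * z * x⁻¹ * z⁻¹ := by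
    simp only [commutatorElement_def]; group
  rw [h1, (Subgroup.mem_center_iff.mp h) x, commutatorElement_def x z,
    (Subgroup.mem_center_iff.mp h) (x * z * x⁻¹ * z⁻¹)]
  simp only [mul_assoc]

theorem commutatorElement_mul_right_of_central {Γ : Type u} [Group Γ] (x y z : Γ)
    (h : ⁅x, z⁆ ∈ Subgroup.center Γ) : ⁅x, y * z⁆ = ⁅x, y⁆ * ⁅x, z⁆ := by
  have h1 : ⁅x, y * z⁆ = x * y * x⁻¹ * ⁅x, z⁆ * y⁻¹ := by
    simp only [commutatorElement_def]; group
  rw [h1, mul_assoc (x * y * x⁻¹), ← (Subgroup.mem_center_iff.mp h) y⁻¹, commutatorElement_def x y]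
  simp only [mul_assoc]

section SL2

variable {F : Type u} [Field F]

/-- upper unitriangular matrices -/
def upperElt (a : F) : SpecialLinearGroup (Fin 2) F :=
  ⟨!![1, a; 0, 1], by simp [Matrix.det_fin_two]⟩

theorem upperElt_coe (a : F) : (upperElt a : Matrix (Fin 2) (Fin 2) F) = !![1, a; 0, 1] := rfl

theorem upperElt_add (a b : F) : upperElt (a + b) = upperElt a * upperElt b := by
  ext i j
  fin_cases i <;> fin_cases j <;>
    simp [upperElt_coe, Matrix.mul_apply, Fin.sum_univ_two, add_comm]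

theorem upperElt_injective : Function.Injective (upperElt : F → SpecialLinearGroup (Fin 2) F) := by
  intro a b h
  have := congrArg (fun g : SpecialLinearGroup (Fin 2) F => g 0 1) h
  simpa [upperElt_coe] using this

/-- the hom `(F, +) → SL₂(F)` -/
def upperHom (F : Type u) [Field F] : Multiplicative F →* SpecialLinearGroup (Fin 2) F where
  toFun a := upperElt (Multiplicative.toAdd a)
  map_one' := by
    ext i j
    fin_cases i <;> fin_cases j <;> simp [upperElt_coe]
  map_mul' a b := upperElt_add _ _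

theorem torus_conj_upper (t : Fˣ) (a : F) :
    Cfsg.Agent.Lib.Helper5.torusSL2 F t * upperElt a * (Cfsg.Agent.Lib.Helper5.torusSL2 F t)⁻¹ =
      upperElt ((t : F) ^ 2 * a) := by
  rw [mul_inv_eq_iff_eq_mul]
  ext i j
  fin_cases i <;> fin_cases j <;>
    simp [upperElt_coe, Cfsg.Agent.Lib.Helper5.torusSL2_coe, Matrix.mul_apply, Fin.sum_univ_two]
  field_simp

theorem card_range_upperHom [Fintype F] : Nat.card (upperHom F).range = Fintype.card F := by
  have hinj : Function.Injective (upperHom F) := fun a b h =>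
    Multiplicative.toAdd.injective (upperElt_injective h)
  rw [← Nat.card_congr (MonoidHom.ofInjective hinj).toEquiv, Nat.card_eq_fintype_card,
    Fintype.card_multiplicative]

theorem index_range_upperHom [Fintype F] :
    (upperHom F).range.index = Fintype.card F ^ 2 - 1 := by
  have h1 := (upperHom F).range.card_mul_index
  rw [card_range_upperHom, Cfsg.Agent.Lib.Helper5.card_SL2] at h1
  exact Nat.eq_of_mul_eq_mul_left Fintype.card_pos h1

open scoped IsMulCommutative in
/-- In a central extension of `SL₂(F)`, `|F| ≠ 4, 9`, the preimage of the upper unitriangular group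
is abelian. -/
theorem comap_upper_commute [Fintype F] (h4 : Fintype.card F ≠ 4) (h9 : Fintype.card F ≠ 9)
    {Γ : Type v} [Group Γ] (σ : Γ →* SpecialLinearGroup (Fin 2) F) (hs : Function.Surjective σ)
    (hc : σ.ker ≤ Subgroup.center Γ)
    (g h : Γ) (hg : σ g ∈ (upperHom F).range) (hh : σ h ∈ (upperHom F).range) : ⁅g, h⁆ = 1 := by
  choose lift hlift using fun a : F => hs (upperElt a)
  have hcen : ∀ a b : F, ⁅lift a, lift b⁆ ∈ Subgroup.center Γ := by
    intro a b
    apply hc
    rw [MonoidHom.mem_ker, map_commutatorElement, hlift, hlift, commutatorElement_eq_one_iff_mul_comm,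
      ← upperElt_add, ← upperElt_add, add_comm]
  let β : F → F → Subgroup.center Γ := fun a b => ⟨⁅lift a, lift b⁆, hcen a b⟩
  have hβ : ∀ a b, β a b = 1 := by
    apply pairing_trivial h4 h9 β
    · intro a a' b
      apply Subtype.ext
      change ⁅lift (a + a'), lift b⁆ = ⁅lift a, lift b⁆ * ⁅lift a', lift b⁆
      rw [← commutatorElement_mul_left_of_central _ _ _ (hcen a' b)]
      apply commutatorElement_eq_of_central σ hc _ rfl
      rw [map_mul, hlift, hlift, hlift, upperElt_add]
    · intro a b b'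
      apply Subtype.ext
      change ⁅lift a, lift (b + b')⁆ = ⁅lift a, lift b⁆ * ⁅lift a, lift b'⁆
      rw [← commutatorElement_mul_right_of_central _ _ _ (hcen a b')]
      apply commutatorElement_eq_of_central σ hc rfl
      rw [map_mul, hlift, hlift, hlift, upperElt_add]
    · intro a
      apply Subtype.ext
      exact commutatorElement_self _
    · intro t ht a b
      apply Subtype.ext
      change ⁅lift (t ^ 2 * a), lift (t ^ 2 * b)⁆ = ⁅lift a, lift b⁆
      obtain ⟨k, hk⟩ := hs (Cfsg.Agent.Lib.Helper5.torusSL2 F (Units.mk0 t ht))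
      have h1 : ⁅lift (t ^ 2 * a), lift (t ^ 2 * b)⁆ =
          ⁅k * lift a * k⁻¹, k * lift b * k⁻¹⁆ := by
        apply commutatorElement_eq_of_central σ hc
        · rw [map_mul, map_mul, map_inv, hk, hlift, hlift, torus_conj_upper]; rfl
        · rw [map_mul, map_mul, map_inv, hk, hlift, hlift, torus_conj_upper]; rfl
      have h2 : ⁅k * lift a * k⁻¹, k * lift b * k⁻¹⁆ = k * ⁅lift a, lift b⁆ * k⁻¹ := by
        simp only [commutatorElement_def]; group
      rw [h1, h2, (Subgroup.mem_center_iff.mp (hcen a b)) k, mul_inv_cancel_right]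
  obtain ⟨a, ha⟩ := hg
  obtain ⟨b, hb⟩ := hh
  have h1 : ⁅g, h⁆ = ⁅lift (Multiplicative.toAdd a), lift (Multiplicative.toAdd b)⁆ := by
    apply commutatorElement_eq_of_central σ hc
    · rw [hlift, ← ha]; rfl
    · rw [hlift, ← hb]; rfl
  rw [h1]
  exact congrArg Subtype.val (hβ _ _)

/-- `SL₂(q)` has trivial Schur multiplier for `q ≠ 4, 9`. -/
theorem stem_SL2_ker_eq_bot [Fintype F] (h4 : Fintype.card F ≠ 4) (h9 : Fintype.card F ≠ 9)
    (hquat : ∀ n : ℕ, [NeZero n] → Cfsg.HasCyclicSchurMultiplier (QuaternionGroup n) 1)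
    (hcyc : ∀ (C : Type u) [Group C] [Finite C] [IsCyclic C], Cfsg.HasCyclicSchurMultiplier C 1)
    {Γ : Type v} [Group Γ] [Finite Γ] (σ : Γ →* SpecialLinearGroup (Fin 2) F)
    (hσ : Cfsg.IsStemExtension σ) : σ.ker = ⊥ := by
  obtain ⟨p, hp⟩ := CharP.exists F
  have hpp : p.Prime := CharP.char_is_prime F p
  have : Fact p.Prime := ⟨hpp⟩
  by_contra hne
  have hcard : Nat.card σ.ker ≠ 1 := by
    intro h
    exact hne (Subgroup.card_eq_one.mp h)
  obtain ⟨r, hr, hrdvd⟩ := Nat.exists_prime_and_dvd hcard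
  have : Fact r.Prime := ⟨hr⟩
  obtain ⟨⟨z, hz⟩, hzr⟩ := exists_prime_orderOf_dvd_card' r hrdvd
  have hzr' : orderOf z = r := by
    rw [← hzr]; exact (Subgroup.orderOf_mk z hz).symm
  have hz1 : z ≠ 1 := by
    intro h
    rw [h, orderOf_one] at hzr'
    exact hr.one_lt.ne hzr'
  apply hz1
  by_cases hrp : r = p
  · -- the characteristic
    apply stem_ker_eq_one_of_subgroup σ hσ (upperHom F).range z hz
    · rw [hzr', index_range_upperHom, hrp]
      obtain ⟨n, -, hq⟩ := FiniteField.card F p
      rw [Nat.Prime.coprime_iff_not_dvd hpp]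
      intro hdvd
      have h1 : p ∣ Fintype.card F ^ 2 := by
        rw [hq]
        exact dvd_pow (dvd_pow_self p n.pos.ne') two_ne_zero
      have h2 : 1 ≤ Fintype.card F ^ 2 := Nat.one_le_pow _ _ Fintype.card_pos
      have h3 : p ∣ 1 := by
        have := Nat.dvd_sub h1 hdvd
        rwa [Nat.sub_sub_self h2] at this
      exact hpp.one_lt.ne' (Nat.dvd_one.mp h3)
    · intro x hx _
      have hcomm : commutator ((upperHom F).range.comap σ) = ⊥ := by
        rw [commutator_eq_closure, Subgroup.closure_eq_bot_iff]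
        rintro _ ⟨g, h, rfl⟩
        rw [Set.mem_singleton_iff]
        apply Subtype.ext
        exact comap_upper_commute h4 h9 σ hσ.1 hσ.2.1 g h g.2 h.2
      rw [hcomm] at hx
      exact Subgroup.mem_bot.mp hx
  · obtain ⟨R⟩ : Nonempty (Sylow r (SpecialLinearGroup (Fin 2) F)) := inferInstance
    have hidx : (orderOf z).Coprime (R : Subgroup (SpecialLinearGroup (Fin 2) F)).index := by
      rw [hzr', Nat.Prime.coprime_iff_not_dvd hr]
      exact R.not_dvd_index
    apply stem_ker_eq_one_of_subgroup σ hσ R z hz hidx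
    by_cases hr2 : r = 2
    · subst hr2
      have hodd : Odd (Fintype.card F) := by
        obtain ⟨n, -, hq⟩ := FiniteField.card F p
        rw [hq]
        apply Odd.pow
        exact hpp.odd_of_ne_two (fun h => hrp h.symm)
      obtain ⟨k, -, ⟨e⟩⟩ := Cfsg.Agent.Lib.Helper5.sylow_two_SL2_quaternion hodd R
      exact comap_commutator_of_trivial_multiplier σ hσ R e (hquat (2 ^ k))
    · have := Cfsg.Agent.Lib.Helper5.sylow_SL2_isCyclic p r hr2 hrp R
      exact comap_commutator_of_trivial_multiplier σ hσ R (MulEquiv.refl _) (hcyc _)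

end SL2

end Cfsg.Agent.Lib.Helper66
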