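import Mathlib
import Cfsg.Prelude.Def_KGroupFacts

/-! # Transport of Schur multipliers along isomorphisms, across universes -/

set_option autoImplicit false

namespace Cfsg.Agent.Lib.Helper66

universe u v w x

theorem exists_copy_univ (Γ : Type v) [Group Γ] [Finite Γ] :
    ∃ (Γ' : Type u) (_ : Group Γ') (_ : Finite Γ'), Nonempty (Γ' ≃* Γ) := by
  obtain ⟨n, ⟨e⟩⟩ := Finite.exists_equiv_fin Γ
  let e' : ULift.{u} (Fin n) ≃ Γ := Equiv.ulift.trans e.symm
  let _ : Group (ULift.{u} (Fin n)) := e'.group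
  exact ⟨ULift.{u} (Fin n), inferInstance, inferInstance, ⟨e'.mulEquiv⟩⟩

theorem stem_transport {Γ : Type u} {Γ' : Type v} {G : Type w} {G' : Type x} [Group Γ] [Group Γ']
    [Group G] [Group G'] (j : Γ' ≃* Γ) (e : G ≃* G') (σ : Γ →* G) (h : Cfsg.IsStemExtension σ) :
    Cfsg.IsStemExtension ((e.toMonoidHom.comp σ).comp j.toMonoidHom) ∧
      Nonempty (((e.toMonoidHom.comp σ).comp j.toMonoidHom).ker ≃* σ.ker) := by
  obtain ⟨hs, hc, hd⟩ := h
  have hk : ∀ y, y ∈ ((e.toMonoidHom.comp σ).comp j.toMonoidHom).ker ↔ j y ∈ σ.ker := by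
    intro y
    rw [MonoidHom.mem_ker, MonoidHom.mem_ker]
    change e (σ (j y)) = 1 ↔ _
    exact EmbeddingLike.map_eq_one_iff
  refine ⟨⟨(e.surjective.comp hs).comp j.surjective, ?_, ?_⟩, ?_⟩
  · intro y hy
    have h1 := hc ((hk y).mp hy)
    rw [Subgroup.mem_center_iff] at h1 ⊢
    intro g
    apply j.injective
    rw [map_mul, map_mul]
    exact h1 (j g)
  · intro y hy
    have h1 := hd ((hk y).mp hy)
    have h2 : (commutator Γ).map j.symm.toMonoidHom = commutator Γ' := by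
      rw [commutator_def, commutator_def, Subgroup.map_commutator,
        Subgroup.map_top_of_surjective _ j.symm.surjective]
    rw [← h2]
    exact ⟨j y, h1, by simp⟩
  · have h3 : (((e.toMonoidHom.comp σ).comp j.toMonoidHom).ker).map j.toMonoidHom = σ.ker := by
      ext z
      constructor
      · rintro ⟨y, hy, rfl⟩
        exact (hk y).mp hy
      · intro hz
        exact ⟨j.symm z, (hk _).mpr (by simpa using hz), by simp⟩
    exact ⟨(j.subgroupMap _).trans (MulEquiv.subgroupCongr h3)⟩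

/-- transport of the multiplier along an isomorphism between groups in different universes -/
theorem hasSchurMultiplier_congr_univ {G : Type u} {G' : Type v} [Group G] [Group G'] (e : G ≃* G')
    {A : Type w} [CommGroup A] (h : Cfsg.HasSchurMultiplier G A) : Cfsg.HasSchurMultiplier G' A := by
  obtain ⟨⟨Γ, i1, i2, σ, hσ, ⟨f⟩⟩, h2⟩ := h
  constructor
  · obtain ⟨Γ', i3, i4, ⟨j⟩⟩ := exists_copy_univ.{v, u} Γ
    obtain ⟨h3, ⟨k⟩⟩ := stem_transport j e σ hσ
    exact ⟨Γ', i3, i4, _, h3, ⟨k.trans f⟩⟩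
  · intro Γ' _ _ σ' hσ'
    obtain ⟨Γ, i3, i4, ⟨j⟩⟩ := exists_copy_univ.{u, v} Γ'
    obtain ⟨h3, ⟨k⟩⟩ := stem_transport j e.symm σ' hσ'
    obtain ⟨π, hπ⟩ := h2 Γ _ h3
    exact ⟨k.toMonoidHom.comp π, k.surjective.comp hπ⟩

end Cfsg.Agent.Lib.Helper66
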