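import Cfsg.Agent.Lib.Helper66.PermModel
import Cfsg.Agent.Lib.Helper5.SpPerfect
import Cfsg.Agent.Lib.Helper5.SpOrder
import Cfsg.Agent.Lib.Helper5.SpCenter

/-! # Generators and relators of `Sp6(2)` adapted to a subgroup `A8` -/

set_option autoImplicit false
set_option maxRecDepth 100000

namespace Cfsg.Agent.Lib.Helper66.Sp6G

open Matrix Cfsg Cfsg.Agent.Lib.Helper13 Cfsg.Agent.Lib.Helper5
open Cfsg.Agent.Lib.Helper66.TCE (ev L appW chkEq allBelow allBelow_iff nbeq nblt ev_cons ev_nil)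

abbrev V := Fin 3 ⊕ Fin 3 → ZMod 2
abbrev Sp := Matrix.symplecticGroup (Fin 3) (ZMod 2)

def idx : Fin 3 ⊕ Fin 3 → ℕ
  | Sum.inl i => i.val
  | Sum.inr i => 3 + i.val

/-- the vector with code `n` -/
def dec (n : ℕ) : V := fun j => ((n / 2 ^ idx j : ℕ) : ZMod 2)

def formN (p n : ℕ) : ℕ :=
  ((p % 2) * (n / 8 % 2) + (p / 2 % 2) * (n / 16 % 2) + (p / 4 % 2) * (n / 32 % 2)
    + (p / 8 % 2) * (n % 2) + (p / 16 % 2) * (n / 2 % 2) + (p / 32 % 2) * (n / 4 % 2)) % 2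

/-- the transvection with centre `n`, on codes -/
def tt (n p : ℕ) : ℕ := bif Nat.beq (formN p n) 1 then Nat.xor p n else p

def n1L : List ℕ := [1, 1, 1, 1, 1, 1, 20]
def n2L : List ℕ := [8, 21, 2, 16, 38, 4, 0]
def SR : List (List ℕ) := [[0, 0, 0], [2, 2], [4, 4], [6, 6], [8, 8], [10, 10], [0, 2, 0, 2, 0, 2], [2, 4, 2, 4, 2, 4], [4, 6, 4, 6, 4, 6], [6, 8, 6, 8, 6, 8], [8, 10, 8, 10, 8, 10], [0, 4, 0, 4], [0, 6, 0, 6], [0, 8, 0, 8], [0, 10, 0, 10], [2, 6, 2, 6], [2, 8, 2, 8], [2, 10, 2, 10], [4, 8, 4, 8], [4, 10, 4, 10], [6, 10, 6, 10]]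
def EX : List (List ℕ) := [[12, 12], [12, 0, 13, 1], [12, 2, 13, 3], [12, 6, 13, 7], [12, 8, 13, 9], [12, 10, 13, 11], [12, 4, 12, 4, 12, 4, 12, 4, 12, 4, 12, 4], [12, 4, 12, 4, 12, 4, 2, 5, 13, 5, 13, 5, 13, 3], [12, 4, 12, 4, 12, 4, 4, 5, 13, 5, 13, 5, 13, 5], [12, 4, 12, 4, 12, 4, 6, 5, 13, 5, 13, 5, 13, 7], [12, 4, 12, 4, 12, 4, 8, 5, 13, 5, 13, 5, 13, 9], [12, 4, 12, 4, 12, 4, 10, 5, 13, 5, 13, 5, 13, 11], [12, 4, 12, 4, 12, 4, 12, 5, 13, 5, 13, 5, 13, 13], [12, 4, 12, 4, 12, 4, 0, 5, 13, 5, 13, 5, 13, 0], [12, 4, 2, 1, 6, 4, 2, 0, 8, 6, 4, 2, 10, 8, 6, 4, 13, 5, 7, 9, 11, 3, 5, 7, 9, 1, 3, 5, 7, 0, 3, 5], [12, 1, 2, 4, 6, 10, 12, 1, 2, 4, 6, 10, 12, 1, 2, 4, 6, 10, 12, 1, 2, 4, 6, 10, 12, 1, 2, 4, 6, 10]]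
def wordsL : List (List ℕ) := [[], [0, 2, 4, 12, 0, 2, 4], [12, 4], [2, 4], [8, 6, 4, 12, 10, 8, 6, 4], [1, 2, 4, 6, 0, 2, 4], [6, 4], [12, 6, 2, 4], [2, 4, 12, 1, 2, 4], [2, 4, 12, 0, 2, 4], [0, 2, 4], [1, 2, 4], [2, 4, 6, 0, 2, 4], [2, 4, 6, 1, 2, 4], [12, 6, 1, 2, 4], [12, 6, 0, 2, 4], [4, 12, 6, 4], [4, 6, 2, 4], [12, 6, 4], [6, 2, 4], [], [4, 12, 2, 4], [4], [12, 2, 4], [4, 6, 0, 2, 4], [4, 6, 1, 2, 4], [6, 1, 2, 4], [6, 0, 2, 4], [4, 12, 1, 2, 4], [4, 12, 0, 2, 4], [12, 0, 2, 4], [12, 1, 2, 4], [8, 6, 4], [12, 8, 6, 2, 4], [6, 4, 12, 10, 8, 6, 4], [10, 6, 8, 4, 6, 2, 4], [10, 8, 6, 4], [12, 10, 8, 6, 2, 4], [6, 4, 12, 8, 6, 4], [6, 8, 4, 6, 2, 4], [12, 8, 6, 0, 2, 4], [12, 8, 6, 1, 2, 4], [8, 2, 4, 6, 1, 2, 4], [8, 2, 4, 6, 0, 2, 4], [12, 10, 8, 6, 1, 2, 4], [12, 10, 8, 6, 0, 2, 4], [6, 8, 4, 6, 0, 2, 4], [6, 8, 4, 6, 1, 2, 4], [12, 10, 8, 6, 4], [10, 8, 6, 2, 4], [4,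 12, 10, 8, 6, 4], [10, 8, 4, 6, 2, 4], [12, 8, 6, 4], [8, 6, 2, 4], [4, 12, 8, 6, 4], [8, 4, 6, 2, 4], [10, 8, 6, 1, 2, 4], [10, 8, 6, 0, 2, 4], [10, 8, 4, 6, 0, 2, 4], [10, 8, 4, 6, 1, 2, 4], [8, 6, 0, 2, 4], [8, 6, 1, 2, 4], [8, 4, 6, 1, 2, 4], [8, 4, 6, 0, 2, 4]]

def cen : List ℕ := [1, 8, 21, 2, 16, 38, 4, 20, 0]

theorem tt_lt : ∀ n ∈ cen, ∀ p < 64, tt n p < 64 := by decide +kernel

theorem tv_dec_aux : ∀ n ∈ cen, ∀ p < 64,
    dec p + ((1 : ZMod 2) * Cfsg.sympForm 3 (ZMod 2) (dec p) (dec n)) • dec n = dec (tt n p) := by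
  decide +kernel

theorem tv_dec {n : ℕ} (hn : n ∈ cen) {p : ℕ} (hp : p < 64) :
    (tv (dec n) 1 : Sp).1 *ᵥ dec p = dec (tt n p) := by
  rw [tv_mulVec]; exact tv_dec_aux n hn p hp

def n1 (i : ℕ) : ℕ := n1L.getD i 0
def n2 (i : ℕ) : ℕ := n2L.getD i 0

theorem n1_mem (i : ℕ) : n1 i ∈ cen := by
  by_cases hi : i < 7
  · have : ∀ i < 7, n1 i ∈ cen := by decide
    exact this i hi
  · have : n1 i = 0 := by
      unfold n1; rw [List.getD_eq_default]; simp [n1L]; omega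
    rw [this]; decide

theorem n2_mem (i : ℕ) : n2 i ∈ cen := by
  by_cases hi : i < 7
  · have : ∀ i < 7, n2 i ∈ cen := by decide
    exact this i hi
  · have : n2 i = 0 := by
      unfold n2; rw [List.getD_eq_default]; simp [n2L]; omega
    rw [this]; decide

/-- the generators in `Sp6(2)` -/
def gs (i : ℕ) : Sp := tv (dec (n1 i)) 1 * tv (dec (n2 i)) 1

def tab (a p : ℕ) : ℕ :=
  bif Nat.beq (a % 2) 0 then tt (n1 (a / 2)) (tt (n2 (a / 2)) p) else tt (n2 (a / 2)) (tt (n1 (a / 2)) p)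

theorem tv_inv_one (v : V) : (tv v 1 : Sp)⁻¹ = tv v 1 := by
  rw [tv_inv]
  have : (-1 : ZMod 2) = 1 := by decide
  rw [this]

theorem L_gs (a : ℕ) {p : ℕ} (hp : p < 64) :
    (L gs a).1 *ᵥ dec p = dec (tab a p) ∧ tab a p < 64 := by
  unfold L tab gs
  by_cases ha : a % 2 = 0
  · have hb : Nat.beq (a % 2) 0 = true := nbeq.mpr ha
    rw [if_pos ha, hb]
    simp only [cond_true]
    have h2 := tt_lt _ (n2_mem (a / 2)) p hp
    rw [sp_mul_mulVec, tv_dec (n2_mem _) hp, tv_dec (n1_mem _) h2]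
    exact ⟨rfl, tt_lt _ (n1_mem _) _ h2⟩
  · have hb : Nat.beq (a % 2) 0 = false := by
      rw [← Bool.not_eq_true, nbeq]; exact ha
    rw [if_neg ha, hb]
    simp only [cond_false]
    have h1 := tt_lt _ (n1_mem (a / 2)) p hp
    rw [_root_.mul_inv_rev, tv_inv_one, tv_inv_one, sp_mul_mulVec, tv_dec (n1_mem _) hp,
      tv_dec (n2_mem _) h1]
    exact ⟨rfl, tt_lt _ (n2_mem _) _ h1⟩

theorem ev_gs (w : List ℕ) {p : ℕ} (hp : p < 64) :
    (ev gs w).1 *ᵥ dec p = dec (appW tab w p) ∧ appW tab w p < 64 := by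
  induction w with
  | nil =>
    rw [ev_nil]
    refine ⟨?_, hp⟩
    change (1 : Matrix _ _ (ZMod 2)) *ᵥ dec p = _
    rw [Matrix.one_mulVec]; rfl
  | cons a w ih =>
    rw [ev_cons, sp_mul_mulVec, ih.1]
    exact L_gs a ih.2

theorem dec_surj (v : V) : ∃ n < 64, dec n = v := by
  have hb : ∀ j, (v j).val < 2 := fun j => ZMod.val_lt _
  refine ⟨(v (Sum.inl 0)).val + 2 * (v (Sum.inl 1)).val + 4 * (v (Sum.inl 2)).val
    + 8 * (v (Sum.inr 0)).val + 16 * (v (Sum.inr 1)).val + 32 * (v (Sum.inr 2)).val, ?_, ?_⟩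
  · have h0 := hb (Sum.inl 0); have h1 := hb (Sum.inl 1); have h2 := hb (Sum.inl 2)
    have h3 := hb (Sum.inr 0); have h4 := hb (Sum.inr 1); have h5 := hb (Sum.inr 2)
    omega
  · have h0 := hb (Sum.inl 0); have h1 := hb (Sum.inl 1); have h2 := hb (Sum.inl 2)
    have h3 := hb (Sum.inr 0); have h4 := hb (Sum.inr 1); have h5 := hb (Sum.inr 2)
    funext j
    unfold dec
    have key : ∀ (x : ℕ) (c : ZMod 2), x % 2 = c.val → ((x : ℕ) : ZMod 2) = c := by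
      intro x c h
      rw [← ZMod.natCast_zmod_val c, ZMod.natCast_eq_natCast_iff']
      rw [h, Nat.mod_eq_of_lt (ZMod.val_lt c)]
    apply key
    have h3c : ∀ i : Fin 3, i = 0 ∨ i = 1 ∨ i = 2 := by decide
    rcases j with i | i <;> rcases h3c i with rfl | rfl | rfl <;> simp only [idx] <;> norm_num <;> omega

def chkW (w : List ℕ) : Bool :=
  w.all (fun a => Nat.blt a 14) && chkEq tab 64 w []

theorem ev_gs_of_chk {w : List ℕ} (h : chkW w = true) : ev gs w = 1 := by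
  simp only [chkW, Bool.and_eq_true] at h
  apply sp_ext
  intro x
  obtain ⟨p, hp, rfl⟩ := dec_surj x
  rw [(ev_gs w hp).1]
  have := nbeq.mp ((allBelow_iff _ _).mp h.2 p hp)
  rw [this]
  change _ = (1 : Matrix _ _ (ZMod 2)) *ᵥ dec p
  rw [Matrix.one_mulVec]; rfl

theorem lt_of_chk {w : List ℕ} (h : chkW w = true) : ∀ a ∈ w, a < 14 := by
  simp only [chkW, Bool.and_eq_true, List.all_eq_true] at h
  exact fun a ha => by simpa [Nat.blt_eq] using h.1 a ha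

theorem SR_chk : SR.all chkW = true := by decide +kernel
theorem EX_chk : EX.all chkW = true := by decide +kernel

theorem words_chk : ∀ n < 64, n ≠ 0 → appW tab (wordsL.getD n []) 20 = n := by decide +kernel

theorem tv_zero_right (v : V) : (tv v 0 : Sp) = 1 := by
  apply sp_ext
  intro x
  rw [tv_mulVec]
  change _ = (1 : Matrix _ _ (ZMod 2)) *ᵥ x
  simp

theorem dec_zero : dec 0 = 0 := by
  funext j; unfold dec; simp

theorem closure_gs : Subgroup.closure {x | ∃ i < 7, x = gs i} = ⊤ := by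
  obtain ⟨H, hH⟩ : ∃ H, H = Subgroup.closure {x | ∃ i < 7, x = gs i} := ⟨_, rfl⟩
  rw [← hH]
  have hg : ∀ i, gs i ∈ H := by
    intro i
    by_cases hi : i < 7
    · rw [hH]; exact Subgroup.subset_closure ⟨i, hi, rfl⟩
    · have e1 : n1 i = 0 := by
        unfold n1; rw [List.getD_eq_default]; simp [n1L]; omega
      have e2 : n2 i = 0 := by
        unfold n2; rw [List.getD_eq_default]; simp [n2L]; omega
      unfold gs
      rw [e1, e2, dec_zero, tv_zero_left]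
      simp [one_mem]
  have ht : (tv (dec 20) 1 : Sp) ∈ H := by
    have := hg 6
    unfold gs at this
    have e1 : n1 6 = 20 := rfl
    have e2 : n2 6 = 0 := rfl
    rw [e1, e2, dec_zero, tv_zero_left, mul_one] at this
    exact this
  rw [eq_top_iff, ← Cfsg.Agent.S0765.result 3, Subgroup.closure_le]
  rintro A ⟨w, c, hA⟩
  have hA' : A = tv w c := Subtype.ext hA
  rw [hA', SetLike.mem_coe]
  obtain ⟨n, hn, rfl⟩ := dec_surj w
  have hc : ∀ c : ZMod 2, c = 0 ∨ c = 1 := by decide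
  rcases hc c with rfl | rfl
  · rw [tv_zero_right]; exact one_mem _
  by_cases h0 : n = 0
  · rw [h0, dec_zero, tv_zero_left]; exact one_mem _
  have h1 := (ev_gs (wordsL.getD n []) (p := 20) (by norm_num)).1
  rw [words_chk n hn h0] at h1
  rw [← h1, ← tv_conj]
  have hw : ev gs (wordsL.getD n []) ∈ H := TCE.ev_mem H gs (fun a _ => hg _)
  exact mul_mem (mul_mem hw ht) (inv_mem hw)

/-- the generators, in `PSp6(2)` -/
def gb (i : ℕ) : PSp 3 (ZMod 2) := QuotientGroup.mk (gs i)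

theorem ev_gb (w : List ℕ) : ev gb w = QuotientGroup.mk (ev gs w) :=
  (TCE.ev_map (QuotientGroup.mk' (Subgroup.center Sp)) gs w).symm

theorem ev_gb_of_chk {w : List ℕ} (h : chkW w = true) : ev gb w = 1 := by
  rw [ev_gb, ev_gs_of_chk h]; rfl

theorem closure_gb : Subgroup.closure {x | ∃ i < 7, x = gb i} = ⊤ := by
  have h := congrArg (Subgroup.map (QuotientGroup.mk' (Subgroup.center Sp))) closure_gs
  rw [MonoidHom.map_closure, Subgroup.map_top_of_surjective _ (QuotientGroup.mk'_surjective _)] at h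
  rw [← h]
  congr 1
  ext x
  constructor
  · rintro ⟨i, hi, rfl⟩; exact ⟨gs i, ⟨i, hi, rfl⟩, rfl⟩
  · rintro ⟨_, ⟨i, hi, rfl⟩, rfl⟩; exact ⟨i, hi, rfl⟩

theorem card_PSp : Nat.card (PSp 3 (ZMod 2)) = 1451520 := by
  have h1 := card_symplecticGroup (F := ZMod 2) 3
  have h2 := card_center_sp (F := ZMod 2) 3 (by norm_num)
  have h3 := Subgroup.card_eq_card_quotient_mul_card_subgroup (Subgroup.center Sp)
  have hc : Fintype.card (ZMod 2) = 2 := ZMod.card 2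
  rw [hc] at h1 h2
  norm_num [Finset.prod_range_succ] at h1
  have h2' : Nat.card (Subgroup.center Sp) = 1 := by rw [h2]; norm_num
  rw [h2', h1, mul_one] at h3
  exact h3.symm

end Cfsg.Agent.Lib.Helper66.Sp6G
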