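import Mathlib

/-!
# A proof-checking engine for Todd–Coxeter certificates

A certificate is a list of *facts* `(c, a, d)` ("coset `c` times letter `a` is coset `d`"), each of
them a definition of a new coset, a subgroup generator at coset `0`, or justified by a closed path
of earlier facts spelling a relator.  Coincidences are facts with a silent letter.
The relators only need to take values in the normal core of the subgroup.
-/

set_option autoImplicit false

namespace Cfsg.Agent.Lib.Helper66.TCE

/-- binary tries of natural numbers, low bit first -/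
inductive BT where
  | leaf (v : ℕ)
  | node (l r : BT)

def BT.get : BT → ℕ → ℕ
  | .leaf v, _ => v
  | .node l r, i =>
    cond (Nat.beq (Nat.land i 1) 0) (l.get (Nat.shiftRight i 1)) (r.get (Nat.shiftRight i 1))

/-- fields of a packed fact -/
def fa (v : ℕ) : ℕ := Nat.land v 127
def fd (v : ℕ) : ℕ := Nat.land (Nat.shiftRight v 7) 4194303
def fc (v : ℕ) : ℕ := Nat.shiftRight v 29

/-- the inverse letter -/
def flipL (a : ℕ) : ℕ := cond (Nat.beq (Nat.mod a 2) 0) (Nat.add a 1) (Nat.sub a 1)

theorem nbeq {a b : ℕ} : Nat.beq a b = true ↔ a = b :=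
  ⟨Nat.eq_of_beq_eq_true, fun h => h ▸ Nat.beq_refl a⟩

theorem nblt {a b : ℕ} : Nat.blt a b = true ↔ a < b := by
  rw [Nat.blt_eq]

def allBelow (f : ℕ → Bool) : ℕ → Bool
  | 0 => true
  | n + 1 => and (f n) (allBelow f n)

theorem allBelow_iff (f : ℕ → Bool) (n : ℕ) : allBelow f n = true ↔ ∀ i < n, f i = true := by
  induction n with
  | zero => simp [allBelow]
  | succ n ih =>
    simp only [allBelow, Bool.and_eq_true, ih]
    constructor
    · rintro ⟨h1, h2⟩ i hi
      rcases Nat.lt_succ_iff_lt_or_eq.mp hi with h | rfl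
      · exact h2 i h
      · exact h1
    · intro h
      exact ⟨h n (Nat.lt_succ_self n), fun i hi => h i (Nat.lt_succ_of_lt hi)⟩

/-- the static data of a certificate -/
structure Data where
  /-- number of generators; the letters `2k`, `2k+1` are silent -/
  k : ℕ
  F : BT
  P : BT
  rels : List (List ℕ)
  subL : List ℕ

/-- the word `rem` starts with the letter `l`, and `f` holds of the rest -/
def headIs (rem : List ℕ) (l : ℕ) (f : List ℕ → Bool) : Bool :=
  match rem with
  | [] => false
  | x :: r => and (Nat.beq x l) (f r)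

theorem headIs_iff {rem : List ℕ} {l : ℕ} {f : List ℕ → Bool} :
    headIs rem l f = true ↔ ∃ r, rem = l :: r ∧ f r = true := by
  cases rem with
  | nil => simp [headIs]
  | cons x r =>
    simp only [headIs, Bool.and_eq_true, nbeq, List.cons.injEq]
    constructor
    · rintro ⟨rfl, h⟩; exact ⟨r, ⟨rfl, rfl⟩, h⟩
    · rintro ⟨r', ⟨rfl, rfl⟩, h⟩; exact ⟨rfl, h⟩

/-- follow a path of earlier facts -/
def walk (F : BT) (k bound tgt : ℕ) : List ℕ → ℕ → List ℕ → Bool
  | [], cur, rem => and (Nat.beq cur tgt) rem.isEmpty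
  | e :: p, cur, rem =>
    let fid := Nat.shiftRight e 1
    let v := F.get fid
    let fw := Nat.beq (Nat.land e 1) 0
    let src := cond fw (fc v) (fd v)
    let dst := cond fw (fd v) (fc v)
    let l := cond fw (fa v) (flipL (fa v))
    and (Nat.blt fid bound) (and (Nat.beq src cur)
      (cond (Nat.beq (Nat.shiftRight l 1) k) (walk F k bound tgt p dst rem)
        (headIs rem l (walk F k bound tgt p dst))))

/-- check of one fact; the justification is `kind :: rot :: path`, kind `0` a definition, `1` a
subgroup letter, `b + 2` the relator number `b`. -/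
def chkFact (D : Data) (id : ℕ) : List ℕ → Bool
  | kind :: rot :: path =>
    let v := D.F.get id
    match kind with
    | 0 => and (Nat.blt (fc v) (fd v))
        (and (Nat.beq (Nat.shiftRight (D.P.get (fd v)) 7) (fc v))
          (Nat.beq (Nat.land (D.P.get (fd v)) 127) (fa v)))
    | 1 => and (Nat.beq (fc v) 0) (and (Nat.beq (fd v) 0) (D.subL.elem (fa v)))
    | b + 2 =>
      let w := D.rels.getD b []
      let w' := w.drop rot ++ w.take rot
      cond (Nat.beq (Nat.shiftRight (fa v) 1) D.k) (walk D.F D.k id (fc v) path (fd v) w')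
        (headIs w' (fa v) (walk D.F D.k id (fc v) path (fd v)))
  | _ => false

def chkAll (D : Data) : List (List ℕ) → ℕ → Bool
  | [], _ => true
  | j :: js, id => and (chkFact D id j) (chkAll D js (id + 1))

/-- the final table is closed -/
def chkFin (D : Data) (n N : ℕ) (live pos fin : BT) : Bool :=
  and (Nat.blt 0 n) (and (Nat.beq (live.get 0) 0)
    (allBelow (fun p => allBelow (fun a =>
      let e := fin.get (p * (2 * D.k) + a)
      let fid := Nat.shiftRight e 1
      let v := D.F.get fid
      let fw := Nat.beq (Nat.land e 1) 0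
      let src := cond fw (fc v) (fd v)
      let dst := cond fw (fd v) (fc v)
      let l := cond fw (fa v) (flipL (fa v))
      and (Nat.blt fid N) (and (Nat.beq src (live.get p)) (and (Nat.beq l a)
        (and (Nat.blt (pos.get dst) n) (Nat.beq (live.get (pos.get dst)) dst))))) (2 * D.k)) n))

section sound

variable {Γ : Type*} [Group Γ]

/-- the value of a letter -/
def L (g : ℕ → Γ) (a : ℕ) : Γ := if a % 2 = 0 then g (a / 2) else (g (a / 2))⁻¹

/-- the value of a word -/
def ev (g : ℕ → Γ) (w : List ℕ) : Γ := (w.map (L g)).prod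

@[simp] theorem ev_nil (g : ℕ → Γ) : ev g [] = 1 := rfl
@[simp] theorem ev_cons (g : ℕ → Γ) (a : ℕ) (w : List ℕ) : ev g (a :: w) = L g a * ev g w := by
  simp [ev]
theorem ev_append (g : ℕ → Γ) (v w : List ℕ) : ev g (v ++ w) = ev g v * ev g w := by
  simp [ev]

theorem L_xor (g : ℕ → Γ) (a : ℕ) : L g (flipL a) = (L g a)⁻¹ := by
  unfold L flipL
  have hm : Nat.mod a 2 = a % 2 := rfl
  rw [hm]
  rcases Nat.even_or_odd' a with ⟨m, rfl | rfl⟩
  · have e3 : (2 * m) % 2 = 0 := by omega
    have e4 : (2 * m) / 2 = m := by omega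
    have e0 : Nat.add (2 * m) 1 = 2 * m + 1 := rfl
    have e1 : (2 * m + 1) % 2 = 1 := by omega
    have e2 : (2 * m + 1) / 2 = m := by omega
    rw [e3]
    simp only [Nat.beq_refl, cond_true, e0, e1, e2, e4]
    simp
  · have e1 : (2 * m + 1) % 2 = 1 := by omega
    have e2 : (2 * m + 1) / 2 = m := by omega
    have e0 : Nat.sub (2 * m + 1) 1 = 2 * m := rfl
    have e3 : (2 * m) % 2 = 0 := by omega
    have e4 : (2 * m) / 2 = m := by omega
    have e5 : Nat.beq 1 0 = false := rfl
    rw [e1]
    simp only [e5, cond_false, e0, e3, e2, e4]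
    simp

theorem L_silent (g : ℕ → Γ) {k : ℕ} (hk : g k = 1) {a : ℕ} (h : Nat.shiftRight a 1 = k) :
    L g a = 1 := by
  have h' : a / 2 = k := by
    have : Nat.shiftRight a 1 = a >>> 1 := rfl
    rw [this, Nat.shiftRight_one] at h
    exact h
  unfold L
  rw [h', hk]
  simp

/-- coset representatives, by recursion along the parent pointers -/
noncomputable def U (g : ℕ → Γ) (P : BT) (d : ℕ) : Γ :=
  if h : Nat.shiftRight (P.get d) 7 < d then
    U g P (Nat.shiftRight (P.get d) 7) * L g (Nat.land (P.get d) 127) else 1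
termination_by d
decreasing_by exact h

theorem U_zero (g : ℕ → Γ) (P : BT) : U g P 0 = 1 := by
  rw [U]; simp

theorem U_of_lt (g : ℕ → Γ) (P : BT) {d : ℕ} (h : Nat.shiftRight (P.get d) 7 < d) :
    U g P d = U g P (Nat.shiftRight (P.get d) 7) * L g (Nat.land (P.get d) 127) := by
  rw [U, dif_pos h]

variable (g : ℕ → Γ) (S : Subgroup Γ) (D : Data)

/-- the fact `v` holds -/
def Holds (v : ℕ) : Prop := U g D.P (fc v) * L g (fa v) * (U g D.P (fd v))⁻¹ ∈ S

variable {g S D}

theorem walk_sound (hk : g D.k = 1) {bound tgt : ℕ}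
    (hF : ∀ f < bound, Holds g S D (D.F.get f)) :
    ∀ (p : List ℕ) (cur : ℕ) (rem : List ℕ), walk D.F D.k bound tgt p cur rem = true →
      U g D.P cur * ev g rem * (U g D.P tgt)⁻¹ ∈ S := by
  intro p
  induction p with
  | nil =>
    intro cur rem h
    simp only [walk, Bool.and_eq_true, nbeq, List.isEmpty_iff] at h
    obtain ⟨rfl, rfl⟩ := h
    simp [S.one_mem]
  | cons e p ih =>
    intro cur rem h
    simp only [walk, Bool.and_eq_true, nbeq] at h
    obtain ⟨h1, h2, h3⟩ := h
    have h1' : Nat.shiftRight e 1 < bound := nblt.mp h1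
    have hv := hF _ h1'
    obtain ⟨v, hvdef⟩ : ∃ v, v = D.F.get (Nat.shiftRight e 1) := ⟨_, rfl⟩
    rw [← hvdef] at hv h2 h3
    obtain ⟨src, dst, l, hs, hstep, h3'⟩ : ∃ src dst l : ℕ, src = cur ∧
        U g D.P src * L g l * (U g D.P dst)⁻¹ ∈ S ∧
        (cond (Nat.beq (Nat.shiftRight l 1) D.k) (walk D.F D.k bound tgt p dst rem)
        (headIs rem l (walk D.F D.k bound tgt p dst))) = true := by
      cases hfw : Nat.beq (Nat.land e 1) 0 with
      | true =>
        rw [hfw] at h2 h3
        exact ⟨fc v, fd v, fa v, h2, hv, h3⟩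
      | false =>
        rw [hfw] at h2 h3
        refine ⟨fd v, fc v, flipL (fa v), h2, ?_, h3⟩
        rw [L_xor]
        have := S.inv_mem hv
        simpa [mul_assoc] using this
    subst hs
    cases hsil : Nat.beq (Nat.shiftRight l 1) D.k with
    | true =>
      rw [hsil] at h3'
      have hl : L g l = 1 := L_silent g hk (Nat.eq_of_beq_eq_true hsil)
      have h4 := ih dst rem h3'
      rw [hl, mul_one] at hstep
      have := S.mul_mem hstep h4
      simpa [mul_assoc] using this
    | false =>
      rw [hsil] at h3'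
      obtain ⟨r, rfl, h5⟩ := headIs_iff.mp h3'
      have h4 := ih dst r h5
      have := S.mul_mem hstep h4
      simpa [mul_assoc] using this

theorem core_rotate {w : List ℕ} (hw : ∀ x : Γ, x * ev g w * x⁻¹ ∈ S) (rot : ℕ) (x : Γ) :
    x * ev g (w.drop rot ++ w.take rot) * x⁻¹ ∈ S := by
  have h1 : ev g w = ev g (w.take rot) * ev g (w.drop rot) := by
    rw [← ev_append, List.take_append_drop]
  have h2 := hw (x * (ev g (w.take rot))⁻¹)
  rw [h1] at h2
  rw [ev_append]
  simpa [mul_assoc] using h2

theorem chkFact_sound (hk : g D.k = 1) (hR : ∀ w ∈ D.rels, ∀ x : Γ, x * ev g w * x⁻¹ ∈ S)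
    (hS : ∀ a ∈ D.subL, L g a ∈ S) {id : ℕ} (hF : ∀ f < id, Holds g S D (D.F.get f))
    {j : List ℕ} (h : chkFact D id j = true) : Holds g S D (D.F.get id) := by
  match j, h with
  | kind :: rot :: path, h =>
    obtain ⟨v, hvdef⟩ : ∃ v, v = D.F.get id := ⟨_, rfl⟩
    rw [← hvdef]
    match kind, h with
    | 0, h =>
      simp only [chkFact, Bool.and_eq_true, nbeq] at h
      rw [← hvdef] at h
      obtain ⟨h1, h2, h3⟩ := h
      have h1' : fc v < fd v := nblt.mp h1
      have hU := U_of_lt g D.P (d := fd v) (by rw [h2]; exact h1')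
      rw [h2, h3] at hU
      unfold Holds
      rw [hU]
      simp [S.one_mem]
    | 1, h =>
      simp only [chkFact, Bool.and_eq_true, nbeq] at h
      rw [← hvdef] at h
      obtain ⟨h1, h2, h3⟩ := h
      unfold Holds
      rw [h1, h2, U_zero]
      simpa using hS _ (List.elem_iff.mp h3)
    | b + 2, h =>
      simp only [chkFact] at h
      rw [← hvdef] at h
      obtain ⟨w', hw'⟩ : ∃ w', w' = (D.rels.getD b []).drop rot ++ (D.rels.getD b []).take rot :=
        ⟨_, rfl⟩
      rw [← hw'] at h
      have hcore : ∀ x : Γ, x * ev g w' * x⁻¹ ∈ S := by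
        intro x
        rw [hw']
        apply core_rotate
        by_cases hb : b < D.rels.length
        · have : D.rels.getD b [] ∈ D.rels := by
            rw [List.getD_eq_getElem _ _ hb]; exact List.getElem_mem hb
          exact hR _ this
        · rw [List.getD_eq_default _ _ (by omega)]
          intro y; simp [S.one_mem]
      have hc := hcore (U g D.P (fc v))
      unfold Holds
      cases hsil : Nat.beq (Nat.shiftRight (fa v) 1) D.k with
      | true =>
        rw [hsil] at h
        have hl : L g (fa v) = 1 := L_silent g hk (Nat.eq_of_beq_eq_true hsil)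
        have h4 := walk_sound hk hF path (fd v) w' h
        rw [hl, mul_one]
        have := S.mul_mem hc (S.inv_mem h4)
        simpa [mul_assoc] using this
      | false =>
        rw [hsil] at h
        obtain ⟨r, hr, h5⟩ := headIs_iff.mp h
        rw [hr] at hc
        have h4 := walk_sound hk hF path (fd v) r h5
        have := S.mul_mem hc (S.inv_mem h4)
        simpa [mul_assoc] using this

theorem chkAll_sound (hk : g D.k = 1) (hR : ∀ w ∈ D.rels, ∀ x : Γ, x * ev g w * x⁻¹ ∈ S)
    (hS : ∀ a ∈ D.subL, L g a ∈ S) :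
    ∀ (js : List (List ℕ)) (id : ℕ), chkAll D js id = true →
      (∀ f < id, Holds g S D (D.F.get f)) → ∀ f < id + js.length, Holds g S D (D.F.get f) := by
  intro js
  induction js with
  | nil => intro id _ h f hf; exact h f (by simpa using hf)
  | cons j js ih =>
    intro id h hF f hf
    simp only [chkAll, Bool.and_eq_true] at h
    have h1 := chkFact_sound hk hR hS hF h.1
    refine ih (id + 1) h.2 ?_ f (by simp only [List.length_cons] at hf; omega)
    intro f' hf'
    rcases Nat.lt_succ_iff_lt_or_eq.mp hf' with h' | rfl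
    · exact hF f' h'
    · exact h1

/-- **Main theorem.**  A checked certificate bounds the order of the group. -/
theorem card_le [Finite Γ] (hk : g D.k = 1)
    (hgen : Subgroup.closure {x | ∃ i < D.k, x = g i} = ⊤)
    (hR : ∀ w ∈ D.rels, ∀ x : Γ, x * ev g w * x⁻¹ ∈ S)
    (hS : ∀ a ∈ D.subL, L g a ∈ S) (js : List (List ℕ)) (hjs : chkAll D js 0 = true)
    (n : ℕ) (live pos fin : BT) (hfin : chkFin D n js.length live pos fin = true) :
    Nat.card Γ ≤ n * Nat.card S := by
  have hF : ∀ f < js.length, Holds g S D (D.F.get f) := by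
    have := chkAll_sound hk hR hS js 0 hjs (fun f hf => absurd hf (Nat.not_lt_zero f))
    simpa using this
  simp only [chkFin, Bool.and_eq_true, nbeq, allBelow_iff] at hfin
  obtain ⟨hn, h0, hcl⟩ := hfin
  have hn' : 0 < n := nblt.mp hn
  have hstep : ∀ p < n, ∀ a < 2 * D.k, ∃ q < n,
      U g D.P (live.get p) * L g a * (U g D.P (live.get q))⁻¹ ∈ S := by
    intro p hp a ha
    obtain ⟨h1, h2, h3, h4, h5⟩ := hcl p hp a ha
    have h1' : Nat.shiftRight (fin.get (p * (2 * D.k) + a)) 1 < js.length := by
      simpa [Nat.blt_eq] using h1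
    have hv := hF _ h1'
    obtain ⟨v, hvdef⟩ : ∃ v, v = D.F.get (Nat.shiftRight (fin.get (p * (2 * D.k) + a)) 1) :=
      ⟨_, rfl⟩
    rw [← hvdef] at hv h2 h3 h4 h5
    cases hfw : Nat.beq (Nat.land (fin.get (p * (2 * D.k) + a)) 1) 0 with
    | true =>
      rw [hfw] at h2 h3 h4 h5
      simp only [cond_true] at h2 h3 h4 h5
      refine ⟨pos.get (fd v), nblt.mp h4, ?_⟩
      rw [h5, ← h2, ← h3]
      exact hv
    | false =>
      rw [hfw] at h2 h3 h4 h5
      simp only [cond_false] at h2 h3 h4 h5
      refine ⟨pos.get (fc v), nblt.mp h4, ?_⟩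
      rw [h5, ← h2, ← h3, L_xor]
      have := S.inv_mem hv
      simpa [mul_assoc] using this
  have hcov : ∀ x : Γ, ∃ p < n, x * (U g D.P (live.get p))⁻¹ ∈ S := by
    intro x
    have hx : x ∈ Subgroup.closure {x | ∃ i < D.k, x = g i} := by rw [hgen]; trivial
    induction hx using Subgroup.closure_induction_right with
    | one => exact ⟨0, hn', by rw [h0, U_zero]; simp [S.one_mem]⟩
    | mul_right x y _ hy ih =>
      obtain ⟨i, hi, rfl⟩ := hy
      obtain ⟨p, hp, hxp⟩ := ih
      obtain ⟨q, hq, hpq⟩ := hstep p hp (2 * i) (by omega)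
      refine ⟨q, hq, ?_⟩
      have hL : L g (2 * i) = g i := by
        unfold L
        have e3 : (2 * i) % 2 = 0 := by omega
        have e4 : (2 * i) / 2 = i := by omega
        simp [e3, e4]
      rw [hL] at hpq
      have := S.mul_mem hxp hpq
      simpa [mul_assoc] using this
    | mul_inv_cancel x y _ hy ih =>
      obtain ⟨i, hi, rfl⟩ := hy
      obtain ⟨p, hp, hxp⟩ := ih
      obtain ⟨q, hq, hpq⟩ := hstep p hp (2 * i + 1) (by omega)
      refine ⟨q, hq, ?_⟩
      have hL : L g (2 * i + 1) = (g i)⁻¹ := by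
        unfold L
        have e3 : (2 * i + 1) % 2 = 1 := by omega
        have e4 : (2 * i + 1) / 2 = i := by omega
        simp [e3, e4]
      rw [hL] at hpq
      have := S.mul_mem hxp hpq
      simpa [mul_assoc] using this
  let φ : Fin n → Γ ⧸ S := fun p => QuotientGroup.mk ((U g D.P (live.get p.val))⁻¹)
  have hφ : Function.Surjective φ := by
    intro q
    obtain ⟨x, rfl⟩ := QuotientGroup.mk_surjective q
    obtain ⟨p, hp, hxp⟩ := hcov x⁻¹
    refine ⟨⟨p, hp⟩, ?_⟩
    change (QuotientGroup.mk ((U g D.P (live.get p))⁻¹) : Γ ⧸ S) = QuotientGroup.mk x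
    rw [QuotientGroup.eq]
    have := S.inv_mem hxp
    simpa using this
  have h1 : Nat.card (Γ ⧸ S) ≤ n := by
    have := Nat.card_le_card_of_surjective φ hφ
    simpa using this
  rw [Subgroup.card_eq_card_quotient_mul_card_subgroup S]
  exact Nat.mul_le_mul_right _ h1

end sound

end Cfsg.Agent.Lib.Helper66.TCE
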